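import Mathlib
import Cfsg.Prelude.Def_Classical
import Cfsg.Agent.Lib.H7.HypOrd

set_option autoImplicit false

/-! Embedding groups of linear isometries of an abstract space into `Cfsg.isometryGroup`. -/

namespace H49.EmbedIsom

open H7.Hyp

variable {F V : Type*} [Field F] [AddCommGroup V] [Module F V]

/-- Transport a faithful isometric linear action to `Cfsg.isometryGroup`. -/
theorem embed_of_equiv {G : Type*} [Group G] (ρ : G →* (V ≃ₗ[F] V))
    (hρ : Function.Injective ρ) (QV : V → F) (hQ : ∀ g v, QV (ρ g v) = QV v)
    {ι : Type} [Fintype ι] [DecidableEq ι] (Q : (ι → F) → F) (e : V ≃ₗ[F] (ι → F))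
    (he : ∀ v, Q (e v) = QV v) :
    ∃ φ : G →* ↥(Cfsg.isometryGroup F Q), Function.Injective φ := by
  let ψ : G →* O Q :=
    { toFun := fun g => ⟨(e.symm.trans (ρ g)).trans e, by
        intro v
        change Q (e (ρ g (e.symm v))) = Q v
        rw [he, hQ, ← he, e.apply_symm_apply]⟩
      map_one' := by
        apply Subtype.ext
        apply LinearEquiv.ext
        intro v
        change e (ρ 1 (e.symm v)) = v
        rw [map_one]
        exact e.apply_symm_apply v
      map_mul' := by
        intro a b
        apply Subtype.ext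
        apply LinearEquiv.ext
        intro v
        change e (ρ (a * b) (e.symm v)) = e (ρ a (e.symm (e (ρ b (e.symm v)))))
        rw [map_mul, e.symm_apply_apply]
        rfl }
  have hψ : Function.Injective ψ := by
    intro a b hab
    apply hρ
    apply LinearEquiv.ext
    intro v
    have h1 := congrArg (fun x : O Q => (x : (ι → F) ≃ₗ[F] (ι → F)) (e v)) hab
    have h2 : e (ρ a (e.symm (e v))) = e (ρ b (e.symm (e v))) := h1
    rw [e.symm_apply_apply] at h2
    exact e.injective h2
  exact ⟨(H7.HypOrd.matEquiv Q).symm.toMonoidHom.comp ψ,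
    (H7.HypOrd.matEquiv Q).symm.injective.comp hψ⟩

/-- `GL ι K` acting on `ι → K` by `F`-linear maps, for an algebra `K` over `F`. -/
def restrictAct (F : Type*) [Field F] {K : Type*} [Field K] [Algebra F K] {ι : Type*} [Fintype ι]
    [DecidableEq ι] : Matrix.GeneralLinearGroup ι K →* ((ι → K) ≃ₗ[F] (ι → K)) where
  toFun g :=
    { toFun := fun v => (g : Matrix ι ι K).mulVec v
      invFun := fun v => ((g⁻¹ : Matrix.GeneralLinearGroup ι K) : Matrix ι ι K).mulVec v
      map_add' := fun u v => Matrix.mulVec_add _ u v
      map_smul' := by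
        intro c v
        have h1 : ∀ w : ι → K, c • w = (algebraMap F K c) • w := by
          intro w; ext j; simp [Algebra.smul_def]
        rw [h1, Matrix.mulVec_smul, RingHom.id_apply, h1]
      left_inv := by
        intro v
        change ((g⁻¹ : Matrix.GeneralLinearGroup ι K) : Matrix ι ι K).mulVec
          ((g : Matrix ι ι K).mulVec v) = v
        rw [Matrix.mulVec_mulVec, Units.inv_mul, Matrix.one_mulVec]
      right_inv := by
        intro v
        change (g : Matrix ι ι K).mulVec
          (((g⁻¹ : Matrix.GeneralLinearGroup ι K) : Matrix ι ι K).mulVec v) = v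
        rw [Matrix.mulVec_mulVec, Units.mul_inv, Matrix.one_mulVec] }
  map_one' := by
    apply LinearEquiv.ext; intro v
    exact Matrix.one_mulVec v
  map_mul' g h := by
    apply LinearEquiv.ext; intro v
    exact (Matrix.mulVec_mulVec v _ _).symm

theorem restrictAct_apply (F : Type*) [Field F] {K : Type*} [Field K] [Algebra F K] {ι : Type*}
    [Fintype ι] [DecidableEq ι] (g : Matrix.GeneralLinearGroup ι K) (v : ι → K) :
    restrictAct F g v = (g : Matrix ι ι K).mulVec v := rfl

theorem restrictAct_injective (F : Type*) [Field F] {K : Type*} [Field K] [Algebra F K]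
    {ι : Type*} [Fintype ι] [DecidableEq ι] :
    Function.Injective (restrictAct F : Matrix.GeneralLinearGroup ι K →* _) := by
  intro g h hgh
  apply Units.ext
  apply Matrix.mulVec_injective
  funext v
  exact congrArg (fun x : (ι → K) ≃ₗ[F] (ι → K) => x v) hgh

end H49.EmbedIsom
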