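import Mathlib
import Cfsg.Agent.Lib.H49.EmbedIsom
import Cfsg.Agent.Lib.H48.QuadStd

set_option autoImplicit false

/-! Isometries stay isometries after extension of the field. -/

namespace H49.BaseChange

open QuadraticMap

variable {F K : Type*} [Field F] [Field K]

theorem quad_ext {ι : Type*} [Fintype ι] [DecidableEq ι] (Q Q' : QuadraticForm K (ι → K))
    (h1 : ∀ j, Q (Pi.single j 1) = Q' (Pi.single j 1))
    (h2 : ∀ j k, Q (Pi.single j 1 + Pi.single k 1) = Q' (Pi.single j 1 + Pi.single k 1)) :
    Q = Q' := by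
  have hpol : ∀ x y, polar (Q - Q') x y = 0 := by
    have h3 : polarBilin (Q - Q') = 0 := by
      apply LinearMap.BilinForm.ext_basis (Pi.basisFun K ι)
      intro j k
      rw [polarBilin_apply_apply, Pi.basisFun_apply, Pi.basisFun_apply]
      simp only [polar, _root_.sub_apply, h1, h2, LinearMap.zero_apply]
      ring
    intro x y
    have := congrArg (fun B => B x y) h3
    rw [← polarBilin_apply_apply]; exact this
  have hadd : ∀ x y, (Q - Q') (x + y) = (Q - Q') x + (Q - Q') y := by
    intro x y
    rw [QuadraticMap.map_add (Q - Q'), hpol, add_zero]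
  have hsum : ∀ (s : Finset ι) (f : ι → (ι → K)), (Q - Q') (∑ j ∈ s, f j) = ∑ j ∈ s, (Q - Q') (f j) := by
    intro s f
    induction s using Finset.induction_on with
    | empty => simp
    | insert a s ha ih => rw [Finset.sum_insert ha, Finset.sum_insert ha, hadd, ih]
  rw [← sub_eq_zero]
  ext w
  have hw : w = ∑ j, w j • (Pi.single j (1 : K) : ι → K) := by
    conv_lhs => rw [← (Pi.basisFun K ι).sum_repr w]
    apply Finset.sum_congr rfl; intro j _
    rw [Pi.basisFun_repr, Pi.basisFun_apply]
  rw [hw, hsum]
  simp only [QuadraticMap.map_smul, _root_.sub_apply, h1, sub_self,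
    Finset.sum_const_zero, _root_.zero_apply]

theorem isom_map {ι : Type*} [Fintype ι] [DecidableEq ι] (i : F →+* K)
    (QF : QuadraticForm F (ι → F)) (QK : QuadraticForm K (ι → K))
    (hQ : ∀ v, QK (fun j => i (v j)) = i (QF v)) (g : Matrix ι ι F)
    (hg : ∀ v, QF (g.mulVec v) = QF v) (w : ι → K) : QK ((g.map i).mulVec w) = QK w := by
  have hmv : ∀ v : ι → F, (g.map i).mulVec (fun j => i (v j)) = fun j => i (g.mulVec v j) := by
    intro v
    ext j
    simp [Matrix.mulVec, dotProduct, map_sum]
  have hkey : ∀ v : ι → F, QK ((g.map i).mulVec (fun j => i (v j))) = QK (fun j => i (v j)) := by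
    intro v
    rw [hmv, hQ, hQ, hg]
  have hs : ∀ j : ι, (Pi.single j (1 : K) : ι → K) = fun k => i ((Pi.single j (1 : F) : ι → F) k) := by
    intro j; ext k
    by_cases h : k = j
    · subst h; simp
    · simp [Pi.single_eq_of_ne h]
  have hs2 : ∀ j k : ι, (Pi.single j (1 : K) + Pi.single k 1 : ι → K) =
      fun l => i ((Pi.single j (1 : F) + Pi.single k 1 : ι → F) l) := by
    intro j k; rw [hs, hs]; ext l; simp
  have h := quad_ext (QK.comp (Matrix.toLin' (g.map i))) QK
    (by intro j; rw [QuadraticMap.comp_apply, Matrix.toLin'_apply, hs, hkey])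
    (by intro j k; rw [QuadraticMap.comp_apply, Matrix.toLin'_apply, hs2, hkey])
  have h2 := congrArg (fun Q => Q w) h
  rw [← Matrix.toLin'_apply]
  exact h2

/-- isometry groups embed under extension of scalars followed by an equivalence -/
theorem embed_baseChange {ι κ : Type} [Fintype ι] [DecidableEq ι] [Fintype κ] [DecidableEq κ]
    (i : F →+* K) (QF : QuadraticForm F (ι → F)) (QK : QuadraticForm K (ι → K))
    (hQ : ∀ v, QK (fun j => i (v j)) = i (QF v)) (Q' : QuadraticForm K (κ → K))
    (he : QK.Equivalent Q') :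
    ∃ φ : ↥(Cfsg.isometryGroup F ⇑QF) →* ↥(Cfsg.isometryGroup K ⇑Q'), Function.Injective φ := by
  obtain ⟨e⟩ := he
  refine EmbedIsom.embed_of_equiv ((EmbedIsom.restrictAct K).comp
    ((Matrix.GeneralLinearGroup.map i).comp (Cfsg.isometryGroup F ⇑QF).subtype)) ?_ ⇑QK ?_ ⇑Q'
    e.toLinearEquiv ?_
  · have hmap : Function.Injective (Matrix.GeneralLinearGroup.map i :
        Matrix.GeneralLinearGroup ι F →* Matrix.GeneralLinearGroup ι K) := by
      intro a b hab
      apply Units.ext
      ext j k
      have h1 := congrArg (fun M : Matrix.GeneralLinearGroup ι K => (M : Matrix ι ι K) j k) hab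
      exact i.injective h1
    exact (EmbedIsom.restrictAct_injective K).comp
      (hmap.comp (Subgroup.subtype_injective _))
  · intro g v
    exact isom_map i QF QK hQ _ (fun v => g.2 v v) v
  · intro v; exact e.map_app v

end H49.BaseChange
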