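import Cfsg.Agent.Lib.H22.ChevMain
import Cfsg.Agent.Lib.H22.ChevField
import Cfsg.Agent.Lib.H22.ChevTorus
import Cfsg.Agent.Lib.H22.ChevUni
import Cfsg.Agent.Lib.H22.ChevAll
import Cfsg.Agent.Lib.H22.ChevTorusCard
import Cfsg.Agent.Lib.H49.FixedField
import Cfsg.Prelude.Def_ChevAutomorphisms

set_option autoImplicit false
set_option linter.unusedSectionVars false

/-!
Elements of a Chevalley group fixed by a field automorphism come from the group over the fixed field
(when the torus is parametrised faithfully by the fundamental coroots).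
-/

namespace H49.ChevFixed

open H22.RGD H22.RCCheck H22.RCComb H22.ChevRel H22.ChevSys H22.ChevMain H22.ChevTorus H22.ChevUni
open H22.ChevField
open Cfsg.Lie (ChevalleyDatum)
open scoped MatrixGroups Matrix

variable {D : ChevalleyDatum} {F F₀ : Type*} [Field F] [Field F₀]

section image

variable (R : Rel D F) (R₀ : Rel D F₀) (ι : F₀ →+* F)

/-- the image of the group over the small field -/
def Im (D : ChevalleyDatum) {F F₀ : Type*} [Field F] [Field F₀] (ι : F₀ →+* F) :
    Subgroup (GL D.Idx F) := (D.group F₀).map (Matrix.GeneralLinearGroup.map ι)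

include R₀ in
theorem xg_mem_Im {r : ℕ} (hr : r < D.nroots) (y : F₀) : xg R r (ι y) ∈ Im D ι := by
  refine ⟨xg R₀ r y, xg_mem_group R₀ hr y, ?_⟩
  apply Units.ext
  exact x_map ι r y

include R₀ in
theorem wg_mem_Im (w : List (ℕ × F)) (h : ∀ p ∈ w, p.1 < D.nroots ∧ ∃ y, ι y = p.2) :
    wg R w ∈ Im D ι := by
  refine wg_mem R w fun p hp => ?_
  obtain ⟨h1, y, hy⟩ := h p hp
  rw [← hy]
  exact xg_mem_Im R R₀ ι h1 y

include R₀ in
theorem ng_mem_Im (Q : RC D) {r : ℕ} (hr : r < D.nroots) (y : F₀) : ng R r (ι y) ∈ Im D ι := by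
  refine wg_mem_Im R R₀ ι _ fun p hp => ?_
  simp only [ChevalleyDatum.nWord, List.mem_cons, List.not_mem_nil, or_false] at hp
  rcases hp with rfl | rfl | rfl
  · exact ⟨hr, y, rfl⟩
  · exact ⟨neg_lt Q hr, -y⁻¹, by rw [map_neg, map_inv₀]⟩
  · exact ⟨hr, y, rfl⟩

include R₀ in
theorem hg_mem_Im (Q : RC D) {r : ℕ} (hr : r < D.nroots) (y : F₀) : hg R r (ι y) ∈ Im D ι := by
  refine wg_mem_Im R R₀ ι _ fun p hp => ?_
  simp only [ChevalleyDatum.hWord, ChevalleyDatum.nWord, List.mem_append, List.mem_cons,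
    List.not_mem_nil, or_false] at hp
  rcases hp with (rfl | rfl | rfl) | (rfl | rfl | rfl)
  · exact ⟨hr, y, rfl⟩
  · exact ⟨neg_lt Q hr, -y⁻¹, by rw [map_neg, map_inv₀]⟩
  · exact ⟨hr, y, rfl⟩
  · exact ⟨hr, -1, by rw [map_neg, map_one]⟩
  · exact ⟨neg_lt Q hr, -(-1)⁻¹, by rw [map_neg, map_inv₀, map_neg, map_one]⟩
  · exact ⟨hr, -1, by rw [map_neg, map_one]⟩

end image

section action

variable (R : Rel D F) (σ : F →+* F)

theorem s_xg (r : ℕ) (t : F) : Matrix.GeneralLinearGroup.map σ (xg R r t) = xg R r (σ t) :=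
  Units.ext (x_map σ r t)

theorem s_wg (w : List (ℕ × F)) : Matrix.GeneralLinearGroup.map σ (wg R w) =
    wg R (w.map fun p => (p.1, σ p.2)) := by
  unfold wg
  rw [map_list_prod, List.map_map, List.map_map]
  congr 1
  apply List.map_congr_left
  intro p _
  exact s_xg R σ p.1 p.2

theorem s_ng (r : ℕ) (t : F) : Matrix.GeneralLinearGroup.map σ (ng R r t) = ng R r (σ t) := by
  unfold ng
  rw [s_wg]
  congr 1
  simp [ChevalleyDatum.nWord]

theorem s_hg (r : ℕ) (t : F) : Matrix.GeneralLinearGroup.map σ (hg R r t) = hg R r (σ t) := by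
  unfold hg
  rw [s_wg]
  congr 1
  simp [ChevalleyDatum.hWord, ChevalleyDatum.nWord]

theorem s_ns (i : ℕ) : Matrix.GeneralLinearGroup.map σ (ns R i) = ns R i := by
  unfold ns
  rw [s_ng, map_one]

theorem s_pr (t : ℕ → F) (k m : ℕ) : Matrix.GeneralLinearGroup.map σ (pr R t k m) =
    pr R (fun r => σ (t r)) k m := by
  unfold pr
  rw [map_list_prod, List.map_map]
  congr 1
  apply List.map_congr_left
  intro p _
  exact s_xg R σ p (t p)

theorem s_prodH (c : ℕ → F) : Matrix.GeneralLinearGroup.map σ (prodH R c) =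
    prodH R (fun i => σ (c i)) := by
  unfold prodH
  rw [map_list_prod, List.map_map]
  congr 1
  apply List.map_congr_left
  intro i _
  exact s_hg R σ _ (c i)

include R in
theorem s_rootSubgroup {r : ℕ} {g : GL D.Idx F} (hg : g ∈ D.rootSubgroup F r) :
    Matrix.GeneralLinearGroup.map σ g ∈ D.rootSubgroup F r := by
  rw [mem_rootSubgroup R] at hg ⊢
  obtain ⟨t, rfl⟩ := hg
  exact ⟨σ t, s_xg R σ r t⟩

include R in
theorem s_iSup {J : Sort*} (f : J → ℕ) {g : GL D.Idx F} (hg : g ∈ ⨆ j, D.rootSubgroup F (f j)) :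
    Matrix.GeneralLinearGroup.map σ g ∈ ⨆ j, D.rootSubgroup F (f j) := by
  have h : (⨆ j, D.rootSubgroup F (f j)) ≤
      (⨆ j, D.rootSubgroup F (f j)).comap (Matrix.GeneralLinearGroup.map σ) := by
    refine iSup_le fun j => ?_
    intro x hx
    exact Subgroup.mem_iSup_of_mem j (s_rootSubgroup R σ hx)
  exact h hg

end action

variable (R : Rel D F) (R₀ : Rel D F₀) (X : RCX D) (ι : F₀ →+* F)

theorem map_nw (σ : F →+* F) (L : List (Fin D.rank)) :
    Matrix.GeneralLinearGroup.map σ ((chevSys R X).nw L) = (chevSys R X).nw L := by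
  induction L with
  | nil => exact map_one _
  | cons i L ih =>
    rw [Sys.nw_cons, map_mul, ih]
    congr 1
    exact s_ns R σ i

include R₀ in
theorem nw_mem_Im (L : List (Fin D.rank)) : (chevSys R X).nw L ∈ Im D ι := by
  induction L with
  | nil => exact (Im D ι).one_mem
  | cons i L ih =>
    rw [Sys.nw_cons]
    refine (Im D ι).mul_mem ?_ ih
    have h := ng_mem_Im R R₀ ι X.rc (X.rc.simple_lt i i.2) 1
    rw [map_one] at h
    exact h

include R₀ R in
/-- fixed elements come from the small group -/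
theorem mem_Im_of_fixed (Z : Lex X.rc) (hker : ∀ c ∈ (chi D F).ker, c = 1) (σ : F ≃+* F)
    (hσ : ∀ x, σ x = x → ∃ y, ι y = x) {g : GL D.Idx F} (hg : g ∈ D.group F)
    (hfix : Matrix.GeneralLinearGroup.map (σ : F →+* F) g = g) : g ∈ Im D ι := by
  rw [← chevSys_Γ R X] at hg
  obtain ⟨b, hb, m, w, hm, u, hu, rfl⟩ := (chevSys R X).normal_form hg
  obtain ⟨L, rfl⟩ := (comb X).exists_word hm.2.1
  obtain ⟨k, hk, hmk⟩ := (chevSys R X).rep_mod_H hm ((chevSys R X).rep_nw L)
  -- `m = nw L * k⁻¹`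
  have hm' : m = (chevSys R X).nw L * k⁻¹ := by rw [hmk, mul_inv_cancel_right]
  have hk' : (chevSys R X).nw L * k⁻¹ * ((chevSys R X).nw L)⁻¹ ∈ (chevSys R X).H :=
    (chevSys R X).N_conj_H ((chevSys R X).nw_mem_N L) ((chevSys R X).H.inv_mem hk)
  obtain ⟨b', hb', hbb⟩ : ∃ b' ∈ (chevSys R X).B,
      b * m * u = b' * (chevSys R X).nw L * u := by
    refine ⟨b * ((chevSys R X).nw L * k⁻¹ * ((chevSys R X).nw L)⁻¹),
      (chevSys R X).B.mul_mem hb ((chevSys R X).H_le_B hk'), ?_⟩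
    rw [hm']; group
  rw [hbb] at hfix ⊢
  have hsU : ∀ x ∈ (chevSys R X).U, Matrix.GeneralLinearGroup.map (σ : F →+* F) x ∈
      (chevSys R X).U := fun x hx =>
    s_iSup R (σ : F →+* F) (fun s : {s // (comb X).pos s} => ((s : Fin D.nroots) : ℕ)) hx
  have hsH : ∀ x ∈ (chevSys R X).H, Matrix.GeneralLinearGroup.map (σ : F →+* F) x ∈
      (chevSys R X).H := by
    intro x hx
    rw [chevSys_H, diagonalSubgroup_eq R X] at hx ⊢
    rw [mem_Hs_iff] at hx ⊢
    obtain ⟨c, hc, rfl⟩ := hx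
    exact ⟨fun i => σ (c i), fun i hi => (map_ne_zero σ).mpr (hc i hi), s_prodH R _ c⟩
  have hsUm : Matrix.GeneralLinearGroup.map (σ : F →+* F) u ∈
      (chevSys R X).Um ((comb X).w L) :=
    s_iSup R (σ : F →+* F)
      (fun s : {s // (comb X).pos s ∧ ¬ (comb X).pos ((comb X).w L s)} => ((s : Fin D.nroots) : ℕ)) hu
  have hsB : Matrix.GeneralLinearGroup.map (σ : F →+* F) b' ∈ (chevSys R X).B := by
    obtain ⟨u', hu', h', hh', rfl⟩ := (chevSys R X).mem_B.mp hb'
    rw [map_mul]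
    exact (chevSys R X).mem_B.mpr ⟨_, hsU _ hu', _, hsH _ hh', rfl⟩
  rw [map_mul, map_mul, map_nw] at hfix
  obtain ⟨hb1, hu1⟩ := (chevSys R X).normal_form_unique ((chevSys R X).rep_nw L) hsB hb' hsUm hu hfix
  -- unipotent elements
  have hU : ∀ x ∈ (chevSys R X).U, Matrix.GeneralLinearGroup.map (σ : F →+* F) x = x →
      x ∈ Im D ι := by
    intro x hx hxs
    rw [chevSys_U, posUnipotent_eq_Vk R X.rc, mem_Vk_iff R Z X.rc.half X.rc.half
      (by have := X.rc.nroots_eq; omega) le_rfl] at hx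
    obtain ⟨t, rfl⟩ := hx
    rw [s_pr] at hxs
    have h1 := pr_inj R Z X.rc.half X.rc.half (by have := X.rc.nroots_eq; omega) le_rfl hxs
    unfold pr
    apply Subgroup.list_prod_mem
    intro y hy
    rw [List.mem_map] at hy
    obtain ⟨r, hr, rfl⟩ := hy
    rw [List.mem_range'_1] at hr
    have hr2 : r < D.nroots := by have := X.rc.nroots_eq; omega
    obtain ⟨y, hy⟩ := hσ (t r) (h1 r hr.1 hr2)
    rw [← hy]
    exact xg_mem_Im R R₀ ι hr2 y
  -- torus elements
  have hH : ∀ x ∈ (chevSys R X).H, Matrix.GeneralLinearGroup.map (σ : F →+* F) x = x →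
      x ∈ Im D ι := by
    intro x hx hxs
    rw [chevSys_H, diagonalSubgroup_eq R X, mem_Hs_iff] at hx
    obtain ⟨c, hc, rfl⟩ := hx
    rw [s_prodH] at hxs
    have h0 : ∀ i < D.rank, σ (c i) ≠ 0 := fun i hi => (map_ne_zero σ).mpr (hc i hi)
    have h1 : ∀ i < D.rank, σ (c i) = c i := by
      have h2 : (fun i : Fin D.rank => Units.mk0 (σ (c i)) (h0 i i.2) *
          (Units.mk0 (c i) (hc i i.2))⁻¹) ∈ (chi D F).ker := by
        rw [MonoidHom.mem_ker]
        have h3 : (fun i : Fin D.rank => Units.mk0 (σ (c i)) (h0 i i.2) *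
          (Units.mk0 (c i) (hc i i.2))⁻¹) = (fun i : Fin D.rank => Units.mk0 (σ (c i)) (h0 i i.2)) *
            (fun i : Fin D.rank => Units.mk0 (c i) (hc i i.2))⁻¹ := rfl
        rw [h3, map_mul, map_inv, mul_inv_eq_one]
        funext s
        apply Units.ext
        have h4 : ((prodH R (fun i => σ (c i)) : GL D.Idx F) : Matrix D.Idx D.Idx F) =
          ((prodH R c : GL D.Idx F) : Matrix D.Idx D.Idx F) := congrArg Units.val hxs
        rw [prodH_val R _ h0, prodH_val R _ hc] at h4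
        have h5 := congrFun (Matrix.diagonal_injective h4) (Sum.inr s)
        simp only [Sum.elim_inr] at h5
        simp only [chi, MonoidHom.coe_mk, OneHom.coe_mk, Units.coe_prod, Units.val_zpow_eq_zpow_val,
          Units.val_mk0]
        rw [Finset.prod_range fun i => σ (c i) ^ (D.cartan i s),
          Finset.prod_range fun i => c i ^ (D.cartan i s)] at h5
        exact h5
      have h6 := hker _ h2
      intro i hi
      have h7 : Units.mk0 (σ (c i)) (h0 i hi) * (Units.mk0 (c i) (hc i hi))⁻¹ = 1 :=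
        congrFun h6 ⟨i, hi⟩
      rw [mul_inv_eq_one] at h7
      exact congrArg Units.val h7
    unfold prodH
    apply Subgroup.list_prod_mem
    intro y hy
    rw [List.mem_map] at hy
    obtain ⟨i, hi, rfl⟩ := hy
    rw [List.mem_range] at hi
    obtain ⟨y, hy⟩ := hσ (c i) (h1 i hi)
    rw [← hy]
    exact hg_mem_Im R R₀ ι X.rc (X.rc.simple_lt i hi) y
  refine (Im D ι).mul_mem ((Im D ι).mul_mem ?_ (nw_mem_Im R R₀ X ι L))
    (hU u ((chevSys R X).Um_le_U _ hu) hu1)
  obtain ⟨u', hu', h', hh', rfl⟩ := (chevSys R X).mem_B.mp hb'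
  rw [map_mul] at hb1
  have h8 : u'⁻¹ * Matrix.GeneralLinearGroup.map (σ : F →+* F) u' =
      h' * (Matrix.GeneralLinearGroup.map (σ : F →+* F) h')⁻¹ := by
    rw [inv_mul_eq_iff_eq_mul, ← mul_assoc, ← hb1, mul_inv_cancel_right]
  have h9 : u'⁻¹ * Matrix.GeneralLinearGroup.map (σ : F →+* F) u' = 1 :=
    (chevSys R X).eq_one_of_mem_U_H
      ((chevSys R X).U.mul_mem ((chevSys R X).U.inv_mem hu') (hsU _ hu'))
      (by rw [h8]; exact (chevSys R X).H.mul_mem hh' ((chevSys R X).H.inv_mem (hsH _ hh')))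
  have h10 : Matrix.GeneralLinearGroup.map (σ : F →+* F) u' = u' := by
    rw [inv_mul_eq_one] at h9; exact h9.symm
  have h11 : Matrix.GeneralLinearGroup.map (σ : F →+* F) h' = h' := by
    rw [h9] at h8
    exact (mul_inv_eq_one.mp h8.symm).symm
  exact (Im D ι).mul_mem (hU _ hu' h10) (hH _ hh' h11)

end H49.ChevFixed
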