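import Cfsg.Agent.Lib.H49.ChevFixed

set_option autoImplicit false
set_option linter.unusedSectionVars false

/-! Field automorphisms of prime order of Chevalley groups. -/

namespace H49.ChevFixed2

open H22.RGD H22.RCCheck H22.RCComb H22.ChevRel H22.ChevSys H22.ChevMain H22.ChevTorus H22.ChevUni
open H22.ChevField H49.ChevFixed H49.FixedField
open Cfsg.Lie (ChevalleyDatum)
open scoped MatrixGroups Matrix

variable {D : ChevalleyDatum} {F : Type*} [Field F] (R : Rel D F)

include R in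
/-- a field automorphism is the entrywise automorphism -/
theorem val_eq (φ : ↥(D.group F) ≃* ↥(D.group F)) (σ : F ≃+* F)
    (h : ∀ (g : ↥(D.group F)) (r : ℕ) (t : F), r < D.nroots →
      ((g : GL D.Idx F) : Matrix D.Idx D.Idx F) = D.x F r t →
      ((φ g : GL D.Idx F) : Matrix D.Idx D.Idx F) = D.x F r (σ t)) (g : ↥(D.group F)) :
    (φ g : GL D.Idx F) = Matrix.GeneralLinearGroup.map (σ : F →+* F) (g : GL D.Idx F) := by
  let f1 : ↥(D.group F) →* GL D.Idx F := (D.group F).subtype.comp φ.toMonoidHom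
  let f2 : ↥(D.group F) →* GL D.Idx F :=
    (Matrix.GeneralLinearGroup.map (σ : F →+* F)).comp (D.group F).subtype
  let E : Subgroup ↥(D.group F) := f1.eqLocus f2
  have hle : D.group F ≤ E.map (D.group F).subtype := by
    conv_lhs => rw [group_eq_closure]
    rw [Subgroup.closure_le]
    rintro x ⟨r, t, hr, hx⟩
    have hx' : x ∈ D.group F := by
      rw [xg_eq R hx]; exact xg_mem_group R hr t
    refine ⟨⟨x, hx'⟩, ?_, rfl⟩
    change f1 ⟨x, hx'⟩ = f2 ⟨x, hx'⟩
    apply Units.ext
    change ((φ ⟨x, hx'⟩ : GL D.Idx F) : Matrix D.Idx D.Idx F) = (x : Matrix D.Idx D.Idx F).map σ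
    rw [h ⟨x, hx'⟩ r t hr hx, hx]
    exact (x_map (σ : F →+* F) r t).symm
  obtain ⟨y, hy, hyg⟩ := hle g.2
  have : y = g := Subtype.ext hyg
  rw [← this]
  exact hy

theorem val_pow (φ : MulAut ↥(D.group F)) (σ : F ≃+* F)
    (h : ∀ g : ↥(D.group F), (φ g : GL D.Idx F) =
      Matrix.GeneralLinearGroup.map (σ : F →+* F) (g : GL D.Idx F)) (k : ℕ) (g : ↥(D.group F)) :
    ((φ ^ k) g : GL D.Idx F) =
      Matrix.GeneralLinearGroup.map ((σ ^ k : F ≃+* F) : F →+* F) (g : GL D.Idx F) := by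
  induction k with
  | zero =>
    rw [pow_zero, pow_zero]
    apply Units.ext
    ext i j
    rfl
  | succ k ih =>
    rw [pow_succ', MulAut.mul_apply, h, ih]
    apply Units.ext
    ext i j
    change σ ((σ ^ k) _) = (σ ^ (k + 1)) _
    rw [pow_succ']
    rfl

include R in
theorem xg_inj (Q : RC D) {r : ℕ} (hr : r < D.nroots) {t u : F} (h : xg R r t = xg R r u) :
    t = u := by
  have h1 : xg R r (t - u) = 1 := by
    rw [sub_eq_add_neg, ← xg_mul, h, xg_mul, add_neg_cancel, xg_zero]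
  have h2 : D.x F r (t - u) = 1 := congrArg Units.val h1
  exact sub_eq_zero.mp ((s1024 Q F r hr (t - u)).mp h2)

include R in
theorem orderOf_eq (Q : RC D) (hn : 0 < D.nroots) (φ : MulAut ↥(D.group F)) (σ : F ≃+* F)
    (h : ∀ g : ↥(D.group F), (φ g : GL D.Idx F) =
      Matrix.GeneralLinearGroup.map (σ : F →+* F) (g : GL D.Idx F)) : orderOf φ = orderOf σ := by
  rw [orderOf_eq_orderOf_iff]
  intro k
  constructor
  · intro hk
    ext t
    have h1 := val_pow φ σ h k ⟨xg R 0 t, xg_mem_group R hn t⟩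
    rw [hk] at h1
    have h2 : xg R 0 t = xg R 0 ((σ ^ k) t) := by
      have h3 : xg R 0 t = Matrix.GeneralLinearGroup.map ((σ ^ k : F ≃+* F) : F →+* F)
        (xg R 0 t) := h1
      rw [s_xg] at h3
      exact h3
    exact (xg_inj R Q hn h2).symm
  · intro hk
    apply MulEquiv.ext
    intro g
    apply Subtype.ext
    rw [val_pow φ σ h k g, hk]
    apply Units.ext
    ext i j
    rfl

theorem main {D : ChevalleyDatum} {F : Type*} [Field F] [Fintype F] (hD : D ∈ [Cfsg.Lie.chevG2,
    Cfsg.Lie.chevB2, Cfsg.Lie.chevD4,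
    Cfsg.Lie.chevF4, Cfsg.Lie.chevE6, Cfsg.Lie.chevE7, Cfsg.Lie.chevE8])
    (hn : 0 < D.nroots)
    (hker : Nat.card (chi D F).ker = 1)
    (φ : MulAut ↥(D.group F)) (hφ : D.IsFieldAut φ) (r : ℕ) (hr : r.Prime) (ho : orderOf φ = r) :
    ∃ (F₀ : Type) (_ : Field F₀) (_ : Fintype F₀), Fintype.card F = Fintype.card F₀ ^ r ∧
      Nonempty (↥((MulEquiv.toMonoidHom φ).eqLocus (MonoidHom.id ↥(D.group F))) ≃*
        ↥(D.group F₀)) := by
  classical
  obtain ⟨X, ⟨Z⟩⟩ := H22.ChevRC.exists_rcx hD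
  have R : Rel D F := H22.ChevAll.rel D hD F
  obtain ⟨σ, hσ⟩ := hφ
  have hval := val_eq R φ σ hσ
  have hoσ : orderOf σ = r := by rw [← orderOf_eq R X.rc hn φ σ hval, ho]
  -- the small field
  have hsm : Small.{0} (fixedField σ) := Countable.toSmall _
  let F₀ : Type := Shrink.{0} (fixedField σ)
  let e : F₀ ≃+* fixedField σ := Shrink.ringEquiv (fixedField σ)
  have hfin : Finite F₀ := Finite.of_equiv _ e.symm.toEquiv
  let _ : Fintype F₀ := Fintype.ofFinite F₀
  let ι : F₀ →+* F := (fixedField σ).subtype.comp (e : F₀ →+* fixedField σ)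
  have hι : ∀ x, σ x = x → ∃ y, ι y = x := by
    intro x hx
    refine ⟨e.symm ⟨x, hx⟩, ?_⟩
    change ((e (e.symm ⟨x, hx⟩) : fixedField σ) : F) = x
    rw [e.apply_symm_apply]
  have hι' : ∀ y, σ (ι y) = ι y := fun y => (e y).2
  have R₀ : Rel D F₀ := H22.ChevAll.rel D hD F₀
  refine ⟨F₀, inferInstance, inferInstance, ?_, ?_⟩
  · have h1 := card_fixedField_pow σ
    rw [hoσ] at h1
    rw [← Nat.card_eq_fintype_card, ← h1, ← Nat.card_eq_fintype_card,
      Nat.card_congr e.toEquiv]
  · have hker' : ∀ c ∈ (chi D F).ker, c = 1 := by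
      intro c hc
      have h1 : Subsingleton (chi D F).ker := (Nat.card_eq_one_iff_unique.mp hker).1
      exact congrArg Subtype.val (h1.elim ⟨c, hc⟩ 1)
    let ψ := fieldHom D ι
    have hψval : ∀ g : ↥(D.group F₀), ((ψ g : ↥(D.group F)) : GL D.Idx F) =
        Matrix.GeneralLinearGroup.map ι (g : GL D.Idx F₀) := fun g => rfl
    have hψ : Function.Injective ψ := by
      intro g h hgh
      apply Subtype.ext
      apply Units.ext
      have h1 : Matrix.GeneralLinearGroup.map ι (g : GL D.Idx F₀) =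
          Matrix.GeneralLinearGroup.map ι (h : GL D.Idx F₀) := by
        rw [← hψval, ← hψval, hgh]
      refine Matrix.ext fun i j => ?_
      have h1v : ((Matrix.GeneralLinearGroup.map ι (g : GL D.Idx F₀) : GL D.Idx F) :
          Matrix D.Idx D.Idx F) = ((Matrix.GeneralLinearGroup.map ι (h : GL D.Idx F₀) :
          GL D.Idx F) : Matrix D.Idx D.Idx F) := by rw [h1]
      have h2 : ι (((g : GL D.Idx F₀) : Matrix D.Idx D.Idx F₀) i j) =
          ι (((h : GL D.Idx F₀) : Matrix D.Idx D.Idx F₀) i j) := congrFun (congrFun h1v i) j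
      exact ι.injective h2
    have hrange : ψ.range = (MulEquiv.toMonoidHom φ).eqLocus (MonoidHom.id ↥(D.group F)) := by
      ext g
      constructor
      · rintro ⟨g₀, rfl⟩
        change φ (ψ g₀) = ψ g₀
        apply Subtype.ext
        rw [hval, hψval]
        apply Units.ext
        ext i j
        exact hι' _
      · intro hg
        have hg' : φ g = g := hg
        have h1 : Matrix.GeneralLinearGroup.map (σ : F →+* F) (g : GL D.Idx F) = g := by
          rw [← hval, hg']
        obtain ⟨g₀, hg₀, h2⟩ := mem_Im_of_fixed R R₀ X ι Z hker' σ hι g.2 h1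
        refine ⟨⟨g₀, hg₀⟩, ?_⟩
        apply Subtype.ext
        exact h2
    exact ⟨((MonoidHom.ofInjective hψ).trans (MulEquiv.subgroupCongr hrange)).symm⟩

end H49.ChevFixed2
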