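import Cfsg.Agent.Lib.H49.GLClasses

set_option autoImplicit false
set_option linter.unusedSectionVars false

/-! Symmetry of the multiplicity function of an isometry; numerical lemmas. -/

namespace H49.FormRm

open Matrix H49.RootMult H49.RootCount H49.RootGroup H49.GLClasses

theorem rm_neg_of_form {K L : Type*} [Field K] [Field L] {r : ℕ} [NeZero r] {φ : K →+* L} {ζ : L}
    (hζ : IsPrimitiveRoot ζ r) {ι : Type*} [Fintype ι] [DecidableEq ι] (J A Ai : Matrix ι ι K)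
    (hJ : IsUnit J) (h : Aᵀ * J * A = J) (hAi : A * Ai = 1) (k : ZMod r) :
    rm φ ζ A (-k) = rm φ ζ A k := by
  have hc : IsConj A Aiᵀ := by
    obtain ⟨j, hj⟩ := hJ
    refine ⟨j, ?_⟩
    change (j : Matrix ι ι K) * A = Aiᵀ * j
    rw [hj]
    have h1 : Aiᵀ * Aᵀ = 1 := by rw [← Matrix.transpose_mul, hAi, Matrix.transpose_one]
    calc J * A = (Aiᵀ * Aᵀ) * J * A := by rw [h1, one_mul]
      _ = Aiᵀ * (Aᵀ * J * A) := by noncomm_ring
      _ = _ := by rw [h]
  rw [rm_conj (φ := φ) (ζ := ζ) hc (-k), rm_transpose, rm_inv (φ := φ) hζ hAi]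

/-- parity of the number of orbits -/
theorem two_dvd_t {r i t : ℕ} (hr : r.Prime) (hr2 : r ≠ 2) (ht : t * i = r - 1) (hi : Odd i) :
    2 ∣ t := by
  have h2 : 2 ∣ t * i := by
    rw [ht]
    obtain ⟨j, hj⟩ := hr.odd_of_ne_two hr2
    exact ⟨j, by omega⟩
  exact (Nat.coprime_two_left.mpr hi).dvd_of_dvd_mul_right h2

/-- the class count for `H = ⟨q, -1⟩` -/
theorem count_sup {r : ℕ} [Fact r.Prime] (hr2 : r ≠ 2) {q i t : ℕ} (hq0 : (q : ZMod r) ≠ 0)
    (hi : i = orderOf (q : ZMod r)) (ht : t * i = r - 1) (n : ℕ) :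
    {m | m ∈ Inv (Subgroup.zpowers (Units.mk0 (q : ZMod r) hq0) ⊔
        Subgroup.zpowers (-1 : (ZMod r)ˣ)) n ∧
      m ≠ fun k : ZMod r => if k = 0 then n else 0}.ncard =
      if Odd i then Nat.choose (n / (2 * i) + t / 2) (t / 2) - 1 else Nat.choose (n / i + t) t - 1 := by
  have hHc := card_sup hr2 (Units.mk0 (q : ZMod r) hq0)
  have hxo : orderOf (Units.mk0 (q : ZMod r) hq0) = i := by rw [hi, ← orderOf_units]; rfl
  rw [hxo] at hHc
  split_ifs with h
  · rw [if_pos h] at hHc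
    obtain ⟨t', rfl⟩ := two_dvd_t Fact.out hr2 ht h
    rw [Nat.mul_div_cancel_left _ (by norm_num),
      ncard_nontriv _ n t' (by rw [hHc, ← ht]; ring), hHc]
  · rw [if_neg h] at hHc
    rw [ncard_nontriv _ n t (by rw [hHc, ht]), hHc]

/-- the class count for `H = ⟨q, -1⟩`, excluding fixed point free elements -/
theorem count_sup_pos {r : ℕ} [Fact r.Prime] (hr2 : r ≠ 2) {q i t : ℕ} (hq0 : (q : ZMod r) ≠ 0)
    (hi : i = orderOf (q : ZMod r)) (ht : t * i = r - 1) (n : ℕ) (hn : 0 < n) :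
    {m | m ∈ Inv (Subgroup.zpowers (Units.mk0 (q : ZMod r) hq0) ⊔
        Subgroup.zpowers (-1 : (ZMod r)ˣ)) n ∧
      (m ≠ fun k : ZMod r => if k = 0 then n else 0) ∧ m 0 ≠ 0}.ncard =
      if Odd i then Nat.choose (n / (2 * i) + t / 2) (t / 2) - 1 -
          (if 2 * i ∣ n then Nat.choose (n / (2 * i) + t / 2 - 1) (t / 2 - 1) else 0)
        else Nat.choose (n / i + t) t - 1 -
          (if i ∣ n then Nat.choose (n / i + t - 1) (t - 1) else 0) := by
  have hHc := card_sup hr2 (Units.mk0 (q : ZMod r) hq0)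
  have hxo : orderOf (Units.mk0 (q : ZMod r) hq0) = i := by rw [hi, ← orderOf_units]; rfl
  rw [hxo] at hHc
  split_ifs with h
  · rw [if_pos h] at hHc
    obtain ⟨t', rfl⟩ := two_dvd_t Fact.out hr2 ht h
    rw [Nat.mul_div_cancel_left _ (by norm_num),
      ncard_nontriv_pos _ n t' (by rw [hHc, ← ht]; ring) hn, hHc]
    simp_all
  · rw [if_pos h] at hHc
    obtain ⟨t', rfl⟩ := two_dvd_t Fact.out hr2 ht h
    rw [Nat.mul_div_cancel_left _ (by norm_num),
      ncard_nontriv_pos _ n t' (by rw [hHc, ← ht]; ring) hn, hHc]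
    simp_all
  · rw [if_neg h] at hHc
    rw [ncard_nontriv_pos _ n t (by rw [hHc, ht]) hn, hHc]
    simp_all
  · rw [if_neg h] at hHc
    rw [ncard_nontriv_pos _ n t (by rw [hHc, ht]) hn, hHc]
    simp_all

end H49.FormRm
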