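import Mathlib
import Cfsg.Agent.Lib.H49.Unitary

set_option autoImplicit false

/-! A field `K` with `q ^ 2` elements over a field `F` with `q` elements: embedding, trace, norm,
coordinates. -/

namespace H49.QuadraticExt

open H49.Unitary

variable {K F : Type*} [Field K] [Finite K] [Field F] [Finite F] {q : ℕ}

/-- the solutions of `x ^ q = x` number at most `q` -/
theorem card_fixed_le (hK : Nat.card K = q ^ 2) (S : Set K) (hS : ∀ x ∈ S, x ^ q = x) :
    S.ncard ≤ q := by
  classical
  have : Fintype K := Fintype.ofFinite K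
  have hq := two_le hK
  have h1 : (Polynomial.X ^ q - Polynomial.X : Polynomial K) ≠ 0 :=
    FiniteField.X_pow_card_sub_X_ne_zero K (by omega)
  have h2 : S ⊆ ↑((Polynomial.X ^ q - Polynomial.X : Polynomial K).roots.toFinset) := by
    intro x hx
    rw [Finset.mem_coe, Multiset.mem_toFinset, Polynomial.mem_roots h1, Polynomial.IsRoot.def]
    simp only [Polynomial.eval_sub, Polynomial.eval_pow, Polynomial.eval_X]
    rw [hS x hx, sub_self]
  have h3 := Set.ncard_le_ncard h2 (Finset.finite_toSet _)
  rw [Set.ncard_coe_finset] at h3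
  have h4 := (Polynomial.X ^ q - Polynomial.X : Polynomial K).roots.toFinset_card_le
  have h5 := (Polynomial.X ^ q - Polynomial.X : Polynomial K).card_roots'
  have h6 : (Polynomial.X ^ q - Polynomial.X : Polynomial K).natDegree = q :=
    FiniteField.X_pow_card_sub_X_natDegree_eq K (by omega)
  omega

/-- `F` embeds in `K` with image the fixed points of `x ↦ x ^ q`. -/
theorem exists_embed (hK : Nat.card K = q ^ 2) (hF : Nat.card F = q) :
    ∃ i : F →+* K, ∀ x : K, x ^ q = x ↔ ∃ y, i y = x := by
  obtain ⟨p, hp, hcK, f, hf, hq⟩ := exists_char_pow hK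
  have : Fintype F := Fintype.ofFinite F
  have hcF : CharP F p := by
    obtain ⟨p', hp'⟩ := CharP.exists F
    have hpp : p'.Prime := CharP.char_is_prime F p'
    have : Fact p'.Prime := ⟨hpp⟩
    obtain ⟨n, _, hn⟩ := FiniteField.card F p'
    rw [← Nat.card_eq_fintype_card, hF, hq] at hn
    have h1 : p ∣ p' ^ (n : ℕ) := by
      rw [← hn]; exact dvd_pow_self _ (by omega)
    have h2 := (Nat.prime_dvd_prime_iff_eq hp.out hpp).1 (hp.out.dvd_of_dvd_pow h1)
    rw [h2]; exact hp'
  let _ : Algebra (ZMod p) F := ZMod.algebra F p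
  let _ : Algebra (ZMod p) K := ZMod.algebra K p
  have h1 : Module.finrank (ZMod p) F = f := by
    have h2 := FiniteField.pow_finrank_eq_natCard p F
    rw [hF, hq] at h2
    exact Nat.pow_right_injective hp.out.two_le h2
  have h2 : Module.finrank (ZMod p) K = f * 2 := by
    have h3 := FiniteField.pow_finrank_eq_natCard p K
    rw [hK, hq, ← pow_mul] at h3
    exact Nat.pow_right_injective hp.out.two_le h3
  obtain ⟨i⟩ := FiniteField.nonempty_algHom_of_finrank_dvd (F := ZMod p) (K := F) (L := K)
    (by rw [h1, h2]; exact Dvd.intro _ rfl)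
  refine ⟨i.toRingHom, fun x => ?_⟩
  have hfix : ∀ y : F, (i y) ^ q = i y := by
    intro y
    rw [← map_pow, ← hF, Nat.card_eq_fintype_card, FiniteField.pow_card]
  have hsub : Set.range i ⊆ {x : K | x ^ q = x} := by
    rintro _ ⟨y, rfl⟩; exact hfix y
  have hcard : (Set.range i).ncard = q := by
    rw [← hF, ← Set.ncard_univ, ← Set.image_univ]
    exact Set.ncard_image_of_injective _ i.toRingHom.injective
  have heq : Set.range i = {x : K | x ^ q = x} := by
    apply Set.eq_of_subset_of_ncard_le hsub
    · rw [hcard]; exact card_fixed_le hK _ (fun x hx => hx)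
  constructor
  · intro hx
    have : x ∈ Set.range i := by rw [heq]; exact hx
    exact this
  · rintro ⟨y, rfl⟩
    exact hfix y

/-- coordinates on `K` over `F` with respect to `1, θ`, the norm form, and the trace pairing -/
theorem exists_coord (hK : Nat.card K = q ^ 2) (hF : Nat.card F = q) :
    ∃ (i : F →+* K) (κ : F × F → K) (t n : F),
      (∀ x : K, x ^ q = x ↔ ∃ y, i y = x) ∧
      Function.Bijective κ ∧ (∀ x y, κ (x + y) = κ x + κ y) ∧ (∀ c x, κ (c • x) = i c * κ x) ∧
      (∀ x : F × F, i (x.1 ^ 2 + t * x.1 * x.2 + n * x.2 ^ 2) = κ x * κ x ^ q) := by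
  obtain ⟨i, hi⟩ := exists_embed hK hF
  obtain ⟨θ, hθ⟩ := exists_theta hK
  have hθ' : θ ^ q ≠ θ := by
    intro h; apply hθ; rw [frob_apply, h, sub_self]
  have hfix : ∀ y : F, (i y) ^ q = i y := fun y => (hi _).2 ⟨y, rfl⟩
  have hff : (θ ^ q) ^ q = θ := frob_frob hK θ
  obtain ⟨t, ht⟩ := (hi (θ + θ ^ q)).1 (by
    have := (frob hK).map_add θ (θ ^ q)
    rw [frob_apply, frob_apply, frob_apply] at this
    rw [this, hff, add_comm])
  obtain ⟨n, hn⟩ := (hi (θ * θ ^ q)).1 (by rw [mul_pow, hff, mul_comm])
  refine ⟨i, fun x => i x.1 + i x.2 * θ, t, n, hi, ?_, ?_, ?_, ?_⟩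
  · have : Fintype F := Fintype.ofFinite F
    have : Fintype K := Fintype.ofFinite K
    rw [Nat.bijective_iff_injective_and_card]
    refine ⟨?_, by rw [Nat.card_prod, hF, hK, pow_two]⟩
    rintro ⟨a, b⟩ ⟨c, d⟩ h
    simp only at h
    by_cases hbd : b = d
    · subst hbd
      have h1 : i a = i c := by linear_combination h
      rw [i.injective h1]
    · exfalso
      apply hθ'
      have hne : i (b - d) ≠ 0 := by
        rw [map_ne_zero]; exact sub_ne_zero.2 hbd
      have h2 : θ = i ((c - a) / (b - d)) := by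
        rw [map_div₀, eq_div_iff hne, map_sub, map_sub]
        linear_combination h
      rw [h2, hfix]
  · intro x y; simp only [Prod.fst_add, Prod.snd_add, map_add]; ring
  · intro c x; simp only [Prod.smul_fst, Prod.smul_snd, smul_eq_mul, map_mul]; ring
  · intro x
    have h1 : (i x.1 + i x.2 * θ) ^ q = i x.1 + i x.2 * θ ^ q := by
      have h2 := (frob hK).map_add (i x.1) (i x.2 * θ)
      rw [frob_apply, frob_apply, frob_apply, mul_pow, hfix, hfix] at h2
      exact h2
    rw [h1]
    simp only [map_add, map_mul, map_pow, ht, hn]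
    ring

end H49.QuadraticExt
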