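import Mathlib
import Cfsg.Prelude.Def_LieClassical
import Cfsg.Agent.Lib.H49.QuadraticExt
import Cfsg.Agent.Lib.H49.EmbedIsom
import Cfsg.Agent.Lib.H49.QuadSum

set_option autoImplicit false

/-! `GU_m(q)` acts on the `2m`-dimensional space over the field with `q` elements preserving the
sum of `m` norm forms. -/

namespace H49.GUQuad

open H49.Unitary H49.QuadraticExt H49.EmbedIsom H48.QuadSplit H48.QuadStd H49.QuadSum

variable {K F : Type*} [Field K] [Finite K] [Field F] [Finite F] {q : ℕ}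

/-- If `m` copies of the anisotropic norm plane are equivalent to `Q`, then `GU_m(q)` embeds in the
isometry group of `Q`. -/
theorem embed_GU (hK : Nat.card K = q ^ 2) (hF : Nat.card F = q) (m : ℕ)
    {ι : Type} [Fintype ι] [DecidableEq ι] (Q : QuadraticForm F (ι → F))
    (hQ : ∀ t n : F, (∀ z₁ z₂ : F, z₁ ^ 2 + t * z₁ * z₂ + n * z₂ ^ 2 = 0 → z₁ = 0 ∧ z₂ = 0) →
      (QuadraticMap.pi (fun _ : Fin m => qBin t n)).Equivalent Q) :
    ∃ φ : ↥(Cfsg.GU m K q) →* ↥(Cfsg.isometryGroup F ⇑Q), Function.Injective φ := by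
  obtain ⟨i, κ, t, n, hi, hκ, hκadd, hκsmul, hκn⟩ := exists_coord hK hF
  let _ : Algebra F K := i.toAlgebra
  have hκ0 : κ 0 = 0 := by
    have := hκadd 0 0
    rw [add_zero] at this
    exact left_eq_add.1 this
  let κe : (F × F) ≃ₗ[F] K := LinearEquiv.ofBijective
    { toFun := κ, map_add' := hκadd, map_smul' := fun c x => by
        rw [hκsmul, RingHom.id_apply, Algebra.smul_def]; rfl } hκ
  have hκe : ∀ x, κe x = κ x := fun x => rfl
  have hani : ∀ z₁ z₂ : F, z₁ ^ 2 + t * z₁ * z₂ + n * z₂ ^ 2 = 0 → z₁ = 0 ∧ z₂ = 0 := by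
    intro z₁ z₂ h
    have h1 := hκn (z₁, z₂)
    simp only at h1
    rw [h, map_zero] at h1
    have h2 : κ (z₁, z₂) = 0 := by
      rcases mul_eq_zero.1 h1.symm with h3 | h3
      · exact h3
      · exact pow_eq_zero_iff (by have := two_le hK; omega) |>.1 h3
    have h3 : (z₁, z₂) = (0 : F × F) := hκ.1 (by rw [h2, hκ0])
    exact ⟨congrArg Prod.fst h3, congrArg Prod.snd h3⟩
  obtain ⟨e₁⟩ := hQ t n hani
  let e₀ : (Fin m → F × F) ≃ₗ[F] (Fin m → K) := LinearEquiv.piCongrRight (fun _ => κe)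
  let QV : (Fin m → K) → F := fun v => QuadraticMap.pi (fun _ : Fin m => qBin t n) (e₀.symm v)
  have hQV : ∀ v : Fin m → K, i (QV v) = Cfsg.hermForm m K q v v := by
    intro v
    simp only [QV, QuadraticMap.pi_apply, Cfsg.hermForm, map_sum]
    apply Finset.sum_congr rfl
    intro j _
    rw [qBin_apply, hκn]
    have h1 : κ (e₀.symm v j) = v j := by
      rw [← hκe]
      exact κe.apply_symm_apply (v j)
    rw [h1]
  refine embed_of_equiv ((restrictAct F).comp (Cfsg.GU m K q).subtype)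
    ((restrictAct_injective F).comp (Subgroup.subtype_injective _)) QV ?_ ⇑Q
    (e₀.symm.trans e₁.toLinearEquiv) ?_
  · intro g v
    apply i.injective
    rw [hQV, hQV]
    exact g.2 v v
  · intro v
    exact e₁.map_app (e₀.symm v)

end H49.GUQuad
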