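import Mathlib

set_option autoImplicit false

/-! Lang's theorem for vector spaces: an injective Frobenius-semilinear endomorphism of a
finite-dimensional space over an algebraically closed field has a spanning set of fixed vectors. -/

namespace H49.LangGL

open Polynomial

variable {K : Type*} [Field K] [IsAlgClosed K]

/-- the polynomials giving the coordinates of a fixed vector in terms of the last one -/
noncomputable def P (q : ℕ) (a : ℕ → K) : ℕ → K[X]
  | 0 => C (a 0) * X ^ q
  | (i + 1) => (P q a i) ^ q + C (a (i + 1)) * X ^ q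

omit [IsAlgClosed K] in
theorem P_dvd (q : ℕ) (hq : 1 ≤ q) (a : ℕ → K) (i : ℕ) : X ^ q ∣ P q a i := by
  induction i with
  | zero => exact Dvd.intro_left _ rfl
  | succ i ih =>
    refine dvd_add (ih.trans (dvd_pow_self _ (by omega))) (Dvd.intro_left _ rfl)

omit [IsAlgClosed K] in
theorem P_degree (q : ℕ) (hq : 2 ≤ q) (a : ℕ → K) (ha : a 0 ≠ 0) (i : ℕ) :
    P q a i ≠ 0 ∧ q ≤ (P q a i).natDegree := by
  induction i with
  | zero =>
    have h : (P q a 0).natDegree = q := natDegree_C_mul_X_pow q _ ha
    refine ⟨?_, h.ge⟩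
    intro h0
    rw [h0, natDegree_zero] at h
    omega
  | succ i ih =>
    have h1 : ((P q a i) ^ q).natDegree = q * (P q a i).natDegree := natDegree_pow _ _
    have h2 : (C (a (i + 1)) * X ^ q).natDegree ≤ q := natDegree_C_mul_X_pow_le _ _
    have h3 : q < ((P q a i) ^ q).natDegree := by
      rw [h1]; nlinarith [ih.2]
    have h4 : (P q a (i + 1)).natDegree = ((P q a i) ^ q).natDegree :=
      natDegree_add_eq_left_of_natDegree_lt (by omega)
    have h5 : q ≤ (P q a (i + 1)).natDegree := by rw [h4]; omega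
    refine ⟨?_, h5⟩
    intro h0
    rw [h0, natDegree_zero] at h5
    omega

theorem exists_root (q : ℕ) (hq : 2 ≤ q) (a : ℕ → K) (ha : a 0 ≠ 0) (i : ℕ) :
    ∃ t : K, t ≠ 0 ∧ (P q a i).eval t = t := by
  obtain ⟨R, hR⟩ := P_dvd q (by omega) a i
  have hne := (P_degree q hq a ha i).1
  have hR0 : R ≠ 0 := by
    rintro rfl
    rw [mul_zero] at hR
    exact hne hR
  have hdeg : (X ^ (q - 1) * R - 1 : K[X]).degree ≠ 0 := by
    have h1 : (X ^ (q - 1) * R : K[X]).natDegree = (q - 1) + R.natDegree := by
      rw [natDegree_mul (pow_ne_zero _ X_ne_zero) hR0, natDegree_X_pow]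
    have h2 : (X ^ (q - 1) * R - 1 : K[X]).natDegree = (q - 1) + R.natDegree := by
      rw [← h1]
      apply natDegree_sub_eq_left_of_natDegree_lt
      rw [natDegree_one, h1]; omega
    intro h3
    have h4 : (X ^ (q - 1) * R - 1 : K[X]).natDegree = 0 := natDegree_eq_of_degree_eq_some h3
    omega
  obtain ⟨t, ht⟩ := IsAlgClosed.exists_root _ hdeg
  rw [IsRoot.def, eval_sub, eval_one, eval_mul, eval_pow, eval_X, sub_eq_zero] at ht
  refine ⟨t, ?_, ?_⟩
  · rintro rfl
    rw [zero_pow (by omega), zero_mul] at ht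
    exact zero_ne_one ht
  · rw [hR, eval_mul, eval_pow, eval_X]
    calc t ^ q * R.eval t = t * (t ^ (q - 1) * R.eval t) := by
          obtain ⟨k, rfl⟩ : ∃ k, q = k + 1 := ⟨q - 1, by omega⟩
          simp only [Nat.add_sub_cancel]; ring
      _ = t := by rw [ht, mul_one]

variable {V : Type*} [AddCommGroup V] [Module K V]

/-- A nonzero fixed vector. -/
theorem exists_fixed [FiniteDimensional K V] {σ : K →+* K} {q : ℕ} (hq : 2 ≤ q)
    (hσ : ∀ x, σ x = x ^ q) (φ : V →ₛₗ[σ] V) (hφ : Function.Injective φ) [Nontrivial V] :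
    ∃ v : V, v ≠ 0 ∧ φ v = v := by
  classical
  obtain ⟨u, hu⟩ := exists_ne (0 : V)
  -- minimal dependence
  have hex : ∃ m : ℕ, ∃ c : ℕ → K, (φ^[m] u) = ∑ i ∈ Finset.range m, c i • φ^[i] u := by
    by_contra hcon
    push Not at hcon
    have hli : ∀ n : ℕ, LinearIndependent K (fun i : Fin n => φ^[i] u) := by
      intro n
      induction n with
      | zero => exact linearIndependent_empty_type
      | succ n ih =>
        rw [linearIndependent_finSucc']
        refine ⟨ih, ?_⟩
        rw [Submodule.mem_span_range_iff_exists_fun]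
        rintro ⟨c, hc⟩
        apply hcon n (fun i => if h : i < n then c ⟨i, h⟩ else 0)
        rw [Finset.sum_range]
        simp only [Fin.is_lt, dite_true, Fin.eta]
        exact hc.symm
    have := (hli (Module.finrank K V + 1)).fintype_card_le_finrank
    rw [Fintype.card_fin] at this
    omega
  obtain ⟨a, ha⟩ := Nat.find_spec hex
  have hmin := fun k (hk : k < Nat.find hex) => Nat.find_min hex hk
  obtain ⟨n, hn⟩ : ∃ n, Nat.find hex = n + 1 := by
    rcases h : Nat.find hex with _ | n
    · rw [h] at ha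
      simp only [Function.iterate_zero, id_eq, Finset.range_zero, Finset.sum_empty] at ha
      exact absurd ha hu
    · exact ⟨n, rfl⟩
  rw [hn] at ha
  have hmin' := hmin n (by omega)
  push Not at hmin'
  have ha0 : a 0 ≠ 0 := by
    intro h0
    rw [Finset.sum_range_succ'] at ha
    rw [h0, zero_smul, add_zero] at ha
    have hroot : ∀ c : K, ∃ b : K, σ b = c := by
      intro c
      obtain ⟨b, hb⟩ := IsAlgClosed.exists_pow_nat_eq c (show 0 < q by omega)
      exact ⟨b, by rw [hσ, hb]⟩
    choose b hb using hroot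
    apply hmin' (fun i => b (a (i + 1)))
    apply hφ
    rw [← Function.iterate_succ_apply' φ n u, ha, map_sum]
    apply Finset.sum_congr rfl
    intro i _
    rw [φ.map_smulₛₗ, hb, Function.iterate_succ_apply']
  obtain ⟨t, ht, hPt⟩ := exists_root q hq a ha0 n
  let x : ℕ → K := fun i => (P q a i).eval t
  have hx0 : x 0 = a 0 * t ^ q := by simp [x, P]
  have hxs : ∀ i, x (i + 1) = x i ^ q + a (i + 1) * t ^ q := by intro i; simp [x, P]
  have hxn : x n = t := hPt
  refine ⟨∑ i ∈ Finset.range (n + 1), x i • φ^[i] u, ?_, ?_⟩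
  · intro h0
    rw [Finset.sum_range_succ, hxn] at h0
    apply hmin' (fun i => - (t⁻¹ * x i))
    have h1 : t • φ^[n] u = - ∑ i ∈ Finset.range n, x i • φ^[i] u := by
      rw [eq_neg_iff_add_eq_zero, add_comm]; exact h0
    calc φ^[n] u = t⁻¹ • (t • φ^[n] u) := by rw [smul_smul, inv_mul_cancel₀ ht, one_smul]
      _ = _ := by
        rw [h1, smul_neg, Finset.smul_sum, ← Finset.sum_neg_distrib]
        apply Finset.sum_congr rfl
        intro i _
        rw [smul_smul, neg_smul]
  · rw [map_sum, Finset.sum_range_succ, Finset.sum_range_succ' (fun i => x i • φ^[i] u)]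
    simp only [φ.map_smulₛₗ, hσ, ← Function.iterate_succ_apply' φ]
    rw [hxn, ha, Finset.sum_range_succ' (fun i => a i • φ^[i] u), hx0]
    simp only [hxs, add_smul, Finset.sum_add_distrib, smul_add, Finset.smul_sum, smul_smul,
      Function.iterate_zero, id_eq, mul_comm (t ^ q)]
    abel

/-- The fixed vectors span. -/
theorem span_fixed_eq_top {σ : K →+* K} {q : ℕ} (hq : 2 ≤ q)
    (hσ : ∀ x, σ x = x ^ q) (n : ℕ) : ∀ (V : Type*) [AddCommGroup V] [Module K V]
    [FiniteDimensional K V], Module.finrank K V = n → ∀ (φ : V →ₛₗ[σ] V),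
    Function.Injective φ → Submodule.span K {v : V | φ v = v} = ⊤ := by
  induction n with
  | zero =>
    intro V _ _ _ h φ _
    have := Module.finrank_zero_iff.1 h
    exact Subsingleton.elim _ _
  | succ n ih =>
    intro V _ _ _ h φ hφ
    have : Nontrivial V := Module.nontrivial_of_finrank_pos (R := K) (by omega)
    obtain ⟨v, hv0, hv⟩ := exists_fixed hq hσ φ hφ
    have hle : (K ∙ v) ≤ (K ∙ v).comap φ := by
      rw [Submodule.span_singleton_le_iff_mem, Submodule.mem_comap, hv]
      exact Submodule.mem_span_singleton_self v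
    have hroot : ∀ c : K, ∃ b : K, σ b = c := by
      intro c
      obtain ⟨b, hb⟩ := IsAlgClosed.exists_pow_nat_eq c (show 0 < q by omega)
      exact ⟨b, by rw [hσ, hb]⟩
    have hinj : Function.Injective ((K ∙ v).mapQ (K ∙ v) φ hle) := by
      rw [injective_iff_map_eq_zero]
      intro w hw
      obtain ⟨w, rfl⟩ := Submodule.mkQ_surjective _ w
      rw [Submodule.mkQ_apply, Submodule.mapQ_apply, Submodule.Quotient.mk_eq_zero,
        Submodule.mem_span_singleton] at hw
      obtain ⟨c, hc⟩ := hw
      obtain ⟨b, hb⟩ := hroot c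
      rw [Submodule.mkQ_apply, Submodule.Quotient.mk_eq_zero, Submodule.mem_span_singleton]
      refine ⟨b, hφ ?_⟩
      rw [φ.map_smulₛₗ, hb, hv, hc]
    have hfr : Module.finrank K (V ⧸ (K ∙ v)) = n := by
      have h1 := Submodule.finrank_quotient_add_finrank (K ∙ v)
      rw [finrank_span_singleton hv0] at h1
      omega
    have ihq := ih (V ⧸ (K ∙ v)) hfr _ hinj
    -- lift
    rw [eq_top_iff]
    intro w _
    have h1 : Submodule.mkQ (K ∙ v) w ∈ Submodule.span K {x | ((K ∙ v).mapQ (K ∙ v) φ hle) x = x} := by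
      rw [ihq]; trivial
    have h2 : {x | ((K ∙ v).mapQ (K ∙ v) φ hle) x = x} ⊆
        (Submodule.mkQ (K ∙ v)) '' {v : V | φ v = v} := by
      intro x hx
      obtain ⟨x, rfl⟩ := Submodule.mkQ_surjective _ x
      rw [Set.mem_ofPred_eq, Submodule.mkQ_apply, Submodule.mapQ_apply, Submodule.Quotient.eq,
        Submodule.mem_span_singleton] at hx
      obtain ⟨c, hc⟩ := hx
      -- solve d^q - d + c = 0
      have hdeg : (X ^ q - X + C c : K[X]).degree ≠ 0 := by
        have h3 : (X ^ q - X + C c : K[X]).natDegree = q := by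
          rw [natDegree_add_C]
          rw [natDegree_sub_eq_left_of_natDegree_lt] <;> simp
          omega
        intro h4
        have h5 : (X ^ q - X + C c : K[X]).natDegree = 0 := natDegree_eq_of_degree_eq_some h4
        omega
      obtain ⟨d, hd⟩ := IsAlgClosed.exists_root _ hdeg
      rw [IsRoot.def, eval_add, eval_sub, eval_pow, eval_X, eval_C] at hd
      refine ⟨x + d • v, ?_, ?_⟩
      · rw [Set.mem_ofPred_eq, map_add, φ.map_smulₛₗ, hv, hσ]
        have h5 : φ x = x + c • v := by rw [hc]; abel
        have h6 : d = d ^ q + c := by linear_combination -hd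
        rw [h5]
        conv_rhs => rw [h6]
        rw [add_smul]; abel
      · rw [Submodule.mkQ_apply, Submodule.mkQ_apply, Submodule.Quotient.eq,
          Submodule.mem_span_singleton]
        exact ⟨d, by abel⟩
    have h3 := Submodule.span_mono (R := K) h2 h1
    rw [Submodule.span_image] at h3
    obtain ⟨w', hw', hww⟩ := h3
    rw [Submodule.mkQ_apply, Submodule.mkQ_apply, Submodule.Quotient.eq,
      Submodule.mem_span_singleton] at hww
    obtain ⟨c, hc⟩ := hww
    have h4 : w = w' - c • v := by rw [hc]; abel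
    rw [h4]
    exact Submodule.sub_mem _ hw' (Submodule.smul_mem _ _ (Submodule.subset_span hv))

/-- Lang's theorem for `GL_n`, matrix form. -/
theorem lang_matrix {n : ℕ} {σ : K →+* K} {q : ℕ} (hq : 2 ≤ q) (hσ : ∀ x, σ x = x ^ q)
    (g : Matrix (Fin n) (Fin n) K) (hg : IsUnit g.det) :
    ∃ x : Matrix (Fin n) (Fin n) K, IsUnit x.det ∧ g * x.map σ = x := by
  classical
  let φ : (Fin n → K) →ₛₗ[σ] (Fin n → K) :=
    { toFun := fun v => g.mulVec (fun i => σ (v i))
      map_add' := by
        intro v w
        rw [← Matrix.mulVec_add]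
        congr 1
        ext i; simp
      map_smul' := by
        intro c v
        rw [← Matrix.mulVec_smul]
        congr 1
        ext i; simp }
  have hφ : Function.Injective φ := by
    intro v w hvw
    have h1 : g.mulVec (fun i => σ (v i)) = g.mulVec (fun i => σ (w i)) := hvw
    have h2 := Matrix.mulVec_injective_of_isUnit ((Matrix.isUnit_iff_isUnit_det g).2 hg) h1
    ext i
    exact σ.injective (congrFun h2 i)
  have hspan := span_fixed_eq_top hq hσ n (Fin n → K) (by simp) φ hφ
  obtain ⟨b, hb, hspan', hli⟩ := exists_linearIndependent K {v : Fin n → K | φ v = v}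
  rw [hspan] at hspan'
  let B : Module.Basis b K (Fin n → K) := Module.Basis.mk hli (by
    rw [Subtype.range_coe, hspan'])
  have : Fintype b := FiniteDimensional.fintypeBasisIndex B
  have hcard : Fintype.card b = n := by
    rw [← Module.finrank_eq_card_basis B]; simp
  let e : b ≃ Fin n := Fintype.equivFinOfCardEq hcard
  let B' : Module.Basis (Fin n) K (Fin n → K) := B.reindex e
  have hB' : ∀ j, φ (B' j) = B' j := by
    intro j
    have h1 : B' j = (e.symm j : Fin n → K) := by simp [B', B]
    rw [h1]
    exact hb (e.symm j).2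
  refine ⟨Matrix.of fun i j => B' j i, ?_, ?_⟩
  · have h1 : (Matrix.of fun i j => B' j i) = (Pi.basisFun K (Fin n)).toMatrix B' := by
      ext i j
      simp [Module.Basis.toMatrix_apply]
    rw [h1, ← Matrix.isUnit_iff_isUnit_det]
    have := (Pi.basisFun K (Fin n)).invertibleToMatrix B'
    exact isUnit_of_invertible _
  · ext i j
    have h1 := congrFun (hB' j) i
    change (g.mulVec (fun i => σ (B' j i))) i = B' j i at h1
    rw [Matrix.of_apply, ← h1, Matrix.mul_apply]
    rfl

end H49.LangGL
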