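import Cfsg.Agent.Lib.H48.SimMatrix

set_option autoImplicit false
set_option linter.unusedSectionVars false

/-! Matrices whose `r`-th power is a scalar that is not an `r`-th power. -/

namespace H49.NonSplit

open Matrix Polynomial

variable {K : Type*} [Field K] {ι : Type*} [Fintype ι] [DecidableEq ι] {r : ℕ}

/-- the dimension is divisible by `r` -/
theorem dvd_card (hr : r.Prime) {c : K} (hc0 : c ≠ 0) (hc : ∀ b : K, b ^ r ≠ c)
    {A : Matrix ι ι K} (hA : A ^ r = c • (1 : Matrix ι ι K)) : r ∣ Fintype.card ι := by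
  by_contra hcon
  have hcop : IsCoprime (r : ℤ) (Fintype.card ι : ℤ) := by
    rw [Nat.isCoprime_iff_coprime]
    exact (Nat.Prime.coprime_iff_not_dvd hr).mpr hcon
  obtain ⟨x, y, hxy⟩ := hcop
  have hdet : A.det ^ r = c ^ Fintype.card ι := by
    rw [← Matrix.det_pow, hA, Matrix.det_smul, Matrix.det_one, mul_one]
  apply hc (c ^ x * A.det ^ y)
  have h1 : (c ^ x) ^ r = c ^ (x * (r : ℤ)) := by
    rw [← zpow_natCast, ← _root_.zpow_mul]
  have h2 : (A.det ^ y) ^ r = c ^ (y * (Fintype.card ι : ℤ)) := by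
    rw [← zpow_natCast, ← _root_.zpow_mul, mul_comm, _root_.zpow_mul, zpow_natCast, hdet,
      ← zpow_natCast, ← _root_.zpow_mul, mul_comm]
  rw [mul_pow, h1, h2, ← zpow_add₀ hc0, hxy, zpow_one]

/-- existence -/
theorem exists_matrix (hr : 1 ≤ r) {m : ℕ} (hm : Fintype.card ι = m * r) (c : K) :
    ∃ A : Matrix ι ι K, A ^ r = c • (1 : Matrix ι ι K) := by
  have hmon : (X ^ r - C c : K[X]).Monic := monic_X_pow_sub_C c (by omega)
  let pb := AdjoinRoot.powerBasis' hmon
  have hfin : Module.finrank K (AdjoinRoot (X ^ r - C c : K[X])) = r := by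
    rw [pb.finrank]
    change (X ^ r - C c : K[X]).natDegree = r
    exact natDegree_X_pow_sub_C
  have : Module.Finite K (AdjoinRoot (X ^ r - C c : K[X])) := pb.finite
  have hV : Module.finrank K (Fin m → AdjoinRoot (X ^ r - C c : K[X])) = Fintype.card ι := by
    rw [Module.finrank_pi_fintype, Finset.sum_const, Finset.card_univ, Fintype.card_fin, hfin, hm,
      smul_eq_mul]
  let b := (Module.finBasisOfFinrankEq K (Fin m → AdjoinRoot (X ^ r - C c : K[X])) hV).reindex
    (Fintype.equivFin ι).symm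
  let ψ := (LinearMap.toMatrixAlgEquiv b).toAlgHom.comp
    (Algebra.lsmul K K (Fin m → AdjoinRoot (X ^ r - C c : K[X])) :
      AdjoinRoot (X ^ r - C c : K[X]) →ₐ[K] _)
  refine ⟨ψ (AdjoinRoot.root _), ?_⟩
  have h1 : (AdjoinRoot.root (X ^ r - C c : K[X])) ^ r = algebraMap K _ c := by
    have h2 : aeval (AdjoinRoot.root (X ^ r - C c : K[X])) (X ^ r - C c : K[X]) = 0 := by
      rw [AdjoinRoot.aeval_eq, AdjoinRoot.mk_self]
    rw [map_sub, map_pow, aeval_X, aeval_C, sub_eq_zero] at h2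
    exact h2
  rw [← map_pow, h1, AlgHom.commutes, Algebra.algebraMap_eq_smul_one]

/-- uniqueness up to conjugacy -/
theorem isConj (hr : r.Prime) {c : K} (hc : ∀ b : K, b ^ r ≠ c)
    {A B : Matrix ι ι K} (hA : A ^ r = c • (1 : Matrix ι ι K))
    (hB : B ^ r = c • (1 : Matrix ι ι K)) : IsConj A B := by
  have hirr : Irreducible (X ^ r - C c : K[X]) := X_pow_sub_C_irreducible_of_prime hr hc
  have key : ∀ {A : Matrix ι ι K}, A ^ r = c • (1 : Matrix ι ι K) →
      aeval A (X ^ r - C c : K[X]) = 0 := by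
    intro A hA
    rw [map_sub, map_pow, aeval_X, aeval_C, hA, Algebra.algebraMap_eq_smul_one, sub_self]
  refine H48.SimMatrix.isConj_of_rank fun p _ _ k => ?_
  have main : ∀ {A : Matrix ι ι K}, A ^ r = c • (1 : Matrix ι ι K) →
      ¬ (X ^ r - C c : K[X]) ∣ p ^ k → (aeval A (p ^ k)).rank = Fintype.card ι := by
    intro A hA hd
    have hcop : IsCoprime (X ^ r - C c : K[X]) (p ^ k) := hirr.coprime_iff_not_dvd.mpr hd
    obtain ⟨u, v, huv⟩ := hcop
    have h1 := congrArg (aeval A) huv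
    rw [map_add, map_mul, map_mul, key hA, mul_zero, zero_add, map_one] at h1
    have hu : IsUnit (aeval A (p ^ k)) := by
      rw [Matrix.isUnit_iff_isUnit_det]
      have h2 := congrArg Matrix.det h1
      rw [Matrix.det_mul, Matrix.det_one] at h2
      exact IsUnit.of_mul_eq_one_right _ h2
    rw [Matrix.rank_of_isUnit _ hu]
  by_cases hd : (X ^ r - C c : K[X]) ∣ p ^ k
  · obtain ⟨s, hs⟩ := hd
    rw [hs, map_mul, map_mul, key hA, key hB, zero_mul, zero_mul]
  · rw [main hA hd, main hB hd]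

end H49.NonSplit
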