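import Cfsg.Agent.Lib.H49.GLClasses
import Cfsg.Agent.Lib.H49.InvForm
import Cfsg.Agent.Lib.H49.FormConj3

set_option autoImplicit false
set_option linter.unusedSectionVars false

/-! Elements of prime order of the symplectic groups: realisation of multiplicity functions. -/

namespace H49.SpClasses

open Cfsg Matrix H49.RootMult H49.RootCount H49.RootGroup H49.GLClasses H49.FormConj2 H49.FormConj3
  H16.Symp

variable {F : Type*} [Field F] [Finite F] {L : Type*} [Field L] {r : ℕ} [Fact r.Prime]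
  {φ : F →+* L} {ζ : L} (hζ : IsPrimitiveRoot ζ r)

include hζ in
/-- a matrix without eigenvalue `1` with symmetric multiplicity function is similar to its
inverse -/
theorem isConj_inv {ι : Type*} [Fintype ι] [DecidableEq ι] (A Ai : Matrix ι ι F)
    (hA : A ^ r = 1) (hAi : A * Ai = 1) (hs : ∀ k : ZMod r, rm φ ζ A (-k) = rm φ ζ A k) :
    IsConj A Ai := by
  have h1 : Ai ^ r = 1 := by
    have hc : Commute A Ai := by
      have := mul_eq_one_comm.mp hAi
      exact hAi.trans this.symm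
    have := hc.mul_pow r
    rw [hAi, one_pow, hA, one_mul] at this
    exact this.symm
  refine isConj_of_rm (φ := φ) hζ hA h1 fun k => ?_
  rw [← hs k, ← rm_inv (φ := φ) hζ hAi (-k), neg_neg]

/-- the multiplicity function with the value at zero removed -/
def cut (m : ZMod r → ℕ) : ZMod r → ℕ := fun k => if k = 0 then 0 else m k

theorem cut_mul (m : ZMod r → ℕ) {x : ZMod r} (hx : x ≠ 0) (hm : ∀ k, m (x * k) = m k)
    (k : ZMod r) : cut m (x * k) = cut m k := by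
  unfold cut
  by_cases hk : k = 0
  · subst hk; simp
  · rw [if_neg hk, if_neg (mul_ne_zero hx hk), hm]

theorem sum_cut (m : ZMod r → ℕ) : m 0 + ∑ k, cut m k = ∑ k, m k := by
  rw [sum_split m, sum_split (cut m)]
  have h1 : ∀ u : (ZMod r)ˣ, cut m u = m u := fun u => by
    unfold cut; rw [if_neg u.ne_zero]
  simp only [h1]
  simp [cut]

include hζ in
/-- the fixed point free part together with its inverse -/
theorem exists_part (hr2 : r ≠ 2) (m : ZMod r → ℕ)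
    (hq : ∀ k, m (((Nat.card F : ℕ) : ZMod r) * k) = m k) (hneg : ∀ k, m (-k) = m k) (n₀ : ℕ)
    (hn₀ : ∑ k, cut m k = n₀) :
    ∃ A Ai : Matrix (Fin n₀) (Fin n₀) F, A ^ r = 1 ∧ A * Ai = 1 ∧ IsConj A Ai ∧
      IsUnit (A * A - 1) ∧ IsUnit (A - 1) ∧ ∀ k, rm φ ζ A k = cut m k := by
  have hq0 := card_ne_zero' (K := F) φ hζ
  obtain ⟨A, hA, hAm⟩ := exists_matrix' (K := F) (ι := Fin n₀) φ hζ (cut m)
    (fun k => cut_mul m hq0 hq k) (by rw [Fintype.card_fin]; exact hn₀)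
  have hr1 := (Fact.out : r.Prime).one_le
  have hAi : A * A ^ (r - 1) = 1 := by
    rw [← pow_succ', Nat.sub_add_cancel hr1, hA]
  have hu : IsUnit (A - 1) := by
    rw [isUnit_sub_one_iff (φ := φ) hζ, hAm]
    simp [cut]
  refine ⟨A, A ^ (r - 1), hA, hAi, ?_, isUnit_sq_sub_one hr2 A hA hu, hu, hAm⟩
  refine isConj_inv (φ := φ) hζ A _ hA hAi fun k => ?_
  rw [hAm, hAm]
  have := cut_mul m (x := -1) (by
    intro h; exact one_ne_zero (neg_eq_zero.mp h)) (fun k => by rw [neg_one_mul, hneg]) k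
  rwa [neg_one_mul] at this

include hζ in
/-- realisation in the symplectic group -/
theorem exists_sp (hr2 : r ≠ 2) (n : ℕ) (m : ZMod r → ℕ)
    (hq : ∀ k, m (((Nat.card F : ℕ) : ZMod r) * k) = m k) (hneg : ∀ k, m (-k) = m k)
    (hs : ∑ k, m k = 2 * n) :
    ∃ g : Matrix.symplecticGroup (Fin n) F, g ^ r = 1 ∧
      ∀ k, rm φ ζ (g : Matrix (Fin n ⊕ Fin n) (Fin n ⊕ Fin n) F) k = m k := by
  obtain ⟨n₀, hn₀⟩ : ∃ n₀, ∑ k, cut m k = n₀ := ⟨_, rfl⟩
  obtain ⟨A, Ai, hA, hAi, hc, h2, h1, hAm⟩ := exists_part (F := F) (φ := φ) hζ hr2 m hq hneg n₀ hn₀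
  obtain ⟨J, hJu, hJalt, hJA⟩ := InvForm.exists_alt A Ai hAi hc h2 h1
  -- the form on the fixed point free part
  let β : LinearMap.BilinForm F (Fin n₀ → F) := Matrix.toBilin' J
  have hβ : ∀ u v, β u v = u ⬝ᵥ (J *ᵥ v) := fun u v => Matrix.toBilin'_apply' J u v
  have hβalt : β.IsAlt := fun v => by rw [hβ]; exact hJalt v
  have hβnd : NDB β := by
    intro x hx
    have h3 : x ᵥ* J = 0 := by
      apply dotProduct_eq_zero
      intro v
      rw [← Matrix.dotProduct_mulVec, ← hβ]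
      exact hx v
    obtain ⟨j, hj⟩ := hJu
    have h4 : x = (x ᵥ* J) ᵥ* ((j⁻¹ : (Matrix (Fin n₀) (Fin n₀) F)ˣ) : Matrix _ _ F) := by
      rw [Matrix.vecMul_vecMul, ← hj, Units.mul_inv, Matrix.vecMul_one]
    rw [h4, h3, Matrix.zero_vecMul]
  obtain ⟨n₂, hn₂⟩ := even_of_alt β hβnd hβalt
  rw [Module.finrank_fintype_fun_eq_card, Fintype.card_fin] at hn₂
  have hsum := sum_cut m
  rw [hs, hn₀] at hsum
  obtain ⟨n₁, hn₁⟩ : ∃ n₁, m 0 = 2 * n₁ := ⟨n - n₂, by omega⟩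
  -- the form on the whole space
  let p₁ : (((Fin n₁ ⊕ Fin n₁) ⊕ Fin n₀) → F) →ₗ[F] (Fin n₁ ⊕ Fin n₁ → F) := LinearMap.funLeft F F Sum.inl
  let p₂ : (((Fin n₁ ⊕ Fin n₁) ⊕ Fin n₀) → F) →ₗ[F] (Fin n₀ → F) := LinearMap.funLeft F F Sum.inr
  let B : LinearMap.BilinForm F (((Fin n₁ ⊕ Fin n₁) ⊕ Fin n₀) → F) := (sympBilin n₁ F).comp p₁ p₁ + β.comp p₂ p₂
  have hB : ∀ u v, B u v = sympForm n₁ F (u ∘ Sum.inl) (v ∘ Sum.inl) +
    β (u ∘ Sum.inr) (v ∘ Sum.inr) := fun u v => rfl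
  have hBalt : B.IsAlt := by
    intro v
    rw [hB, sympForm_self, hβalt, add_zero]
  have hBnd : ∀ u, (∀ v, B u v = 0) → u = 0 := by
    intro u hu
    have e1 : u ∘ (Sum.inl : _ → ((Fin n₁ ⊕ Fin n₁) ⊕ Fin n₀)) = 0 := by
      apply eq_zero_of_forall_sympForm_right
      intro v
      have := hu (Sum.elim v 0)
      rw [hB] at this
      simpa using this
    have e2 : u ∘ (Sum.inr : _ → ((Fin n₁ ⊕ Fin n₁) ⊕ Fin n₀)) = 0 := by
      apply hβnd
      intro v
      have := hu (Sum.elim 0 v)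
      rw [hB] at this
      have h0 : sympForm n₁ F (u ∘ Sum.inl) (0 : Fin n₁ ⊕ Fin n₁ → F) = 0 := sympForm_zero_right _
      simp only [Sum.elim_comp_inl, Sum.elim_comp_inr, h0, zero_add] at this
      exact this
    ext i
    rcases i with i | i
    · exact congrFun e1 i
    · exact congrFun e2 i
  have hdim : Module.finrank F (((Fin n₁ ⊕ Fin n₁) ⊕ Fin n₀) → F) = 2 * n := by
    rw [Module.finrank_fintype_fun_eq_card, Fintype.card_sum, Fintype.card_sum, Fintype.card_fin,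
      Fintype.card_fin]
    omega
  obtain ⟨e, he⟩ := EmbedSymp.symp_coords B hBalt hBnd hdim
  -- the isometry
  let M : Matrix ((Fin n₁ ⊕ Fin n₁) ⊕ Fin n₀) ((Fin n₁ ⊕ Fin n₁) ⊕ Fin n₀) F := fromBlocks 1 0 0 A
  have hMr : M ^ r = 1 := by
    rw [fromBlocks_diagonal_pow, one_pow, hA, fromBlocks_one]
  have hMB : ∀ u v, B (M *ᵥ u) (M *ᵥ v) = B u v := by
    intro u v
    rw [hB, hB, fromBlocks_mulVec, fromBlocks_mulVec]
    simp only [Sum.elim_comp_inl, Sum.elim_comp_inr, Matrix.one_mulVec, Matrix.zero_mulVec,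
      add_zero, zero_add]
    congr 1
    rw [hβ, hβ]
    have h3 : (u ∘ Sum.inr) ⬝ᵥ ((Aᵀ * J * A) *ᵥ (v ∘ Sum.inr)) =
        (A *ᵥ (u ∘ Sum.inr)) ⬝ᵥ (J *ᵥ (A *ᵥ (v ∘ Sum.inr))) := by
      rw [← Matrix.mulVec_mulVec, ← Matrix.mulVec_mulVec, Matrix.dotProduct_mulVec,
        Matrix.vecMul_transpose]
    rw [← h3, hJA]
  let T : (Fin n ⊕ Fin n → F) →ₗ[F] (Fin n ⊕ Fin n → F) :=
    e.toLinearMap ∘ₗ (Matrix.toLin' M) ∘ₗ e.symm.toLinearMap
  have hT : ∀ v, T (e v) = e (M *ᵥ v) := by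
    intro v
    change e (M *ᵥ (e.symm (e v))) = _
    rw [e.symm_apply_apply]
  have hTm : ∀ v, LinearMap.toMatrix' T *ᵥ (e v) = e (M *ᵥ v) := by
    intro v
    rw [LinearMap.toMatrix'_mulVec, hT]
  have hmem : LinearMap.toMatrix' T ∈ Matrix.symplecticGroup (Fin n) F := by
    rw [mem_symplecticGroup_iff]
    intro u v
    obtain ⟨u, rfl⟩ := e.surjective u
    obtain ⟨v, rfl⟩ := e.surjective v
    rw [hTm, hTm, he, he, hMB]
  have hTr : (LinearMap.toMatrix' T) ^ r = 1 := by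
    have hpw : ∀ j v, ((LinearMap.toMatrix' T) ^ j) *ᵥ (e v) = e ((M ^ j) *ᵥ v) := by
      intro j
      induction j with
      | zero => intro v; simp
      | succ j ih =>
        intro v
        rw [pow_succ, ← Matrix.mulVec_mulVec, hTm, ih, Matrix.mulVec_mulVec, ← pow_succ]
    apply Matrix.mulVec_injective
    funext v
    obtain ⟨v, rfl⟩ := e.surjective v
    rw [hpw, hMr, Matrix.one_mulVec, Matrix.one_mulVec]
  refine ⟨⟨LinearMap.toMatrix' T, hmem⟩, Subtype.ext ?_, fun k => ?_⟩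
  · rw [SubmonoidClass.coe_pow]; exact hTr
  · change rm φ ζ (LinearMap.toMatrix' T) k = m k
    rw [← rm_of_equiv (φ := φ) (ζ := ζ) M (LinearMap.toMatrix' T) e (fun v => (hTm v).symm) k,
      rm_blocks hζ _ _ (one_pow r) hA, rm_one hζ, hAm]
    unfold cut
    by_cases hk : k = 0
    · subst hk
      rw [if_pos rfl, if_pos rfl, Fintype.card_sum, Fintype.card_fin, add_zero, hn₁]; ring
    · rw [if_neg hk, if_neg hk, zero_add]

end H49.SpClasses
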