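import Cfsg.Agent.Lib.H49.OrthAdj

set_option autoImplicit false
set_option linter.unusedSectionVars false

/-! Orthogonal sums of quadratic forms on coordinate spaces, and block embeddings. -/

namespace H49.SumForm

open QuadraticMap Matrix H49.OrthAdj

variable {κ : Type} [Fintype κ] [DecidableEq κ] {ι : Type} [Fintype ι] [DecidableEq ι]
  {F : Type*} [Field F]

/-- orthogonal sum -/
def sumForm (Q₁ : QuadraticForm F (κ → F)) (Q₂ : QuadraticForm F (ι → F)) :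
    QuadraticForm F (κ ⊕ ι → F) :=
  Q₁.comp (LinearMap.funLeft F F Sum.inl) + Q₂.comp (LinearMap.funLeft F F Sum.inr)

theorem sumForm_apply (Q₁ : QuadraticForm F (κ → F)) (Q₂ : QuadraticForm F (ι → F))
    (v : κ ⊕ ι → F) : sumForm Q₁ Q₂ v = Q₁ (v ∘ Sum.inl) + Q₂ (v ∘ Sum.inr) := rfl

theorem coe_sumForm (Q₁ : QuadraticForm F (κ → F)) (Q₂ : QuadraticForm F (ι → F)) :
    ⇑(sumForm Q₁ Q₂) = fun v : κ ⊕ ι → F => Q₁ (v ∘ Sum.inl) + Q₂ (v ∘ Sum.inr) := rfl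

theorem polar_sumForm (Q₁ : QuadraticForm F (κ → F)) (Q₂ : QuadraticForm F (ι → F))
    (v w : κ ⊕ ι → F) : polar (⇑(sumForm Q₁ Q₂)) v w =
      polar (⇑Q₁) (v ∘ Sum.inl) (w ∘ Sum.inl) + polar (⇑Q₂) (v ∘ Sum.inr) (w ∘ Sum.inr) := by
  simp only [polar, sumForm_apply]
  have h1 : (v + w) ∘ (Sum.inl : κ → κ ⊕ ι) = v ∘ Sum.inl + w ∘ Sum.inl := rfl
  have h2 : (v + w) ∘ (Sum.inr : ι → κ ⊕ ι) = v ∘ Sum.inr + w ∘ Sum.inr := rfl
  rw [h1, h2]; ring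

theorem nondeg (Q₁ : QuadraticForm F (κ → F)) (Q₂ : QuadraticForm F (ι → F))
    (h₁ : (polarBilin Q₁).Nondegenerate) (h₂ : (polarBilin Q₂).Nondegenerate) :
    (polarBilin (sumForm Q₁ Q₂)).Nondegenerate := by
  rw [H48.QuadWitt.nondeg_iff]
  intro x hx
  have e1 : x ∘ (Sum.inl : κ → κ ⊕ ι) = 0 := by
    refine H48.QuadWitt.nondeg_left h₁ fun y => ?_
    have := hx (Sum.elim y 0)
    rw [polar_sumForm] at this
    simpa using this
  have e2 : x ∘ (Sum.inr : ι → κ ⊕ ι) = 0 := by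
    refine H48.QuadWitt.nondeg_left h₂ fun y => ?_
    have := hx (Sum.elim 0 y)
    rw [polar_sumForm] at this
    simpa using this
  ext i
  rcases i with i | i
  · exact congrFun e1 i
  · exact congrFun e2 i

/-- block embedding -/
def blk (Q₁ : QuadraticForm F (κ → F)) (Q₂ : QuadraticForm F (ι → F)) :
    G Q₁ × G Q₂ →* G (sumForm Q₁ Q₂) := IsomBasic.isomBlockHom (⇑Q₁) (⇑Q₂)

theorem mt_blk (Q₁ : QuadraticForm F (κ → F)) (Q₂ : QuadraticForm F (ι → F)) (p : G Q₁ × G Q₂) :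
    mt (blk Q₁ Q₂ p) = fromBlocks (mt p.1) 0 0 (mt p.2) := rfl

theorem blk_inl_R (Q₁ : QuadraticForm F (κ → F)) (Q₂ : QuadraticForm F (ι → F)) (v : κ → F)
    (hv : Q₁ v ≠ 0) (hv' : sumForm Q₁ Q₂ (Sum.elim v 0) ≠ 0) :
    blk Q₁ Q₂ (R Q₁ v hv, 1) = R (sumForm Q₁ Q₂) (Sum.elim v 0) hv' := by
  apply mt_ext
  intro x
  rw [mt_blk, R_mulVec, fromBlocks_mulVec, R_mulVec, polar_sumForm, sumForm_apply]
  have h1 : mt (1 : G Q₂) = 1 := rfl
  rw [h1]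
  ext i
  rcases i with i | i <;> simp

theorem sumForm_elim (Q₁ : QuadraticForm F (κ → F)) (Q₂ : QuadraticForm F (ι → F)) (v : κ → F) :
    sumForm Q₁ Q₂ (Sum.elim v 0) = Q₁ v := by
  rw [sumForm_apply]; simp

end H49.SumForm
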