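import Cfsg.Agent.Lib.H49.OrthCount
import Cfsg.Agent.Lib.H49.FormRm
import Cfsg.Agent.Lib.H49.SpClasses
import Cfsg.Agent.Lib.H49.InvForm
import Cfsg.Agent.Lib.H49.FormConj3
import Cfsg.Agent.Lib.H49.SumForm

set_option autoImplicit false
set_option linter.unusedSectionVars false

/-! Elements of odd prime order in orthogonal groups: realisation and conjugacy. -/

namespace H49.OrthClasses

open QuadraticMap Matrix H48.QuadSplit H48.QuadStd H7.HypStd H7.AnisoPlane H49.OrthCount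
  H49.OrthAdj H49.SumForm H49.RootMult H49.RootCount H49.RootGroup H49.GLClasses H49.SpClasses

variable {F : Type*} [Field F] [Finite F]

/-- A fixed point free isometry of prime order `r` forces `r` to divide the number of vectors of
norm `1`. -/
theorem dvd_cnt {V : Type*} [AddCommGroup V] [Module F V] [Finite V] {r : ℕ} [Fact r.Prime]
    (Q : QuadraticForm F V) (g : V →ₗ[F] V) (hg : ∀ v, Q (g v) = Q v) (hr : g ^ r = 1)
    (h1 : ∀ v, g v = v → v = 0) : r ∣ cnt Q 1 := by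
  classical
  let X := {v : V // Q v = 1}
  have : Fintype X := Fintype.ofFinite X
  let f : Function.End X := fun v => ⟨g v.1, by rw [hg]; exact v.2⟩
  have hf : ∀ j (v : X), ((f ^ j) v).1 = (g ^ j) v.1 := by
    intro j
    induction j with
    | zero => intro v; rfl
    | succ j ih =>
      intro v
      rw [pow_succ, pow_succ, Module.End.mul_apply]
      change ((f ^ j) (f v)).1 = _
      rw [ih]
  have hfr : f ^ r ^ 1 = 1 := by
    rw [pow_one]
    funext v
    apply Subtype.ext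
    rw [hf, hr]; rfl
  have h2 := Equiv.Perm.card_fixedPoints_modEq (p := r) (n := 1) hfr
  have h3 : IsEmpty f.fixedPoints := by
    refine ⟨fun v => ?_⟩
    have h4 : f v.1 = v.1 := v.2
    have h5 : g v.1.1 = v.1.1 := congrArg Subtype.val h4
    have h6 := h1 _ h5
    have h7 := v.1.2
    rw [h6, QuadraticMap.map_zero] at h7
    exact zero_ne_one h7
  have h4 : Fintype.card f.fixedPoints = 0 := Fintype.card_eq_zero
  rw [h4] at h2
  have h5 : cnt Q 1 = Fintype.card X := Nat.card_eq_fintype_card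
  rw [h5]
  exact (Nat.modEq_zero_iff_dvd).mp h2

section types
variable {r : ℕ} [Fact r.Prime]

theorem dvd_plus_iff (hq0 : ((Nat.card F : ℕ) : ZMod r) ≠ 0) (m : ℕ) :
    r ∣ cnt (qPlus (m + 1) F) 1 ↔ ((Nat.card F : ℕ) : ZMod r) ^ (m + 1) = 1 := by
  have h := congrArg (fun n : ℕ => (n : ZMod r)) (cnt1_plus (F := F) m)
  simp only [Nat.cast_add, Nat.cast_pow] at h
  set q : ZMod r := ((Nat.card F : ℕ) : ZMod r)
  rw [← ZMod.natCast_eq_zero_iff]
  have h1 : q ^ (2 * m + 1) = q ^ m * q ^ (m + 1) := by ring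
  rw [h1] at h
  constructor
  · intro h0
    rw [h0, zero_add] at h
    exact (mul_left_cancel₀ (pow_ne_zero m hq0) (h.symm.trans (mul_one _).symm))
  · intro h0
    rw [h0, mul_one] at h
    exact add_eq_right.mp h

theorem dvd_minus_iff (hq0 : ((Nat.card F : ℕ) : ZMod r) ≠ 0) (m : ℕ) {a b : F}
    (hab : Aniso a b) :
    r ∣ cnt (qMinus m F a b) 1 ↔ ((Nat.card F : ℕ) : ZMod r) ^ (m + 1) = -1 := by
  have h := congrArg (fun n : ℕ => (n : ZMod r)) (cnt1_minus m hab)
  simp only [Nat.cast_add, Nat.cast_pow] at h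
  set q : ZMod r := ((Nat.card F : ℕ) : ZMod r)
  rw [← ZMod.natCast_eq_zero_iff, h]
  have h1 : q ^ (2 * m + 1) + q ^ m = q ^ m * (q ^ (m + 1) + 1) := by ring
  rw [h1]
  constructor
  · intro h0
    exact eq_neg_of_add_eq_zero_left ((mul_eq_zero.mp h0).resolve_left (pow_ne_zero m hq0))
  · intro h0
    rw [h0]; ring

end types

universe u

/-- the residue of the number of vectors of norm one modulo `r` detects the type -/
theorem equivalent_of_dvd {F : Type u} [Field F] [Finite F] {V V' : Type u}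
    [AddCommGroup V] [Module F V] [FiniteDimensional F V] [AddCommGroup V'] [Module F V']
    [FiniteDimensional F V'] {r : ℕ} [Fact r.Prime] (hr2 : r ≠ 2)
    (hq0 : ((Nat.card F : ℕ) : ZMod r) ≠ 0)
    {Q : QuadraticForm F V} {Q' : QuadraticForm F V'} (hQ : ND Q) (hQ' : ND Q') {m : ℕ}
    (hd : Module.finrank F V = 2 * m) (hd' : Module.finrank F V' = 2 * m)
    (h : r ∣ cnt Q 1) (h' : r ∣ cnt Q' 1) : Q.Equivalent Q' := by
  have hne : (1 : ZMod r) ≠ -1 := by
    intro h0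
    apply two_ne_zero' hr2
    linear_combination h0
  rcases classify_even m V Q hQ hd with h1 | ⟨hm, z, hz, h1⟩
  · rcases classify_even m V' Q' hQ' hd' with h2 | ⟨hm, z, hz, h2⟩
    · exact h1.trans h2.symm
    · exfalso
      obtain ⟨n, rfl⟩ : ∃ n, m = n + 1 := ⟨m - 1, by omega⟩
      rw [cnt_congr h1, dvd_plus_iff hq0] at h
      rw [cnt_congr h2, Nat.add_sub_cancel, dvd_minus_iff hq0 n (aniso_of_noroot hz)] at h'
      exact hne (h.symm.trans h')
  · obtain ⟨n, rfl⟩ : ∃ n, m = n + 1 := ⟨m - 1, by omega⟩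
    rw [cnt_congr h1, Nat.add_sub_cancel, dvd_minus_iff hq0 n (aniso_of_noroot hz)] at h
    rcases classify_even (n + 1) V' Q' hQ' hd' with h2 | ⟨hm, z', hz', h2⟩
    · exfalso
      rw [cnt_congr h2, dvd_plus_iff hq0] at h'
      exact hne (h'.symm.trans h)
    · refine h1.trans (Equivalent.trans ?_ h2.symm)
      refine (qMinus_equiv _ 1 z).trans (Equivalent.trans ?_ (qMinus_equiv _ 1 z').symm)
      exact (Equivalent.refl _).prod (qBin_unique hz' hz)

/-! ### Realisation -/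

section real

variable {F : Type u} [Field F] [Finite F] {L : Type*} [Field L] {r : ℕ} [Fact r.Prime]
  {φ : F →+* L} {ζ : L} (hζ : IsPrimitiveRoot ζ r)
  {ι : Type} [Fintype ι] [DecidableEq ι]

theorem mt_pow {Q : QuadraticForm F (ι → F)} (g : G Q) (j : ℕ) : mt (g ^ j) = mt g ^ j :=
  map_pow ((Units.coeHom (Matrix ι ι F)).comp (Cfsg.isometryGroup F (⇑Q)).subtype) g j

theorem eq_one_of_mt {Q : QuadraticForm F (ι → F)} {g : G Q} (h : mt g = 1) : g = 1 := by
  apply Subtype.ext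
  apply Units.ext
  exact h

/-- transport a matrix isometry along an isometry of spaces -/
theorem transport {κ : Type*} [Fintype κ] [DecidableEq κ] (Q : QuadraticForm F (ι → F))
    (M : Matrix κ κ F) (e : (κ → F) ≃ₗ[F] (ι → F)) (hM : ∀ v, Q (e (M *ᵥ v)) = Q (e v))
    (hMr : M ^ r = 1) :
    ∃ g : G Q, g ^ r = 1 ∧ ∀ k : ZMod r, rm φ ζ (mt g) k = rm φ ζ M k := by
  have hr1 := (Fact.out : r.Prime).one_le
  have hM1 : M * M ^ (r - 1) = 1 := by rw [← pow_succ', Nat.sub_add_cancel hr1, hMr]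
  have hM2 : M ^ (r - 1) * M = 1 := by rw [← pow_succ, Nat.sub_add_cancel hr1, hMr]
  let Ml : (κ → F) ≃ₗ[F] (κ → F) :=
    LinearEquiv.ofLinearMap (Matrix.toLin' M) (Matrix.toLin' (M ^ (r - 1)))
      (by rw [← Matrix.toLin'_mul, hM1, Matrix.toLin'_one])
      (by rw [← Matrix.toLin'_mul, hM2, Matrix.toLin'_one])
  have hMl : ∀ v, Ml v = M *ᵥ v := fun v => rfl
  let T : (ι → F) ≃ₗ[F] (ι → F) := (e.symm.trans Ml).trans e
  have hT : ∀ v, T (e v) = e (M *ᵥ v) := by
    intro v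
    change e (Ml (e.symm (e v))) = _
    rw [e.symm_apply_apply, hMl]
  obtain ⟨g, hg⟩ := exists_coe Q T (fun v => by
    obtain ⟨v, rfl⟩ := e.surjective v
    rw [hT, hM])
  have hgm : ∀ v, mt g *ᵥ (e v) = e (M *ᵥ v) := fun v => by rw [hg, hT]
  refine ⟨g, ?_, fun k => ?_⟩
  · apply eq_one_of_mt
    rw [mt_pow]
    have hpw : ∀ j v, ((mt g) ^ j) *ᵥ (e v) = e ((M ^ j) *ᵥ v) := by
      intro j
      induction j with
      | zero => intro v; simp
      | succ j ih =>
        intro v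
        rw [pow_succ, ← Matrix.mulVec_mulVec, hgm, ih, Matrix.mulVec_mulVec, ← pow_succ]
    apply Matrix.mulVec_injective
    funext v
    obtain ⟨v, rfl⟩ := e.surjective v
    rw [hpw, hMr, Matrix.one_mulVec, Matrix.one_mulVec]
  · exact (rm_of_equiv (φ := φ) (ζ := ζ) M (mt g) e (fun v => (hgm v).symm) k).symm

include hζ in
/-- realisation in an orthogonal group -/
theorem exists_orth (hr2 : r ≠ 2) (hrF : (r : F) ≠ 0) (Q : QuadraticForm F (ι → F)) (hQ : ND Q)
    (m : ZMod r → ℕ) (hq : ∀ k, m (((Nat.card F : ℕ) : ZMod r) * k) = m k)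
    (hneg : ∀ k, m (-k) = m k) (hs : ∑ k, m k = Fintype.card ι)
    (h0 : m 0 = 0 → r ∣ cnt Q 1) :
    ∃ g : G Q, g ^ r = 1 ∧ ∀ k, rm φ ζ (mt g) k = m k := by
  have hq0 := card_ne_zero' (K := F) φ hζ
  obtain ⟨n₀, hn₀⟩ : ∃ n₀, ∑ k, cut m k = n₀ := ⟨_, rfl⟩
  obtain ⟨A, Ai, hA, hAi, hc, h2, h1, hAm⟩ := exists_part (F := F) (φ := φ) hζ hr2 m hq hneg n₀ hn₀
  obtain ⟨Q₀, hQ₀, hQA⟩ := InvForm.exists_quad_form A Ai hAi hc h2 h1 r hrF hA
  have hsum := sum_cut m
  rw [hs, hn₀] at hsum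
  have hfix : ∀ v, (Matrix.toLin' A) v = v → v = 0 := by
    intro v hv
    obtain ⟨y, hy⟩ := h1
    have h3 : (A - 1) *ᵥ v = 0 := by
      rw [Matrix.sub_mulVec, Matrix.one_mulVec, sub_eq_zero]; exact hv
    have h4 : v = ((y⁻¹ : (Matrix (Fin n₀) (Fin n₀) F)ˣ) : Matrix _ _ F) *ᵥ ((A - 1) *ᵥ v) := by
      rw [← hy, Matrix.mulVec_mulVec, Units.inv_mul, Matrix.one_mulVec]
    rw [h4, h3, Matrix.mulVec_zero]
  -- the dimension of the fixed point free part is even
  obtain ⟨J, hJu, hJalt, hJA⟩ := InvForm.exists_alt A Ai hAi hc h2 h1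
  obtain ⟨n₂, hn₂⟩ : ∃ n₂, n₀ = 2 * n₂ := by
    let β : LinearMap.BilinForm F (Fin n₀ → F) := Matrix.toBilin' J
    have hβ : ∀ u v, β u v = u ⬝ᵥ (J *ᵥ v) := fun u v => Matrix.toBilin'_apply' J u v
    obtain ⟨n₂, hn₂⟩ := FormConj3.even_of_alt β (by
      intro x hx
      have h3 : x ᵥ* J = 0 := by
        apply dotProduct_eq_zero
        intro v
        rw [← Matrix.dotProduct_mulVec, ← hβ]
        exact hx v
      obtain ⟨j, hj⟩ := hJu
      have h4 : x = (x ᵥ* J) ᵥ* ((j⁻¹ : (Matrix (Fin n₀) (Fin n₀) F)ˣ) : Matrix _ _ F) := by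
        rw [Matrix.vecMul_vecMul, ← hj, Units.mul_inv, Matrix.vecMul_one]
      rw [h4, h3, Matrix.zero_vecMul]) (fun v => by rw [hβ]; exact hJalt v)
    rw [Module.finrank_fintype_fun_eq_card, Fintype.card_fin] at hn₂
    exact ⟨n₂, hn₂⟩
  have f0 : Module.finrank F (Fin n₀ → F) = 2 * n₂ := by
    rw [Module.finrank_fintype_fun_eq_card, Fintype.card_fin, hn₂]
  have fι : Module.finrank F (ι → F) = Fintype.card ι := Module.finrank_fintype_fun_eq_card F
  -- the complement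
  have hcompl : ∃ Q₁ : QuadraticForm F (Fin (m 0) → F), ND Q₁ ∧ (Q₁.prod Q₀).Equivalent Q := by
    rcases Nat.even_or_odd' (m 0) with ⟨l, hl | hl⟩
    · rcases Nat.eq_zero_or_pos l with rfl | hlpos
      · have hm0 : m 0 = 0 := by omega
        have hdv := h0 hm0
        have hdv0 : r ∣ cnt Q₀ 1 := by
          refine dvd_cnt Q₀ (Matrix.toLin' A) hQA ?_ hfix
          rw [← Matrix.toLin'_pow, hA, Matrix.toLin'_one]; rfl
        have hE : Q₀.Equivalent Q :=
          equivalent_of_dvd hr2 hq0 hQ₀ hQ f0 (by rw [fι]; omega) hdv0 hdv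
        have hQe : ∀ x : Fin (m 0) → F, x = 0 := by
          intro x; ext i; exact (Fin.elim0 (i.cast hm0))
        refine ⟨0, fun x _ => hQe x, Equivalent.trans ?_ hE⟩
        refine ⟨⟨
          { toFun := fun x => x.2
            map_add' := fun x y => rfl
            map_smul' := fun c x => rfl
            invFun := fun x => (0, x)
            left_inv := fun x => Prod.ext (hQe x.1).symm rfl
            right_inv := fun x => rfl }, fun x => ?_⟩⟩
        change Q₀ x.2 = (0 : QuadraticForm F (Fin (m 0) → F)) x.1 + Q₀ x.2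
        simp
      · obtain ⟨l', rfl⟩ : ∃ l', l = l' + 1 := ⟨l - 1, by omega⟩
        rw [hl]
        exact exists_compl_even hQ₀ hQ f0 (by rw [fι]; omega)
    · have h2F : (2 : F) ≠ 0 := by
        intro h2F
        -- odd dimension in characteristic two is impossible
        obtain ⟨n, hn⟩ := FormConj3.even_of_alt (polarBilin Q) (fun x hx => hQ x fun y => by
          simpa using hx y) (fun v => by
            rw [polarBilin_apply_apply, polar_self, nsmul_eq_mul, Nat.cast_ofNat, h2F, zero_mul])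
        rw [fι] at hn
        omega
      rw [hl]
      exact exists_compl_odd h2F hQ₀ hQ f0 (by rw [fι]; omega)
  obtain ⟨Q₁, hQ₁, ⟨E⟩⟩ := hcompl
  -- the isometry on the sum
  let e : ((Fin (m 0) ⊕ Fin n₀) → F) ≃ₗ[F] (ι → F) :=
    (LinearEquiv.sumArrowLequivProdArrow (Fin (m 0)) (Fin n₀) F F).trans E.toLinearEquiv
  have he : ∀ v : (Fin (m 0) ⊕ Fin n₀) → F, Q (e v) = Q₁ (v ∘ Sum.inl) + Q₀ (v ∘ Sum.inr) := by
    intro v
    exact E.map_app _
  obtain ⟨g, hgr, hgm⟩ := transport (φ := φ) (ζ := ζ) (r := r) Q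
    (fromBlocks (1 : Matrix (Fin (m 0)) (Fin (m 0)) F) 0 0 A) e (fun v => by
      rw [he, he, fromBlocks_mulVec]
      simp only [Sum.elim_comp_inl, Sum.elim_comp_inr, Matrix.one_mulVec, Matrix.zero_mulVec,
        add_zero, zero_add, hQA]) (by
      rw [fromBlocks_diagonal_pow, one_pow, hA, fromBlocks_one])
  refine ⟨g, hgr, fun k => ?_⟩
  rw [hgm, rm_blocks hζ _ _ (one_pow r) hA, rm_one hζ, hAm, Fintype.card_fin]
  unfold cut
  by_cases hk : k = 0
  · subst hk
    rw [if_pos rfl, if_pos rfl, add_zero]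
  · rw [if_neg hk, if_neg hk, zero_add]

/-- conjugacy in the orthogonal group -/
theorem isConj_orth (Q : QuadraticForm F (ι → F)) (hQ : ND Q) (A B : G Q) (N : ℕ) (hodd : Odd N)
    (hN : (N : F) ≠ 0) (hAN : A ^ N = 1) (h : IsConj (mt A) (mt B)) : IsConj A B := by
  obtain ⟨cl, hcl⟩ := H48.SimMatrix.exists_equiv_of_isConj h
  let g : (ι → F) →ₗ[F] (ι → F) := Matrix.toLin' (mt A)
  have hgA : ∀ v, g v = (mt A).mulVec v := fun v => rfl
  have hgN : g ^ N = 1 := by
    have h1 : (mt A) ^ N = 1 := by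
      rw [← mt_pow, hAN]; rfl
    rw [← Matrix.toLin'_pow, h1, Matrix.toLin'_one]
    rfl
  let Q' : QuadraticForm F (ι → F) := Q.comp cl.toLinearMap
  have hQ'a : ∀ v, Q' v = Q (cl v) := fun v => rfl
  have hAB : ∀ v, cl (g v) = (mt B).mulVec (cl v) := hcl
  have hE : Q'.Equivalent Q := ⟨⟨cl, fun v => rfl⟩⟩
  obtain ⟨y, hy1, hy2⟩ := FormConj3.orth_conj g Q Q' hQ (nd_of_equivalent hE.symm hQ) hE.symm
    (fun v => isom A v) (fun v => by
      rw [hQ'a, hQ'a, hAB]; exact isom B _) N hodd hN hgN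
  have hy2' : ∀ v, Q (y v) = Q (cl v) := hy2
  obtain ⟨h, hh⟩ := exists_coe Q (y.symm.trans cl) (fun v => by
    rw [LinearEquiv.trans_apply, ← hy2', y.apply_symm_apply])
  rw [isConj_iff]
  refine ⟨h, ?_⟩
  rw [mul_inv_eq_iff_eq_mul]
  apply mt_ext
  intro x
  rw [mt_mul, mt_mul, ← Matrix.mulVec_mulVec, ← Matrix.mulVec_mulVec, hh, hh,
    LinearEquiv.trans_apply, LinearEquiv.trans_apply, ← hAB, ← hgA]
  congr 1
  apply y.injective
  rw [hy1, y.apply_symm_apply, y.apply_symm_apply]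

include hζ in
/-- symmetry of multiplicities -/
theorem rm_neg_orth (Q : QuadraticForm F (ι → F)) (hQ : ND Q) (g : G Q) (k : ZMod r) :
    rm φ ζ (mt g) (-k) = rm φ ζ (mt g) k := by
  set J : Matrix ι ι F := LinearMap.BilinForm.toMatrix' (polarBilin Q) with hJ
  have hJu : IsUnit J := by
    rw [Matrix.isUnit_iff_isUnit_det, isUnit_iff_ne_zero, ← Matrix.nondegenerate_iff_det_ne_zero]
    exact LinearMap.BilinForm.nondegenerate_toMatrix'_iff.mpr (nd_iff.mp hQ)
  have hJg : (mt g)ᵀ * J * mt g = J := by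
    have h1 := LinearMap.BilinForm.toMatrix'_comp (polarBilin Q) (Matrix.toLin' (mt g))
      (Matrix.toLin' (mt g))
    rw [LinearMap.toMatrix'_toLin'] at h1
    rw [← h1]
    congr 1
    refine LinearMap.ext fun u => LinearMap.ext fun v => ?_
    exact H17.OrthDet.polar_isometry Q (mt g) (isom g) u v
  have h2 : mt g * mt g⁻¹ = 1 := by
    rw [← mt_mul, mul_inv_cancel]; rfl
  exact FormRm.rm_neg_of_form hζ J (mt g) (mt g⁻¹) hJu hJg h2 k

include hζ in
/-- fixed point free elements -/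
theorem dvd_cnt_of_rm_zero (Q : QuadraticForm F (ι → F)) (g : G Q) (hg : g ^ r = 1)
    (h0 : rm φ ζ (mt g) (0 : ZMod r) = 0) : r ∣ cnt Q 1 := by
  have hgr : (mt g) ^ r = 1 := by rw [← mt_pow, hg]; rfl
  have h1 := (isUnit_sub_one_iff (φ := φ) hζ (mt g)).mpr h0
  refine dvd_cnt Q (Matrix.toLin' (mt g)) (fun v => isom g v)
    (by rw [← Matrix.toLin'_pow, hgr, Matrix.toLin'_one]; rfl) ?_
  intro v hv
  obtain ⟨y, hy⟩ := h1
  have h3 : (mt g - 1) *ᵥ v = 0 := by
    rw [Matrix.sub_mulVec, Matrix.one_mulVec, sub_eq_zero]; exact hv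
  have h4 : v = ((y⁻¹ : (Matrix ι ι F)ˣ) : Matrix _ _ F) *ᵥ ((OrthAdj.mt g - 1) *ᵥ v) := by
    rw [← hy, Matrix.mulVec_mulVec, Units.inv_mul, Matrix.one_mulVec]
  rw [h4, h3, Matrix.mulVec_zero]

end real

/-- **Class count in orthogonal groups.** -/
theorem classes_orth {F : Type u} [Field F] [Finite F] {r : ℕ} [Fact r.Prime]
    {ι : Type} [Fintype ι] [DecidableEq ι] (hr2 : r ≠ 2)
    (hrF : (r : F) ≠ 0) (Q : QuadraticForm F (ι → F)) (hQ : ND Q)
    (hq0 : ((Nat.card F : ℕ) : ZMod r) ≠ 0) :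
    Nat.card {C : ConjClasses (G Q) // ∃ g : G Q, ConjClasses.mk g = C ∧ orderOf g = r} =
      {m | m ∈ Inv (Subgroup.zpowers (Units.mk0 ((Nat.card F : ℕ) : ZMod r) hq0) ⊔
        Subgroup.zpowers (-1 : (ZMod r)ˣ)) (Fintype.card ι) ∧
      (m ≠ fun k : ZMod r => if k = 0 then Fintype.card ι else 0) ∧
      (m 0 = 0 → r ∣ cnt Q 1)}.ncard := by
  obtain ⟨ζ, hζ⟩ := exists_primitive (K := F) hrF
  set φ := algebraMap F (AlgebraicClosure F) with hφ
  have hpow : ∀ g : G Q, g ^ r = 1 → (mt g) ^ r = 1 := by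
    intro g hg
    rw [← mt_pow, hg]; rfl
  refine card_classes (fun (g : G Q) k => rm φ ζ (mt g) k) _
    ((finite_Inv _ _).subset fun m hm => hm.1) ?_ ?_ ?_ ?_
  · intro g hg hg1
    refine ⟨(mem_Inv_sup _ _ _ _).mpr ⟨⟨fun k => ?_, fun k => ?_⟩, ?_⟩, ?_, ?_⟩
    · exact rm_frob (K := F) φ hζ (mt g) k
    · rw [Units.val_neg, Units.val_one, neg_one_mul]
      exact rm_neg_orth (φ := φ) hζ Q hQ g k
    · exact sum_rm hζ (φ := φ) _ (hpow g hg)
    · intro h
      exact hg1 (eq_one_of_mt ((eq_one_iff_rm (φ := φ) hζ _ (hpow g hg)).mpr h))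
    · intro h0
      exact dvd_cnt_of_rm_zero (φ := φ) hζ Q g hg h0
  · rintro m ⟨hm, hm1, hm0⟩
    obtain ⟨⟨hm2, hm3⟩, hm4⟩ := (mem_Inv_sup _ _ _ _).mp hm
    obtain ⟨g, hgr, hgm⟩ := exists_orth (φ := φ) hζ hr2 hrF Q hQ m hm2
      (fun k => by
        have := hm3 k
        rwa [Units.val_neg, Units.val_one, neg_one_mul] at this) hm4 hm0
    refine ⟨g, hgr, ?_, funext hgm⟩
    rintro rfl
    apply hm1
    have := (eq_one_iff_rm (φ := φ) hζ (1 : Matrix ι ι F) (one_pow r)).mp rfl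
    rw [← this]
    funext k
    exact (hgm k).symm
  · intro g h hg hh _ _ he
    exact isConj_orth Q hQ g h r ((Fact.out : r.Prime).odd_of_ne_two hr2) hrF hg
      (isConj_of_rm hζ (hpow g hg) (hpow h hh) fun k => congrFun he k)
  · intro g h _ _ hc
    funext k
    exact rm_conj (((Units.coeHom (Matrix ι ι F)).comp
      (Cfsg.isometryGroup F (⇑Q)).subtype).map_isConj hc) k

end H49.OrthClasses
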