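import Cfsg.Agent.Lib.H49.PSUOrd

set_option autoImplicit false
set_option linter.unusedSectionVars false

/-! Element orders in `PSU_3(q)`: upper bounds. -/

namespace H49.PSUOrd

open Matrix Polynomial Cfsg H49.Unitary H49.SUClasses H49.SUSS

section num

theorem d_dvd (q : ℕ) (hq : 1 ≤ q) : Nat.gcd 3 (q + 1) ∣ q ^ 2 - 1 ∧
    Nat.gcd 3 (q + 1) ∣ q ^ 2 - q + 1 ∧ Nat.gcd 3 (q + 1) ∣ q + 1 := by
  have h1 : Nat.gcd 3 (q + 1) ∣ q + 1 := Nat.gcd_dvd_right _ _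
  have h3 : Nat.gcd 3 (q + 1) ∣ 3 := Nat.gcd_dvd_left _ _
  have h2 : q ≤ q ^ 2 := Nat.le_self_pow (by norm_num) q
  refine ⟨?_, ?_, h1⟩
  · have : q ^ 2 - 1 = (q + 1) * (q - 1) := by
      obtain ⟨m, rfl⟩ : ∃ m, q = m + 1 := ⟨q - 1, by omega⟩
      rw [Nat.add_sub_cancel]
      have : (m + 1) ^ 2 = (m + 1 + 1) * m + 1 := by ring
      omega
    rw [this]
    exact h1.mul_right _
  · have h4 : q ^ 2 - q + 1 + 3 * q = (q + 1) * (q + 1) := by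
      have : (q + 1) * (q + 1) = q ^ 2 + 2 * q + 1 := by ring
      omega
    exact (Nat.dvd_add_left (h3.mul_right q)).mp (h4 ▸ h1.mul_right _)

end num

section upper

variable {L : Type*} [Field L] {q : ℕ}

theorem zeta {ζ : L} (h0 : ζ ≠ 0) (h : ζ ^ Nat.gcd 3 (q + 1) = 1) : ζ ^ q = ζ⁻¹ ∧ ζ * ζ * ζ = 1 := by
  constructor
  · obtain ⟨m, hm⟩ := Nat.gcd_dvd_right 3 (q + 1)
    have h1 : ζ ^ (q + 1) = 1 := by
      conv_lhs => rw [hm, pow_mul, h, one_pow]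
    rw [pow_succ] at h1
    exact eq_inv_of_mul_eq_one_left h1
  · obtain ⟨m, hm⟩ := Nat.gcd_dvd_left 3 (q + 1)
    have h1 : ζ ^ 3 = 1 := by
      conv_lhs => rw [hm, pow_mul, h, one_pow]
    rw [← h1]; ring

/-- transposition case -/
theorem caseT (hq : 1 ≤ q) {a b c : L} (h0 : a * b * c = 1) (h1 : b ^ q = a⁻¹) (h2 : a ^ q = b⁻¹) :
    b ^ ((q ^ 2 - 1) / Nat.gcd 3 (q + 1)) = a ^ ((q ^ 2 - 1) / Nat.gcd 3 (q + 1)) ∧
    c ^ ((q ^ 2 - 1) / Nat.gcd 3 (q + 1)) = a ^ ((q ^ 2 - 1) / Nat.gcd 3 (q + 1)) := by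
  set N := (q ^ 2 - 1) / Nat.gcd 3 (q + 1) with hN
  have ha : a ≠ 0 := by rintro rfl; simp at h0
  have hb : b ≠ 0 := by rintro rfl; simp at h0
  have hNd : N * Nat.gcd 3 (q + 1) = q ^ 2 - 1 := Nat.div_mul_cancel (d_dvd q hq).1
  have h3 : a ^ (q ^ 2) = a := by
    rw [pow_two, pow_mul, h2, inv_pow, h1, inv_inv]
  have h4 : a ^ (q ^ 2 - 1) = 1 := by
    have h5 : a ^ (q ^ 2 - 1) * a = 1 * a := by
      rw [← pow_succ, Nat.sub_add_cancel (Nat.one_le_pow _ _ hq), h3, one_mul]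
    exact mul_right_cancel₀ ha h5
  have h5 : (a ^ N) ^ Nat.gcd 3 (q + 1) = 1 := by rw [← pow_mul, hNd, h4]
  obtain ⟨h6, h7⟩ := zeta (pow_ne_zero N ha) h5
  have hb' : b = (a ^ q)⁻¹ := by rw [h2, inv_inv]
  have hbN : b ^ N = a ^ N := by
    rw [hb', inv_pow, ← pow_mul, mul_comm, pow_mul, h6, inv_inv]
  refine ⟨hbN, ?_⟩
  have h8 : a ^ N * b ^ N * c ^ N = 1 := by rw [← mul_pow, ← mul_pow, h0, one_pow]
  rw [hbN] at h8
  have h9 : a ^ N * a ^ N ≠ 0 := mul_ne_zero (pow_ne_zero _ ha) (pow_ne_zero _ ha)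
  exact mul_left_cancel₀ h9 (h8.trans h7.symm)

/-- cycle case -/
theorem caseC (hq : 1 ≤ q) {a b c : L} (h0 : a * b * c = 1) (h2 : c ^ q = b⁻¹)
    (h3 : a ^ q = c⁻¹) :
    b ^ ((q ^ 2 - q + 1) / Nat.gcd 3 (q + 1)) = a ^ ((q ^ 2 - q + 1) / Nat.gcd 3 (q + 1)) ∧
    c ^ ((q ^ 2 - q + 1) / Nat.gcd 3 (q + 1)) = a ^ ((q ^ 2 - q + 1) / Nat.gcd 3 (q + 1)) := by
  set N := (q ^ 2 - q + 1) / Nat.gcd 3 (q + 1) with hN
  have ha : a ≠ 0 := by rintro rfl; simp at h0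
  have hNd : N * Nat.gcd 3 (q + 1) = q ^ 2 - q + 1 := Nat.div_mul_cancel (d_dvd q hq).2.1
  have hc' : c = (a ^ q)⁻¹ := by rw [h3, inv_inv]
  have hb' : b = a ^ (q ^ 2) := by
    have : b = (c ^ q)⁻¹ := by rw [h2, inv_inv]
    rw [this, hc', inv_pow, inv_inv, ← pow_mul, pow_two]
  have h4 : a ^ (q ^ 2 - q + 1) = 1 := by
    have hq2 : q ≤ q ^ 2 := Nat.le_self_pow (by norm_num) q
    have h5 : a ^ (q ^ 2 - q + 1) * a ^ q = 1 * a ^ q := by
      rw [← pow_add, show q ^ 2 - q + 1 + q = q ^ 2 + 1 by omega, pow_succ, ← hb', one_mul]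
      calc b * a = (a * b * c) * c⁻¹ := by
            rw [mul_assoc (a * b), mul_inv_cancel₀ (by rw [hc']; exact inv_ne_zero (pow_ne_zero _ ha)),
              mul_one, mul_comm]
        _ = a ^ q := by rw [h0, one_mul, h3]
    exact mul_right_cancel₀ (pow_ne_zero _ ha) h5
  have h5 : (a ^ N) ^ Nat.gcd 3 (q + 1) = 1 := by rw [← pow_mul, hNd, h4]
  obtain ⟨h6, h7⟩ := zeta (pow_ne_zero N ha) h5
  constructor
  · rw [hb', ← pow_mul, mul_comm, pow_mul, pow_two, pow_mul, h6, inv_pow, h6, inv_inv]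
  · rw [hc', inv_pow, ← pow_mul, mul_comm, pow_mul, h6, inv_inv]

theorem upper [IsAlgClosed L] (p : ℕ) [Fact p.Prime] [CharP L p] (hp : p ≠ 2) (f : ℕ)
    (hq : q = p ^ f) {A : Matrix (Fin 3) (Fin 3) L} {t : L} (ht : t ^ (q ^ 2) = t)
    (hA : A.charpoly = X ^ 3 - C t * X ^ 2 + C (t ^ q) * X - 1) :
    (∃ ζ : L, A ^ (q + 1) = ζ • 1) ∨ (∃ ζ : L, A ^ (p * (q + 1) / Nat.gcd 3 (q + 1)) = ζ • 1) ∨
    (∃ ζ : L, A ^ ((q ^ 2 - 1) / Nat.gcd 3 (q + 1)) = ζ • 1) ∨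
    (∃ ζ : L, A ^ ((q ^ 2 - q + 1) / Nat.gcd 3 (q + 1)) = ζ • 1) := by
  obtain ⟨a, b, c, habc, h0, hP⟩ := prod_of_coeffs p f hq ht
  rw [habc] at hA
  have hq1 : 1 ≤ q := by rw [hq]; exact Nat.one_le_pow _ _ (Fact.out : p.Prime).pos
  have ha : a ≠ 0 := by rintro rfl; simp at h0
  have hb : b ≠ 0 := by rintro rfl; simp at h0
  have hc : c ≠ 0 := by rintro rfl; simp at h0
  have hinj : Function.Injective (fun x : L => x ^ q) := by
    subst hq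
    intro x y hxy
    have h1 : (x - y) ^ p ^ f = 0 := by
      rw [sub_pow_char_pow]
      exact sub_eq_zero.mpr hxy
    exact sub_eq_zero.mp (pow_eq_zero_iff (pow_ne_zero _ (Fact.out : p.Prime).ne_zero) |>.mp h1)
  have hself : ∀ {x : L}, x ≠ 0 → x ^ q = x⁻¹ → x ^ (q + 1) = 1 := by
    intro x hx h
    rw [pow_succ, h, inv_mul_cancel₀ hx]
  have hNd : (q + 1) / Nat.gcd 3 (q + 1) * Nat.gcd 3 (q + 1) = q + 1 :=
    Nat.div_mul_cancel (d_dvd q hq1).2.2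
  -- repeated eigenvalue
  have hrep : ∀ {x y : L}, x ≠ 0 → x * x * y = 1 → x ^ q = x⁻¹ →
      A.charpoly = (X - C x) * (X - C x) * (X - C y) →
      ∃ ζ : L, A ^ (p * (q + 1) / Nat.gcd 3 (q + 1)) = ζ • 1 := by
    intro x y hx hxy hxq hAx
    have h5 : (x ^ ((q + 1) / Nat.gcd 3 (q + 1))) ^ Nat.gcd 3 (q + 1) = 1 := by
      rw [← pow_mul, hNd, hself hx hxq]
    obtain ⟨h6, h7⟩ := zeta (pow_ne_zero _ hx) h5
    have h8 : y ^ ((q + 1) / Nat.gcd 3 (q + 1)) = x ^ ((q + 1) / Nat.gcd 3 (q + 1)) := by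
      have h9 : x ^ ((q + 1) / Nat.gcd 3 (q + 1)) * x ^ ((q + 1) / Nat.gcd 3 (q + 1)) *
          y ^ ((q + 1) / Nat.gcd 3 (q + 1)) = 1 := by
        rw [← mul_pow, ← mul_pow, hxy, one_pow]
      exact mul_left_cancel₀ (mul_ne_zero (pow_ne_zero _ hx) (pow_ne_zero _ hx))
        (h9.trans h7.symm)
    rw [Nat.mul_div_assoc p (d_dvd q hq1).2.2]
    exact ⟨_, pow_scalar_of_eq p hp hAx rfl h8⟩
  rcases cases3 hinj hP with ⟨rfl, h⟩ | ⟨rfl, h⟩ | ⟨rfl, h⟩ | ⟨hab, hac, hbc, h⟩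
  · exact Or.inr (Or.inl (hrep ha h0 h hA))
  · refine Or.inr (Or.inl (hrep (y := b) ha ?_ h ?_))
    · rw [← h0]; ring
    · rw [hA]; ring
  · refine Or.inr (Or.inl (hrep (y := a) hb ?_ h ?_))
    · rw [← h0]; ring
    · rw [hA]; ring
  · rcases h with ⟨h1, h2, h3⟩ | ⟨h1, h2, h3⟩ | ⟨h1, h2, h3⟩ | ⟨h1, h2, h3⟩ | ⟨h1, h2, h3⟩ |
      ⟨h1, h2, h3⟩
    · exact Or.inl ⟨1, pow_scalar_of_distinct hA hab hac hbc (hself ha h1) (hself hb h2)
        (hself hc h3)⟩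
    · obtain ⟨k1, k2⟩ := caseT hq1 h0 h1 h2
      exact Or.inr (Or.inr (Or.inl ⟨_, pow_scalar_of_distinct hA hab hac hbc rfl k1 k2⟩))
    · obtain ⟨k1, k2⟩ := caseT (a := a) (b := c) (c := b) hq1 (by rw [← h0]; ring) h1 h2
      exact Or.inr (Or.inr (Or.inl ⟨_, pow_scalar_of_distinct hA hab hac hbc rfl k2 k1⟩))
    · obtain ⟨k1, k2⟩ := caseT (a := b) (b := c) (c := a) hq1 (by rw [← h0]; ring) h1 h2
      exact Or.inr (Or.inr (Or.inl ⟨_, pow_scalar_of_distinct hA hab hac hbc k2 rfl k1⟩))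
    · obtain ⟨k1, k2⟩ := caseC (a := a) (b := b) (c := c) hq1 h0 h2 h3
      exact Or.inr (Or.inr (Or.inr ⟨_, pow_scalar_of_distinct hA hab hac hbc rfl k1 k2⟩))
    · obtain ⟨k1, k2⟩ := caseC (a := a) (b := c) (c := b) hq1 (by rw [← h0]; ring) h2 h3
      exact Or.inr (Or.inr (Or.inr ⟨_, pow_scalar_of_distinct hA hab hac hbc rfl k2 k1⟩))

end upper

section desc

variable {K : Type*} [Field K] [Fintype K] {q : ℕ}

theorem charpoly_su3 (hK : Fintype.card K = q ^ 2) (A : Matrix (Fin 3) (Fin 3) K)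
    (hA : ct (natcard hK) A * A = 1) (hd : A.det = 1) :
    A.charpoly = X ^ 3 - C A.trace * X ^ 2 + C (A.trace ^ q) * X - 1 := by
  rw [H61.SpecSU3.charpoly_fin_three, hd, C_1]
  have h1 : A.adjugate = ct (natcard hK) A := by
    have h2 := Matrix.mul_adjugate A
    rw [hd, one_smul] at h2
    calc A.adjugate = (ct (natcard hK) A * A) * A.adjugate := by rw [hA, one_mul]
      _ = ct (natcard hK) A * (A * A.adjugate) := by rw [mul_assoc]
      _ = _ := by rw [h2, mul_one]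
  have h3 : (ct (natcard hK) A).trace = A.trace ^ q := by
    unfold ct
    rw [Matrix.trace_transpose, ← frob_apply (natcard hK)]
    exact (AddMonoidHom.map_trace (frob (natcard hK)).toAddMonoidHom A).symm
  rw [h1, h3]

/-- scalar matrices over a bigger field -/
theorem scalar_descend {L : Type*} [Field L] (φ : K →+* L) {A : Matrix (Fin 3) (Fin 3) K} {ζ : L}
    (h : A.map φ = ζ • 1) : ∃ c : K, A = diagonal (fun _ => c) := by
  refine ⟨A 0 0, ?_⟩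
  ext i j
  apply φ.injective
  have h1 := congrFun (congrFun h i) j
  have h2 := congrFun (congrFun h 0) 0
  rw [Matrix.map_apply, Matrix.smul_apply, Matrix.one_apply] at h1
  rw [Matrix.map_apply, Matrix.smul_apply, Matrix.one_apply, if_pos rfl] at h2
  rw [h1, Matrix.diagonal_apply]
  split_ifs
  · rw [h2]
  · rw [map_zero, smul_zero]

theorem mk_pow_iff (hK : Fintype.card K = q ^ 2) (u : ↥(SU 3 K q)) (k : ℕ) :
    (QuotientGroup.mk u : PSU 3 K q) ^ k = 1 ↔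
      ∃ c : K, (((u : Matrix.SpecialLinearGroup (Fin 3) K) : Matrix (Fin 3) (Fin 3) K)) ^ k =
        diagonal (fun _ => c) := by
  rw [← QuotientGroup.mk_pow, QuotientGroup.eq_one_iff]
  have h1 : (((u ^ k : ↥(SU 3 K q)) : Matrix.SpecialLinearGroup (Fin 3) K) :
      Matrix (Fin 3) (Fin 3) K) =
      (((u : Matrix.SpecialLinearGroup (Fin 3) K) : Matrix (Fin 3) (Fin 3) K)) ^ k := by
    rw [Subgroup.coe_pow, Matrix.SpecialLinearGroup.coe_pow]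
  rw [← h1]
  exact ⟨fun h => H7.UnitSU.center_scalar hK (by norm_num) h,
    fun ⟨c, hc⟩ => H7.UnitSU.scalar_mem_center hc⟩

theorem upper_psu (hK : Fintype.card K = q ^ 2) (p : ℕ) [Fact p.Prime] [CharP K p] (hp : p ≠ 2)
    (u : ↥(SU 3 K q)) :
    orderOf (QuotientGroup.mk u : PSU 3 K q) ∣ q + 1 ∨
    orderOf (QuotientGroup.mk u : PSU 3 K q) ∣ p * (q + 1) / Nat.gcd 3 (q + 1) ∨
    orderOf (QuotientGroup.mk u : PSU 3 K q) ∣ (q ^ 2 - 1) / Nat.gcd 3 (q + 1) ∨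
    orderOf (QuotientGroup.mk u : PSU 3 K q) ∣ (q ^ 2 - q + 1) / Nat.gcd 3 (q + 1) := by
  obtain ⟨p', hp', hpc, f, hf, hq⟩ := exists_char_pow (natcard hK)
  have hpp : p' = p := CharP.eq K hpc ‹CharP K p›
  subst hpp
  let L := AlgebraicClosure K
  let φ : K →+* L := algebraMap K L
  have : CharP L p' := charP_of_injective_algebraMap φ.injective p'
  set A := ((u : Matrix.SpecialLinearGroup (Fin 3) K) : Matrix (Fin 3) (Fin 3) K) with hA
  have hc := charpoly_su3 hK A (su_mem hK u) (u : Matrix.SpecialLinearGroup (Fin 3) K).2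
  have hcL : (A.map φ).charpoly = X ^ 3 - C (φ A.trace) * X ^ 2 + C ((φ A.trace) ^ q) * X - 1 := by
    rw [Matrix.charpoly_map, hc]
    simp
  have ht : (φ A.trace) ^ (q ^ 2) = φ A.trace := by
    rw [← map_pow, ← hK, FiniteField.pow_card]
  have key : ∀ k : ℕ, (∃ ζ : L, (A.map φ) ^ k = ζ • 1) →
      orderOf (QuotientGroup.mk u : PSU 3 K q) ∣ k := by
    rintro k ⟨ζ, hζ⟩
    rw [orderOf_dvd_iff_pow_eq_one, mk_pow_iff hK]
    apply scalar_descend φ (ζ := ζ)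
    rw [← hζ]
    exact (RingHom.map_pow φ.mapMatrix A k)
  rcases upper p' hp f hq ht hcL with h | h | h | h
  · exact Or.inl (key _ h)
  · exact Or.inr (Or.inl (key _ h))
  · exact Or.inr (Or.inr (Or.inl (key _ h)))
  · exact Or.inr (Or.inr (Or.inr (key _ h)))

end desc

end H49.PSUOrd
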