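import Cfsg.Agent.Lib.H49.PSUOrd2

set_option autoImplicit false
set_option linter.unusedSectionVars false

/-! Element orders in `PSU_3(q)`: existence. -/

namespace H49.PSUOrd

open Matrix Polynomial Cfsg H49.Unitary H49.SUClasses H49.SUSS

variable {K : Type*} [Field K] [Fintype K] {q : ℕ}

theorem exists_of_unitary (hK : Fintype.card K = q ^ 2) {x : Matrix (Fin 3) (Fin 3) K}
    (hx : ct (natcard hK) x * x = 1) (hd : x.det = 1) {N : ℕ}
    (hN : ∀ k, (∃ c : K, x ^ k = c • 1) ↔ N ∣ k) :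
    N ∈ Set.range (orderOf : PSU 3 K q → ℕ) := by
  refine ⟨QuotientGroup.mk (mkSU hK x hx hd), ?_⟩
  have hiff : ∀ k, (QuotientGroup.mk (mkSU hK x hx hd) : PSU 3 K q) ^ k = 1 ↔ N ∣ k := by
    intro k
    rw [mk_pow_iff hK, mkSU_coe, ← hN k]
    refine exists_congr fun c => ?_
    rw [← Matrix.smul_one_eq_diagonal]
  apply Nat.dvd_antisymm
  · rw [orderOf_dvd_iff_pow_eq_one, hiff]
  · rw [← hiff, pow_orderOf_eq_one]

theorem exists_of_form (hK : Fintype.card K = q ^ 2) {M H : Matrix (Fin 3) (Fin 3) K}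
    (hH : IsUnit H) (hM : ct (natcard hK) M * H * M = H) (hd : M.det = 1) {N : ℕ}
    (hN : ∀ k, (∃ c : K, M ^ k = c • 1) ↔ N ∣ k) :
    N ∈ Set.range (orderOf : PSU 3 K q → ℕ) := by
  let g : GL (Fin 3) K := Matrix.nonsingInvUnit M (by rw [hd]; exact isUnit_one)
  have hg : (g : Matrix (Fin 3) (Fin 3) K) = M := rfl
  obtain ⟨y, hy⟩ := exists_conj_mem_GU (natcard hK) g H hH hM
  have hy1 : (y : Matrix (Fin 3) (Fin 3) K) * ((y⁻¹ : GL (Fin 3) K) : Matrix (Fin 3) (Fin 3) K) = 1 :=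
    Units.mul_inv y
  have hy2 : ((y⁻¹ : GL (Fin 3) K) : Matrix (Fin 3) (Fin 3) K) * (y : Matrix (Fin 3) (Fin 3) K) = 1 :=
    Units.inv_mul y
  have hpow : ∀ k : ℕ, (((y * g * y⁻¹ : GL (Fin 3) K) : Matrix (Fin 3) (Fin 3) K)) ^ k =
      (y : Matrix (Fin 3) (Fin 3) K) * M ^ k * ((y⁻¹ : GL (Fin 3) K) : Matrix (Fin 3) (Fin 3) K) := by
    intro k
    rw [← Units.val_pow_eq_pow_val, conj_pow, Units.val_mul, Units.val_mul,
      Units.val_pow_eq_pow_val, hg]
  refine exists_of_unitary hK (x := ((y * g * y⁻¹ : GL (Fin 3) K) : Matrix (Fin 3) (Fin 3) K))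
    ((mem_GU (natcard hK) _).mp hy) ?_ fun k => ?_
  · have h1 := congrArg Matrix.det hy1
    rw [Matrix.det_mul, Matrix.det_one] at h1
    rw [Units.val_mul, Units.val_mul, Matrix.det_mul, Matrix.det_mul, hg, hd, mul_one, h1]
  · rw [← hN k]
    refine exists_congr fun c => ?_
    rw [hpow]
    constructor
    · intro h
      calc M ^ k = (((y⁻¹ : GL (Fin 3) K) : Matrix (Fin 3) (Fin 3) K) * y) * M ^ k *
            (((y⁻¹ : GL (Fin 3) K) : Matrix (Fin 3) (Fin 3) K) * y) := by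
              rw [hy2, one_mul, mul_one]
        _ = ((y⁻¹ : GL (Fin 3) K) : Matrix (Fin 3) (Fin 3) K) *
            (y * M ^ k * ((y⁻¹ : GL (Fin 3) K) : Matrix (Fin 3) (Fin 3) K)) * y := by
              simp only [mul_assoc]
        _ = c • 1 := by rw [h, mul_smul_comm, mul_one, smul_mul_assoc, hy2]
    · intro h
      rw [h, mul_smul_comm, mul_one, smul_mul_assoc, hy1]

/-- a generator of the multiplicative group -/
theorem exists_lam (hK : Fintype.card K = q ^ 2) : ∃ l : K, l ≠ 0 ∧ ∀ j : ℕ, l ^ j = 1 ↔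
    (q ^ 2 - 1) ∣ j := by
  obtain ⟨g, hg⟩ := IsCyclic.exists_generator (α := Kˣ)
  have h1 : orderOf g = q ^ 2 - 1 := by
    rw [orderOf_eq_card_of_forall_mem_zpowers hg, Nat.card_units, natcard hK]
  refine ⟨g, g.ne_zero, fun j => ?_⟩
  rw [← h1, orderOf_dvd_iff_pow_eq_one, ← Units.val_pow_eq_pow_val, Units.val_eq_one]

theorem sq_sub_one (hq : 1 ≤ q) : q ^ 2 - 1 = (q - 1) * (q + 1) := by
  obtain ⟨m, rfl⟩ : ∃ m, q = m + 1 := ⟨q - 1, by omega⟩
  rw [Nat.add_sub_cancel]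
  have : (m + 1) ^ 2 = m * (m + 1 + 1) + 1 := by ring
  omega

theorem dvd_three_mul (q k : ℕ) : (q + 1) ∣ 3 * k ↔ (q + 1) / Nat.gcd 3 (q + 1) ∣ k := by
  rw [Nat.gcd_comm]
  have hg : 0 < Nat.gcd (q + 1) 3 := Nat.gcd_pos_of_pos_right _ (by norm_num)
  constructor
  · intro h
    have h1 : (q + 1) / Nat.gcd (q + 1) 3 ∣ (3 / Nat.gcd (q + 1) 3) * k := by
      have h2 : Nat.gcd (q + 1) 3 * ((q + 1) / Nat.gcd (q + 1) 3) ∣
          Nat.gcd (q + 1) 3 * ((3 / Nat.gcd (q + 1) 3) * k) := by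
        rw [Nat.mul_div_cancel' (Nat.gcd_dvd_left _ _), ← mul_assoc,
          Nat.mul_div_cancel' (Nat.gcd_dvd_right _ _)]
        exact h
      exact Nat.dvd_of_mul_dvd_mul_left hg h2
    exact (Nat.coprime_div_gcd_div_gcd hg).dvd_of_dvd_mul_left h1
  · rintro ⟨j, rfl⟩
    obtain ⟨m, hm⟩ := Nat.gcd_dvd_right (q + 1) 3
    refine ⟨m * j, ?_⟩
    have h1 : Nat.gcd (q + 1) 3 * ((q + 1) / Nat.gcd (q + 1) 3) = q + 1 :=
      Nat.mul_div_cancel' (Nat.gcd_dvd_left _ _)
    calc 3 * ((q + 1) / Nat.gcd (q + 1) 3 * j) =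
        (Nat.gcd (q + 1) 3 * m) * ((q + 1) / Nat.gcd (q + 1) 3 * j) := by rw [← hm]
      _ = (Nat.gcd (q + 1) 3 * ((q + 1) / Nat.gcd (q + 1) 3)) * (m * j) := by ring
      _ = _ := by rw [h1]

/-- the first family -/
theorem exists_E1 (hK : Fintype.card K = q ^ 2) (hq : 2 ≤ q) :
    q + 1 ∈ Set.range (orderOf : PSU 3 K q → ℕ) := by
  obtain ⟨l, hl0, hl⟩ := exists_lam hK
  have hs := sq_sub_one (q := q) (by omega)
  set a := l ^ (q - 1) with ha
  have ha0 : a ≠ 0 := pow_ne_zero _ hl0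
  have ha1 : ∀ k, a ^ k = 1 ↔ (q + 1) ∣ k := by
    intro k
    rw [ha, ← pow_mul, hl, hs]
    exact Nat.mul_dvd_mul_iff_left (by omega)
  have haq : a ^ q * a = 1 := by rw [← pow_succ]; exact (ha1 _).mpr dvd_rfl
  refine exists_of_unitary hK (x := diagonal ![a, a⁻¹, 1]) ?_ ?_ fun k => ?_
  · have : ct (natcard hK) (diagonal ![a, a⁻¹, 1]) = diagonal ![a ^ q, (a⁻¹) ^ q, 1] := by
      ext i j
      rw [ct_apply]
      fin_cases i <;> fin_cases j <;> simp [diagonal_apply, show q ≠ 0 by omega]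
    rw [this, diagonal_mul_diagonal, ← diagonal_one]
    congr 1
    funext i
    fin_cases i
    · exact haq
    · change (a⁻¹) ^ q * a⁻¹ = 1
      rw [inv_pow, ← mul_inv, haq, inv_one]
    · exact one_mul _
  · rw [det_diagonal, Fin.prod_univ_three]
    simp [ha0]
  · rw [diagonal_pow, ← ha1]
    constructor
    · rintro ⟨c, hc⟩
      have h0 := congrFun (congrFun hc 0) 0
      have h2 := congrFun (congrFun hc 2) 2
      simp at h0 h2
      rw [h0, h2]
    · intro h
      refine ⟨1, ?_⟩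
      rw [one_smul, ← diagonal_one]
      congr 1
      funext i
      fin_cases i
      · exact h
      · change (a⁻¹) ^ k = 1
        rw [inv_pow, h, inv_one]
      · exact one_pow _

theorem isUnit_J : IsUnit (!![0, 1, 0; 1, 0, 0; 0, 0, 1] : Matrix (Fin 3) (Fin 3) K) := by
  rw [Matrix.isUnit_iff_isUnit_det, Matrix.det_fin_three]
  simp

/-- the third family -/
theorem exists_E3 (hK : Fintype.card K = q ^ 2) (hq : 2 ≤ q) :
    (q ^ 2 - 1) / Nat.gcd 3 (q + 1) ∈ Set.range (orderOf : PSU 3 K q → ℕ) := by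
  obtain ⟨l, hl0, hl⟩ := exists_lam hK
  have hs := sq_sub_one (q := q) (by omega)
  have hlq : (l ^ q) ^ q = l := by
    rw [← pow_mul, ← pow_two, ← hK, FiniteField.pow_card]
  have hlq0 : l ^ q ≠ 0 := pow_ne_zero _ hl0
  have hl1 : l ^ (q - 1) * l = l ^ q := by rw [← pow_succ, Nat.sub_add_cancel (by omega)]
  have hq0 : q ≠ 0 := by omega
  refine exists_of_form hK (M := diagonal ![l, (l ^ q)⁻¹, l ^ (q - 1)]) (isUnit_J (K := K)) ?_ ?_
    fun k => ?_
  · ext i j
    rw [Matrix.mul_diagonal, Matrix.mul_apply, Fin.sum_univ_three, ct_apply, ct_apply, ct_apply]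
    fin_cases i <;> fin_cases j <;> simp [diagonal_apply, hq0]
    · exact mul_inv_cancel₀ hlq0
    · rw [hlq]; exact inv_mul_cancel₀ hl0
    · rw [← pow_succ, ← pow_mul, hl, hs]
  · rw [det_diagonal, Fin.prod_univ_three]
    simp only [Matrix.cons_val_zero, Matrix.cons_val_one, Matrix.cons_val]
    rw [mul_comm l, mul_assoc, mul_comm l, hl1, inv_mul_cancel₀ hlq0]
  · rw [diagonal_pow]
    have e1 : (∃ c : K, diagonal (![l, (l ^ q)⁻¹, l ^ (q - 1)] ^ k) = c • (1 : Matrix (Fin 3) (Fin 3) K)) ↔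
        (l ^ ((q + 1) * k) = 1 ∧ (l ^ (3 * k)) = 1) := by
      constructor
      · rintro ⟨c, hc⟩
        have h0 := congrFun (congrFun hc 0) 0
        have h1 := congrFun (congrFun hc 1) 1
        have h2 := congrFun (congrFun hc 2) 2
        simp at h0 h1 h2
        have h3 : l ^ ((q + 1) * k) = 1 := by
          rw [pow_mul, pow_succ, mul_pow, h0, ← h1]
          exact mul_inv_cancel₀ (pow_ne_zero _ hlq0)
        refine ⟨h3, ?_⟩
        have h4 : l ^ (3 * k) * (l ^ (q - 1)) ^ k = l ^ ((q + 1) * k) * l ^ k := by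
          rw [← pow_mul, ← pow_add, ← pow_add]
          congr 1
          obtain ⟨m, rfl⟩ : ∃ m, q = m + 1 := ⟨q - 1, by omega⟩
          rw [Nat.add_sub_cancel]; ring
        rw [h2, h0, h3, one_mul] at h4
        have hc0 : c ≠ 0 := by rw [← h0]; exact pow_ne_zero _ hl0
        calc l ^ (3 * k) = l ^ (3 * k) * c * c⁻¹ := by rw [mul_assoc, mul_inv_cancel₀ hc0, mul_one]
          _ = 1 := by rw [h4, mul_inv_cancel₀ hc0]
      · rintro ⟨h1, h2⟩
        refine ⟨l ^ k, ?_⟩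
        rw [Matrix.smul_one_eq_diagonal]
        congr 1
        funext i
        fin_cases i
        · rfl
        · change ((l ^ q)⁻¹) ^ k = l ^ k
          rw [inv_pow]
          refine inv_eq_of_mul_eq_one_right ?_
          rw [← mul_pow, ← pow_succ, ← pow_mul, h1]
        · change (l ^ (q - 1)) ^ k = l ^ k
          have h4 : l ^ (3 * k) * (l ^ (q - 1)) ^ k = l ^ ((q + 1) * k) * l ^ k := by
            rw [← pow_mul, ← pow_add, ← pow_add]
            congr 1
            obtain ⟨m, rfl⟩ : ∃ m, q = m + 1 := ⟨q - 1, by omega⟩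
            rw [Nat.add_sub_cancel]; ring
          rw [h1, h2, one_mul, one_mul] at h4
          exact h4
    rw [e1, hl, hl, hs]
    have hd := (d_dvd q (by omega)).2.2
    have e2 : (q - 1) * (q + 1) / Nat.gcd 3 (q + 1) = (q - 1) * ((q + 1) / Nat.gcd 3 (q + 1)) :=
      Nat.mul_div_assoc _ hd
    rw [e2]
    constructor
    · rintro ⟨h1, h2⟩
      have h3 : (q - 1) ∣ k := by
        rw [mul_comm (q - 1)] at h1
        exact Nat.dvd_of_mul_dvd_mul_left (by omega) h1
      obtain ⟨j, rfl⟩ := h3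
      apply Nat.mul_dvd_mul_left
      rw [← dvd_three_mul]
      have h4 : (q - 1) * (q + 1) ∣ (q - 1) * (3 * j) := by
        rw [show (q - 1) * (3 * j) = 3 * ((q - 1) * j) by ring]; exact h2
      exact Nat.dvd_of_mul_dvd_mul_left (by omega) h4
    · rintro ⟨j, rfl⟩
      constructor
      · refine ⟨(q + 1) / Nat.gcd 3 (q + 1) * j, by ring⟩
      · have h5 : (q + 1) ∣ 3 * ((q + 1) / Nat.gcd 3 (q + 1)) := (dvd_three_mul q _).mpr dvd_rfl
        obtain ⟨m, hm⟩ := h5
        refine ⟨m * j, ?_⟩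
        calc 3 * ((q - 1) * ((q + 1) / Nat.gcd 3 (q + 1)) * j) =
            (q - 1) * (3 * ((q + 1) / Nat.gcd 3 (q + 1))) * j := by ring
          _ = _ := by rw [hm]; ring

/-- the second family -/
theorem exists_E2 (hK : Fintype.card K = q ^ 2) (hq : 2 ≤ q) (p : ℕ) [Fact p.Prime] [CharP K p]
    (f : ℕ) (hf : 1 ≤ f) (hqp : q = p ^ f) :
    p * (q + 1) / Nat.gcd 3 (q + 1) ∈ Set.range (orderOf : PSU 3 K q → ℕ) := by
  obtain ⟨l, hl0, hl⟩ := exists_lam hK
  have hs := sq_sub_one (q := q) (by omega)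
  have hq0 : q ≠ 0 := by omega
  set a := l ^ (q - 1) with ha
  have ha0 : a ≠ 0 := pow_ne_zero _ hl0
  have ha1 : ∀ k, a ^ k = 1 ↔ (q + 1) ∣ k := by
    intro k
    rw [ha, ← pow_mul, hl, hs]
    exact Nat.mul_dvd_mul_iff_left (by omega)
  have haq : a ^ q * a = 1 := by rw [← pow_succ]; exact (ha1 _).mpr dvd_rfl
  obtain ⟨e, he0, he⟩ : ∃ e : K, e ≠ 0 ∧ e ^ q = -e := by
    obtain ⟨θ, hθ⟩ := exists_theta (natcard hK)
    refine ⟨_, hθ, ?_⟩
    rw [← frob_apply (natcard hK), map_sub, frob_frob]; ring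
  have haa : (a * a)⁻¹ ^ q * (a * a)⁻¹ = 1 := by
    rw [inv_pow, ← mul_inv, mul_pow, show a ^ q * a ^ q * (a * a) = (a ^ q * a) * (a ^ q * a) by ring,
      haq, one_mul, inv_one]
  refine exists_of_form hK (M := !![a, a * e, 0; 0, a, 0; 0, 0, (a * a)⁻¹]) (isUnit_J (K := K)) ?_ ?_
    fun k => ?_
  · ext i j
    rw [Matrix.mul_apply, Fin.sum_univ_three, Matrix.mul_apply, Matrix.mul_apply, Matrix.mul_apply,
      Fin.sum_univ_three, Fin.sum_univ_three, Fin.sum_univ_three]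
    simp only [ct_apply]
    fin_cases i <;> fin_cases j <;> simp [hq0]
    · exact haq
    · exact haq
    · rw [mul_pow, he]
      linear_combination (e - e) * haq
    · have := haa
      rw [mul_inv] at this
      exact this
  · rw [Matrix.det_fin_three]
    simp
    field_simp
  · have hpow : (!![a, a * e, 0; 0, a, 0; 0, 0, (a * a)⁻¹] : Matrix (Fin 3) (Fin 3) K) ^ k =
        !![a ^ k, (k : K) * (a ^ k * e), 0; 0, a ^ k, 0; 0, 0, ((a * a)⁻¹) ^ k] := by
      induction k with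
      | zero =>
        rw [pow_zero]
        ext i j
        fin_cases i <;> fin_cases j <;> simp
      | succ k ih =>
        rw [pow_succ, ih]
        ext i j
        rw [Matrix.mul_apply, Fin.sum_univ_three]
        fin_cases i <;> fin_cases j <;> simp [pow_succ]
        ring
    rw [hpow]
    have hd := (d_dvd q (by omega)).2.2
    rw [Nat.mul_div_assoc _ hd]
    have hcop : Nat.Coprime p ((q + 1) / Nat.gcd 3 (q + 1)) := by
      have h1 : Nat.Coprime p (q + 1) := by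
        rw [(Fact.out : p.Prime).coprime_iff_not_dvd]
        intro h
        have h2 : p ∣ q := by rw [hqp]; exact dvd_pow_self p (by omega)
        have h3 := (Nat.dvd_add_right h2).mp h
        exact (Fact.out : p.Prime).one_lt.ne' (Nat.dvd_one.mp h3)
      exact h1.coprime_div_right hd
    constructor
    · rintro ⟨c, hc⟩
      have h0 := congrFun (congrFun hc 0) 0
      have h1 := congrFun (congrFun hc 0) 1
      have h2 := congrFun (congrFun hc 2) 2
      simp [ha0, he0] at h0 h1 h2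
      refine hcop.mul_dvd_of_dvd_of_dvd ?_ ?_
      · exact (CharP.cast_eq_zero_iff K p k).mp h1
      · rw [← dvd_three_mul, ← ha1]
        have hak : a ^ k ≠ 0 := pow_ne_zero _ ha0
        have h3 : (a ^ k)⁻¹ * (a ^ k)⁻¹ = a ^ k := by
          rw [← mul_inv, ← mul_pow, ← inv_pow, mul_inv, h0]
          exact h2
        calc a ^ (3 * k) = a ^ k * a ^ k * a ^ k := by ring
          _ = a ^ k * a ^ k * ((a ^ k)⁻¹ * (a ^ k)⁻¹) := by rw [h3]
          _ = 1 := by field_simp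
    · intro h
      have h1 : p ∣ k := (Dvd.intro _ rfl).trans h
      have h2 : (q + 1) / Nat.gcd 3 (q + 1) ∣ k := (Dvd.intro_left _ rfl).trans h
      rw [← dvd_three_mul, ← ha1] at h2
      have h3 : (k : K) = 0 := (CharP.cast_eq_zero_iff K p k).mpr h1
      refine ⟨a ^ k, ?_⟩
      have hak : a ^ k ≠ 0 := pow_ne_zero _ ha0
      have h4 : ((a * a)⁻¹) ^ k = a ^ k := by
        rw [inv_pow]
        refine inv_eq_of_mul_eq_one_right ?_
        rw [← h2]
        ring
      rw [h3, h4]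
      ext i j
      fin_cases i <;> fin_cases j <;> simp

end H49.PSUOrd
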