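import Cfsg.Agent.Lib.H49.PSUOrd3

set_option autoImplicit false
set_option linter.unusedSectionVars false

/-! Element orders in `PSU_3(q)`: the Coxeter torus. -/

namespace H49.PSUOrd

open Matrix Polynomial Cfsg H49.Unitary H49.SUClasses H49.SUSS H44.SS

/-- elements of an extension fixed by the Frobenius -/
theorem mem_range_of_pow {K L : Type*} [Field K] [Fintype K] [Field L] (φ : K →+* L) {x : L}
    (hx : x ^ Fintype.card K = x) : ∃ y, φ y = x := by
  classical
  have hq : 1 < Fintype.card K := Fintype.one_lt_card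
  have h1 : (X ^ Fintype.card K - X : L[X]) ≠ 0 := FiniteField.X_pow_card_sub_X_ne_zero L hq
  have h2 : Finset.univ.image φ ⊆ (X ^ Fintype.card K - X : L[X]).roots.toFinset := by
    intro y hy
    obtain ⟨z, -, rfl⟩ := Finset.mem_image.mp hy
    rw [Multiset.mem_toFinset, Polynomial.mem_roots h1]
    simp [← map_pow, FiniteField.pow_card]
  have h3 : (X ^ Fintype.card K - X : L[X]).roots.toFinset.card ≤ (Finset.univ.image φ).card := by
    rw [Finset.card_image_of_injective _ φ.injective, Finset.card_univ]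
    calc _ ≤ Multiset.card (X ^ Fintype.card K - X : L[X]).roots := Multiset.toFinset_card_le _
      _ ≤ (X ^ Fintype.card K - X : L[X]).natDegree := Polynomial.card_roots' _
      _ = _ := FiniteField.X_pow_card_sub_X_natDegree_eq L hq
  have h4 := Finset.eq_of_subset_of_card_le h2 h3
  have h5 : x ∈ (X ^ Fintype.card K - X : L[X]).roots.toFinset := by
    rw [Multiset.mem_toFinset, Polynomial.mem_roots h1]
    simp [hx]
  rw [← h4] at h5
  obtain ⟨z, -, hz⟩ := Finset.mem_image.mp h5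
  exact ⟨z, hz⟩

/-- powers of an eigenvalue -/
theorem eig_pow {L : Type*} [Field L] {A : Matrix (Fin 3) (Fin 3) L} {α ζ : L} {k : ℕ}
    (hα : A.charpoly.IsRoot α) (h : A ^ k = ζ • 1) : α ^ k = ζ := by
  have h1 : (scalar (Fin 3) α - A).det = 0 := by
    rw [← Matrix.eval_charpoly]; exact hα
  obtain ⟨v, hv, hv2⟩ := Matrix.exists_mulVec_eq_zero_iff.mpr h1
  have h3 : A *ᵥ v = α • v := by
    rw [Matrix.sub_mulVec, sub_eq_zero] at hv2
    rw [← hv2]
    simp
  have h4 : ∀ j : ℕ, (A ^ j) *ᵥ v = α ^ j • v := by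
    intro j
    induction j with
    | zero => simp
    | succ j ih =>
      rw [pow_succ', ← Matrix.mulVec_mulVec, ih, Matrix.mulVec_smul, h3, smul_smul, pow_succ]
  have h5 := h4 k
  rw [h, Matrix.smul_mulVec, Matrix.one_mulVec] at h5
  have h6 : (ζ - α ^ k) • v = 0 := by rw [sub_smul, h5, sub_self]
  rcases smul_eq_zero.mp h6 with h7 | h7
  · exact (sub_eq_zero.mp h7).symm
  · exact absurd h7 hv

variable {K : Type*} [Field K] [Fintype K] {q : ℕ}

/-- the fourth family -/
theorem exists_E4 (hK : Fintype.card K = q ^ 2) (hq : 3 ≤ q) (p : ℕ) [Fact p.Prime] [CharP K p]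
    (f : ℕ) (hf : 1 ≤ f) (hqp : q = p ^ f) :
    (q ^ 2 - q + 1) / Nat.gcd 3 (q + 1) ∈ Set.range (orderOf : PSU 3 K q → ℕ) := by
  let L := AlgebraicClosure K
  let φ : K →+* L := algebraMap K L
  have : CharP L p := charP_of_injective_algebraMap φ.injective p
  have hqq : q ≤ q ^ 2 := Nat.le_self_pow (by norm_num) q
  have h3q : 3 * q ≤ q ^ 2 := by rw [pow_two]; exact Nat.mul_le_mul_right q hq
  set m := q ^ 2 - q + 1 with hm
  have hmq : m + q = q ^ 2 + 1 := by omega
  have hpm : ¬ p ∣ m := by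
    intro h
    have h2 : p ∣ q := by rw [hqp]; exact dvd_pow_self p (by omega)
    have h3 : p ∣ q ^ 2 + 1 := by rw [← hmq]; exact dvd_add h h2
    have h4 : p ∣ q ^ 2 := dvd_pow h2 (by norm_num)
    exact (Fact.out : p.Prime).one_lt.ne' (Nat.dvd_one.mp ((Nat.dvd_add_right h4).mp h3))
  have : NeZero (m : L) := ⟨by
    intro h
    exact hpm ((CharP.cast_eq_zero_iff L p m).mp h)⟩
  obtain ⟨α, hα⟩ := HasEnoughRootsOfUnity.exists_primitiveRoot L m
  have hα0 : α ≠ 0 := hα.ne_zero (by omega)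
  have hαk : ∀ k : ℕ, α ^ k = 1 ↔ m ∣ k := fun k => hα.pow_eq_one_iff_dvd k
  have hαm : α ^ m = 1 := hα.pow_eq_one
  -- `a, b, c`
  set b := (α ^ q)⁻¹ with hb
  set c := α ^ (q ^ 2) with hc
  have hb0 : b ≠ 0 := inv_ne_zero (pow_ne_zero _ hα0)
  have hc0 : c ≠ 0 := pow_ne_zero _ hα0
  have e0 : α * b * c = 1 := by
    have h1 : α * c = α ^ q := by
      rw [hc, ← pow_succ', ← hmq, pow_add, hαm, one_mul]
    calc α * b * c = (α * c) * b := by ring
      _ = 1 := by rw [h1, hb, mul_inv_cancel₀ (pow_ne_zero _ hα0)]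
  have hαq : α ^ q = b⁻¹ := by rw [hb, inv_inv]
  have hbq : b ^ q = c⁻¹ := by rw [hb, inv_pow, ← pow_mul, ← pow_two, hc]
  have hcq : c ^ q = α⁻¹ := by
    have h1 : c = α⁻¹ * b⁻¹ := by
      rw [← mul_inv]
      exact eq_inv_of_mul_eq_one_right e0
    rw [h1, mul_pow, inv_pow, inv_pow, hαq, hbq, inv_inv, inv_inv]
    calc b * c = α⁻¹ * (α * b * c) := by rw [mul_assoc α, ← mul_assoc, inv_mul_cancel₀ hα0, one_mul]
      _ = α⁻¹ := by rw [e0, mul_one]
  have ha' : α⁻¹ = b * c := inv_eq_of_mul_eq_one_right (by rw [← mul_assoc, e0])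
  have hb' : b⁻¹ = c * α := inv_eq_of_mul_eq_one_right (by rw [← e0]; ring)
  have hc' : c⁻¹ = α * b := inv_eq_of_mul_eq_one_right (by rw [← e0]; ring)
  have hadd : ∀ x y : L, (x + y) ^ q = x ^ q + y ^ q := by
    intro x y; rw [hqp]; exact add_pow_char_pow x y p f
  set T := α + b + c with hT
  have hTq : T ^ q = α * b + b * c + c * α := by
    rw [hT, hadd, hadd, hαq, hbq, hcq, ha', hb', hc']; ring
  have hTqq : T ^ (q ^ 2) = T := by
    rw [pow_two, pow_mul, hTq, hadd, hadd, mul_pow, mul_pow, mul_pow, hαq, hbq, hcq, ← mul_inv,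
      ← mul_inv, ← mul_inv, hT]
    have k1 : (b * c)⁻¹ = α := by rw [← ha', inv_inv]
    have k2 : (c * α)⁻¹ = b := by rw [← hb', inv_inv]
    have k3 : (α * b)⁻¹ = c := by rw [← hc', inv_inv]
    rw [k1, k2, k3]
  obtain ⟨t, ht⟩ := mem_range_of_pow φ (x := T) (by rw [hK]; exact hTqq)
  have htt : frob (natcard hK) (t ^ q) = t := by
    rw [← frob_apply (natcard hK), frob_frob]
  -- the polynomial
  have hdl : dl (natcard hK) (mkp 2 (-1) ![t ^ q, -t]) = mkp 2 (-1) ![t ^ q, -t] := by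
    rw [dl_iff hK (Or.inr rfl)]
    intro j
    fin_cases j
    · change -1 * frob (natcard hK) (-t) = t ^ q
      rw [map_neg, frob_apply]; ring
    · change -1 * frob (natcard hK) (t ^ q) = -t
      rw [htt]; ring
  obtain ⟨x, N, hx, -, -, hxf⟩ := exists_ss_unitary (natcard hK) p (monic_mkp 2 (-1) ![t ^ q, -t])
    (natDegree_mkp 2 _ _) (by rw [coeff_mkp_zero]; exact neg_ne_zero.mpr one_ne_zero) hdl
  have hpoly : mkp 2 (-1) ![t ^ q, -t] = X ^ 3 - C t * X ^ 2 + C (t ^ q) * X - 1 := by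
    unfold mkp
    rw [Fin.sum_univ_two]
    simp
    ring
  have hxd : x.det = 1 := by
    rw [Matrix.det_eq_sign_charpoly_coeff, hxf, coeff_mkp_zero, Fintype.card_fin]
    norm_num
  have hxL : (x.map φ).charpoly = (X - C α) * (X - C b) * (X - C c) := by
    rw [Matrix.charpoly_map, hxf, hpoly, expand3, ← hT, ← hTq, e0, ← ht]
    simp
  have hcop : Nat.gcd m (q + 1) = Nat.gcd 3 (q + 1) := by
    have h1 : m = (q + 1) * (q - 2) + 3 := by
      obtain ⟨r, rfl⟩ : ∃ r, q = r + 2 := ⟨q - 2, by omega⟩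
      rw [Nat.add_sub_cancel]
      have h2 : m + (r + 2) = (r + 2) ^ 2 + 1 := hmq
      have h3 : (r + 2) ^ 2 + 1 = ((r + 2 + 1) * r + 3) + (r + 2) := by ring
      omega
    rw [h1, mul_comm (q + 1), Nat.gcd_mul_right_add_left]
  have hndvd : ¬ m ∣ q + 1 := by
    intro h
    have := Nat.le_of_dvd (by omega) h
    omega
  have hab : α ≠ b := by
    intro h
    apply hndvd
    rw [← hαk, pow_succ, hαq, ← h, inv_mul_cancel₀ hα0]
  have hac : α ≠ c := by
    intro h
    have h1 : m ∣ q - 2 := by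
      rw [← hαk]
      have h2 : α ^ (q - 2) * (α ^ m * α) = 1 * (α ^ m * α) := by
        rw [← pow_succ, ← pow_add, show q - 2 + (m + 1) = q ^ 2 by omega, ← hc, ← h, one_mul,
          pow_succ, hαm, one_mul]
      exact mul_right_cancel₀ (mul_ne_zero (pow_ne_zero _ hα0) hα0) h2
    have := Nat.le_of_dvd (by omega) h1
    omega
  have hbc : b ≠ c := by
    intro h
    -- `b = c` implies `α = b`
    have h1 : b ^ q = c ^ q := by rw [h]
    rw [hbq, hcq] at h1
    exact hac (inv_injective h1).symm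
  refine exists_of_unitary hK hx hxd fun k => ?_
  have hdm := (d_dvd q (by omega)).2.1
  constructor
  · rintro ⟨ζ, hζ⟩
    have hL : (x.map φ) ^ k = (φ ζ) • 1 := by
      have h1 := congrArg (fun M : Matrix (Fin 3) (Fin 3) K => M.map φ) hζ
      have h2 : (x ^ k).map φ = (x.map φ) ^ k := RingHom.map_pow φ.mapMatrix x k
      have h3 : (ζ • (1 : Matrix (Fin 3) (Fin 3) K)).map φ = (φ ζ) • 1 := by
        ext i j
        rw [Matrix.map_apply, Matrix.smul_apply, Matrix.smul_apply, Matrix.one_apply,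
          Matrix.one_apply, smul_eq_mul, smul_eq_mul, map_mul]
        split_ifs <;> simp
      change (x ^ k).map φ = _ at h1
      rw [h2] at h1
      rw [h1]
      exact h3
    have hr : ∀ y : L, y = α ∨ y = b → (x.map φ).charpoly.IsRoot y := by
      intro y hy
      rw [hxL, Polynomial.IsRoot.def]
      rcases hy with rfl | rfl <;> simp
    have k1 := eig_pow (hr α (Or.inl rfl)) hL
    have k2 := eig_pow (hr b (Or.inr rfl)) hL
    have h4 : α ^ ((q + 1) * k) = 1 := by
      rw [pow_mul, pow_succ, mul_pow, hαq, inv_pow, k2, k1]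
      exact inv_mul_cancel₀ (by rw [← k1]; exact pow_ne_zero _ hα0)
    rw [hαk] at h4
    rw [← hcop]
    have hg : 0 < Nat.gcd m (q + 1) := Nat.gcd_pos_of_pos_right _ (by omega)
    have h5 : m / Nat.gcd m (q + 1) ∣ ((q + 1) / Nat.gcd m (q + 1)) * k := by
      have h6 : Nat.gcd m (q + 1) * (m / Nat.gcd m (q + 1)) ∣
          Nat.gcd m (q + 1) * (((q + 1) / Nat.gcd m (q + 1)) * k) := by
        rw [Nat.mul_div_cancel' (Nat.gcd_dvd_left _ _), ← mul_assoc,
          Nat.mul_div_cancel' (Nat.gcd_dvd_right _ _)]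
        exact h4
      exact Nat.dvd_of_mul_dvd_mul_left hg h6
    exact (Nat.coprime_div_gcd_div_gcd hg).dvd_of_dvd_mul_left h5
  · rintro ⟨j, rfl⟩
    obtain ⟨k1, k2⟩ := caseC (a := α) (b := c) (c := b) (by omega) (by rw [← e0]; ring) hbq hαq
    have h1 := pow_scalar_of_distinct hxL hab hac hbc rfl k2 k1
    have h2 : (x.map φ) ^ (m / Nat.gcd 3 (q + 1)) = (x ^ (m / Nat.gcd 3 (q + 1))).map φ :=
      (RingHom.map_pow φ.mapMatrix x _).symm
    rw [h2] at h1
    obtain ⟨ζ, hζ⟩ := scalar_descend φ h1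
    refine ⟨ζ ^ j, ?_⟩
    rw [pow_mul, hζ, ← Matrix.smul_one_eq_diagonal, _root_.smul_pow, one_pow]

end H49.PSUOrd
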