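import Cfsg.Agent.Lib.H49.ProjCount
import Cfsg.Agent.Lib.H49.NonSplit
import Cfsg.Agent.Lib.H49.GLClasses

set_option autoImplicit false
set_option linter.unusedSectionVars false

/-! Classes of elements of prime order `r` in a matrix group modulo scalars, when the scalars have
order divisible by `r`. -/

namespace H49.ProjMatrix

open Matrix H49.RootMult H49.RootCount H49.RootGroup H49.GLClasses

theorem rank_smul_unit {L : Type*} [Field L] {ι : Type*} [Fintype ι] [DecidableEq ι] (c : L)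
    (hc : c ≠ 0) (M : Matrix ι ι L) : (c • M).rank = M.rank := by
  have h : c • M = (c • (1 : Matrix ι ι L)) * M := by rw [smul_mul_assoc, one_mul]
  rw [h, Matrix.rank_mul_eq_right_of_isUnit_det]
  rw [Matrix.det_smul, Matrix.det_one, mul_one]
  exact IsUnit.mk0 _ (pow_ne_zero _ hc)

theorem rm_smul {K L : Type*} [Field K] [Field L] {r : ℕ} [Fact r.Prime] {φ : K →+* L} {ζ : K}
    (hζ : IsPrimitiveRoot (φ ζ) r) {ι : Type*} [Fintype ι] [DecidableEq ι] (A : Matrix ι ι K)
    (k : ZMod r) : rm φ (φ ζ) (ζ • A) k = rm φ (φ ζ) A (k - 1) := by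
  have hr : r.Prime := Fact.out
  have h0 : φ ζ ≠ 0 := hζ.ne_zero hr.ne_zero
  have h1 : zp (φ ζ) k = φ ζ * zp (φ ζ) (k - 1) := by
    have h2 : zp (φ ζ) (1 : ZMod r) = φ ζ := by
      have := zp_natCast hζ (r := r) 1
      rw [Nat.cast_one, pow_one] at this
      exact this
    conv_lhs => rw [← add_sub_cancel (1 : ZMod r) k, zp_add hζ, h2]
  have h3 : (ζ • A).map φ - zp (φ ζ) k • (1 : Matrix ι ι L) =
      φ ζ • (A.map φ - zp (φ ζ) (k - 1) • (1 : Matrix ι ι L)) := by
    rw [h1, smul_sub, smul_smul]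
    congr 1
    ext i j
    simp
  rw [rm, rm, H49.RootMult.em, H49.RootMult.em, h3, rank_smul_unit _ h0]

theorem card_proj_matrix {K : Type*} [Field K] [Finite K] {n r : ℕ} [Fact r.Prime] (hn : 1 ≤ n)
    (S : Subgroup Kˣ) (x : Kˣ) (hx : orderOf x = r) (hxS : x ∈ S)
    (hS : ∀ γ ∈ S, ∀ b : Kˣ, b ^ r = γ → ∃ s ∈ S, s ^ r = γ)
    {Γ : Type*} [Group Γ] (ρ : Γ →* GL (Fin n) K) (hρ : Function.Injective ρ)
    (hcen : ∀ g, g ∈ Subgroup.center Γ ↔
      ∃ c ∈ S, (ρ g).val = (c : K) • (1 : Matrix (Fin n) (Fin n) K))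
    (hmem : ∀ c ∈ S, ∃ g, (ρ g).val = (c : K) • (1 : Matrix (Fin n) (Fin n) K))
    (hconj : ∀ g h, IsConj (ρ g).val (ρ h).val → IsConj g h)
    (hex : ∀ γ ∈ S, ∀ A : Matrix (Fin n) (Fin n) K,
      A ^ r = (γ : K) • (1 : Matrix (Fin n) (Fin n) K) →
      (γ = 1 ∨ ∀ b : K, b ^ r ≠ γ) → ∃ g, IsConj A (ρ g).val) :
    Nat.card {C : ConjClasses (Γ ⧸ Subgroup.center Γ) //
      ∃ g : Γ ⧸ Subgroup.center Γ, ConjClasses.mk g = C ∧ orderOf g = r} =
    (Nat.choose (n + r - 1) (r - 1) - r - (if r ∣ n then 1 else 0)) / r +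
      r * (if r ∣ n then 1 else 0) := by
  classical
  have hr : r.Prime := Fact.out
  set φ := algebraMap K (AlgebraicClosure K) with hφ
  have hne : Nonempty (Fin n) := ⟨⟨0, by omega⟩⟩
  have := Fintype.ofFinite K
  have hζ0 : IsPrimitiveRoot (x : K) r := by
    have h1 := IsPrimitiveRoot.orderOf x
    rw [hx] at h1
    exact IsPrimitiveRoot.coe_units_iff.mpr h1
  have hζ : IsPrimitiveRoot (φ x) r := hζ0.map_of_injective φ.injective
  have hinj : ∀ c d : K, c • (1 : Matrix (Fin n) (Fin n) K) = d • 1 → c = d := by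
    intro c d h
    obtain ⟨i⟩ := hne
    have := congrFun (congrFun h i) i
    simpa using this
  have hρc : ∀ g h : Γ, IsConj g h → IsConj (ρ g).val (ρ h).val := fun g h hc =>
    isConj_units.mp (ρ.map_isConj hc)
  have hρpow : ∀ (g : Γ) (j : ℕ), (ρ (g ^ j)).val = (ρ g).val ^ j := by
    intro g j
    rw [map_pow, Units.val_pow_eq_pow_val]
  have hρone : ∀ g : Γ, g ^ r = 1 → (ρ g).val ^ r = 1 := by
    intro g hg
    rw [← hρpow, hg, map_one, Units.val_one]
  have hρinj : ∀ g h : Γ, (ρ g).val = (ρ h).val → g = h := fun g h he => hρ (Units.ext he)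
  obtain ⟨z, hz⟩ := hmem x hxS
  have hfin : Finite Γ := Finite.of_injective ρ hρ
  have hsc : ∀ (c : K) (j : ℕ), (c • (1 : Matrix (Fin n) (Fin n) K)) ^ j = (c ^ j) • 1 := by
    intro c j
    rw [smul_pow, one_pow]
  have hcard : ((Nat.card K : ℕ) : ZMod r) = 1 := by
    have h1 : r ∣ Nat.card Kˣ := by rw [← hx]; exact orderOf_dvd_natCard x
    rw [Nat.card_units, Nat.card_eq_fintype_card] at h1
    have h2 : 1 ≤ Fintype.card K := Fintype.card_pos
    rw [Nat.card_eq_fintype_card]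
    obtain ⟨d, hd⟩ := h1
    have h3 : Fintype.card K = r * d + 1 := by omega
    rw [h3]; simp
  have hμone : ∀ k : ZMod r, rm φ (φ x) (1 : Matrix (Fin n) (Fin n) K) k =
      if k = 0 then n else 0 := by
    intro k; rw [rm_one hζ, Fintype.card_fin]
  have hzc : z ∈ Subgroup.center Γ := (hcen z).mpr ⟨x, hxS, hz⟩
  have hzr : z ^ r = 1 := by
    apply hρinj
    rw [hρpow, hz, hsc, hζ0.pow_eq_one, one_smul, map_one, Units.val_one]
  have hzt : ∀ w ∈ Subgroup.center Γ, w ^ r = 1 → ∃ j : ℕ, w = z ^ j := by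
    intro w hw hwr
    obtain ⟨c, hcS, hc⟩ := (hcen w).mp hw
    have h1 : (c : K) ^ r = 1 := by
      apply hinj
      rw [← hsc, ← hc, hρone w hwr, one_smul]
    obtain ⟨j, _, hj⟩ := hζ0.eq_pow_of_pow_eq_one h1
    refine ⟨j, hρinj _ _ ?_⟩
    rw [hc, hρpow, hz, hsc, hj]
  have hμz : ∀ g : Γ, ∀ k : ZMod r, rm φ (φ x) (ρ (z * g)).val k =
      rm φ (φ x) (ρ g).val (k - 1) := by
    intro g k
    rw [map_mul, Units.val_mul, hz, smul_mul_assoc, one_mul, rm_smul hζ]
  have hμconj : ∀ g h : Γ, g ^ r = 1 → h ^ r = 1 →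
      (IsConj g h ↔ (fun k : ZMod r => rm φ (φ x) (ρ g).val k) =
        fun k => rm φ (φ x) (ρ h).val k) := by
    intro g h hg hh
    rw [← isConj_iff_rm hζ (hρone g hg) (hρone h hh)]
    exact ⟨hρc g h, hconj g h⟩
  have hzpow : ∀ (j : ℕ) (k : ZMod r), rm φ (φ x) (ρ (z ^ j)).val k =
      if k = j then n else 0 := by
    intro j
    induction j with
    | zero => intro k; rw [pow_zero, map_one, Units.val_one, hμone, Nat.cast_zero]
    | succ j ih =>
      intro k
      rw [pow_succ', hμz, ih]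
      have : k - 1 = (j : ZMod r) ↔ k = ((j + 1 : ℕ) : ZMod r) := by
        rw [sub_eq_iff_eq_add, Nat.cast_succ]
      simp only [this]
  refine ProjCount.card_proj (n := n) hn z hzc ?_ hzr hzt
    (fun g k => rm φ (φ x) (ρ g).val k) ?_ hμconj ?_ (fun g _ k => hμz g k) ?_ ?_ ?_
  · rintro rfl
    rw [map_one, Units.val_one] at hz
    have h1 : (1 : K) = x := hinj _ _ (by rw [one_smul]; exact hz)
    have h2 : x = 1 := Units.ext h1.symm
    rw [h2, orderOf_one] at hx
    exact hr.one_lt.ne hx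
  · intro g hg
    have := sum_rm hζ (φ := φ) _ (hρone g hg)
    rwa [Fintype.card_fin] at this
  · intro m hm
    obtain ⟨A, hA, hAm⟩ := exists_matrix' (K := K) (ι := Fin n) φ hζ m
      (by intro k; rw [hcard, one_mul]) (by rw [Fintype.card_fin]; exact hm)
    obtain ⟨g, hg⟩ := hex 1 (Subgroup.one_mem S) A (by rw [Units.val_one, one_smul]; exact hA)
      (Or.inl rfl)
    obtain ⟨u, hu⟩ := isConj_iff.mp (isConj_units.mpr (show IsConj
      (((exists_unit hr.one_le hA).choose : (Matrix (Fin n) (Fin n) K)ˣ) :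
        Matrix (Fin n) (Fin n) K) (ρ g).val by
          rw [(exists_unit hr.one_le hA).choose_spec.1]; exact hg))
    refine ⟨g, ?_, ?_⟩
    · apply hρ
      rw [map_pow, map_one, ← hu, conj_pow, (exists_unit hr.one_le hA).choose_spec.2, mul_one,
        mul_inv_cancel]
    · funext k
      rw [← rm_conj hg, hAm]
  · intro g hg
    constructor
    · intro h
      obtain ⟨j, rfl⟩ := hzt g h hg
      refine ⟨(j : ZMod r), ?_⟩
      change rm φ (φ x) (ρ (z ^ j)).val (j : ZMod r) = n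
      rw [hzpow, if_pos rfl]
    · rintro ⟨k, hk⟩
      have h1 : IsConj g (z ^ k.val) := by
        rw [hμconj g _ hg (by rw [← pow_mul, mul_comm, pow_mul, hzr, one_pow])]
        have hsum := sum_rm hζ (φ := φ) _ (hρone g hg)
        rw [Fintype.card_fin] at hsum
        have h2 := ProjCount.eq_single hsum hk
        rw [h2]
        funext l
        rw [hzpow, ZMod.natCast_zmod_val, Pi.single_apply]
      obtain ⟨c, hc⟩ := isConj_iff.mp h1.symm
      have h3 := Subgroup.mem_center_iff.mp (Subgroup.pow_mem _ hzc k.val) c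
      rw [h3, mul_inv_cancel_right] at hc
      rw [← hc]
      exact Subgroup.pow_mem _ hzc _
  · intro c hc hcn
    obtain ⟨γ, hγS, hγ⟩ := (hcen c).mp hc
    have hγn : ∀ b : K, b ^ r ≠ γ := by
      intro b hb
      have hb0 : b ≠ 0 := by
        rintro rfl
        rw [zero_pow hr.ne_zero] at hb
        exact γ.ne_zero hb.symm
      obtain ⟨s, hsS, hs⟩ := hS γ hγS (Units.mk0 b hb0) (Units.ext (by simpa using hb))
      obtain ⟨w, hw⟩ := hmem s hsS
      refine hcn w ((hcen w).mpr ⟨s, hsS, hw⟩) (hρinj _ _ ?_)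
      rw [hρpow, hw, hsc, hγ, ← hs, Units.val_pow_eq_pow_val]
    constructor
    · rintro ⟨g, hg⟩
      have := NonSplit.dvd_card hr γ.ne_zero hγn (A := (ρ g).val) (by rw [← hρpow, hg, hγ])
      rwa [Fintype.card_fin] at this
    · rintro ⟨m, hm⟩
      obtain ⟨A, hA⟩ := NonSplit.exists_matrix (K := K) (ι := Fin n) hr.one_le (m := m)
        (by rw [Fintype.card_fin, hm, mul_comm]) (γ : K)
      obtain ⟨g, hg⟩ := hex γ hγS A hA (Or.inr hγn)
      refine ⟨g, hρinj _ _ ?_⟩
      rw [hρpow, hγ]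
      obtain ⟨u, hu⟩ := hg
      have h1 : (ρ g).val = (u : Matrix (Fin n) (Fin n) K) * A *
          ((u⁻¹ : (Matrix (Fin n) (Fin n) K)ˣ) : Matrix (Fin n) (Fin n) K) := by
        have h2 : (u : Matrix (Fin n) (Fin n) K) * A = (ρ g).val * u := hu
        rw [h2, mul_assoc, Units.mul_inv, mul_one]
      rw [h1]
      have h3 : ∀ j : ℕ, ((u : Matrix (Fin n) (Fin n) K) * A *
          ((u⁻¹ : (Matrix (Fin n) (Fin n) K)ˣ) : Matrix (Fin n) (Fin n) K)) ^ j =
          (u : Matrix (Fin n) (Fin n) K) * A ^ j *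
          ((u⁻¹ : (Matrix (Fin n) (Fin n) K)ˣ) : Matrix (Fin n) (Fin n) K) := by
        intro j
        exact Units.conj_pow u A j
      rw [h3, hA, mul_smul_comm, smul_mul_assoc, mul_one, Units.mul_inv]
  · intro c hc hcn g h hg hh
    obtain ⟨γ, hγS, hγ⟩ := (hcen c).mp hc
    have hγn : ∀ b : K, b ^ r ≠ γ := by
      intro b hb
      have hb0 : b ≠ 0 := by
        rintro rfl
        rw [zero_pow hr.ne_zero] at hb
        exact γ.ne_zero hb.symm
      obtain ⟨s, hsS, hs⟩ := hS γ hγS (Units.mk0 b hb0) (Units.ext (by simpa using hb))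
      obtain ⟨w, hw⟩ := hmem s hsS
      refine hcn w ((hcen w).mpr ⟨s, hsS, hw⟩) (hρinj _ _ ?_)
      rw [hρpow, hw, hsc, hγ, ← hs, Units.val_pow_eq_pow_val]
    exact hconj g h (NonSplit.isConj hr hγn (by rw [← hρpow, hg, hγ]) (by rw [← hρpow, hh, hγ]))

end H49.ProjMatrix
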