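import Mathlib
import Cfsg.Agent.Lib.H49.QuadraticExt

set_option autoImplicit false

/-! Coordinates `a + b θ` on a field with `q ^ 2` elements. -/

namespace H49.QuadraticExt2

open H49.Unitary H49.QuadraticExt

variable {K F : Type*} [Field K] [Finite K] [Field F] [Finite F] {q : ℕ}

theorem exists_coord_theta (hK : Nat.card K = q ^ 2) (hF : Nat.card F = q) :
    ∃ (i : F →+* K) (θ : K), (∀ x : K, x ^ q = x ↔ ∃ y, i y = x) ∧ θ ^ q ≠ θ ∧
      Function.Bijective (fun x : F × F => i x.1 + i x.2 * θ) := by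
  obtain ⟨i, hi⟩ := exists_embed hK hF
  obtain ⟨θ, hθ⟩ := exists_theta hK
  have hθ' : θ ^ q ≠ θ := by
    intro h; apply hθ; rw [frob_apply, h, sub_self]
  have hfix : ∀ y : F, (i y) ^ q = i y := fun y => (hi _).2 ⟨y, rfl⟩
  refine ⟨i, θ, hi, hθ', ?_⟩
  have : Fintype F := Fintype.ofFinite F
  have : Fintype K := Fintype.ofFinite K
  rw [Nat.bijective_iff_injective_and_card]
  refine ⟨?_, by rw [Nat.card_prod, hF, hK, pow_two]⟩
  rintro ⟨a, b⟩ ⟨c, d⟩ h
  simp only at h
  by_cases hbd : b = d
  · subst hbd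
    have h1 : i a = i c := by linear_combination h
    rw [i.injective h1]
  · exfalso
    apply hθ'
    have hne : i (b - d) ≠ 0 := by
      rw [map_ne_zero]; exact sub_ne_zero.2 hbd
    have h2 : θ = i ((c - a) / (b - d)) := by
      rw [map_div₀, eq_div_iff hne, map_sub, map_sub]
      linear_combination h
    rw [h2, hfix]

/-- there is an algebra structure of degree two and a linear functional whose kernel is `F` -/
theorem exists_tau (hK : Nat.card K = q ^ 2) (hF : Nat.card F = q) :
    ∃ (i : F →+* K) (τ : K → F), (∀ x : K, x ^ q = x ↔ ∃ y, i y = x) ∧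
      (∀ x y, τ (x + y) = τ x + τ y) ∧ (∀ c x, τ (i c * x) = c * τ x) ∧
      (∀ x, τ x = 0 ↔ x ^ q = x) := by
  obtain ⟨i, θ, hi, hθ, hbij⟩ := exists_coord_theta hK hF
  let κ : F × F ≃ K := Equiv.ofBijective _ hbij
  have hκ : ∀ x, κ x = i x.1 + i x.2 * θ := fun x => rfl
  have hadd : ∀ x y, κ.symm (x + y) = κ.symm x + κ.symm y := by
    intro x y
    rw [Equiv.symm_apply_eq, hκ]
    have hx := κ.apply_symm_apply x
    have hy := κ.apply_symm_apply y
    rw [hκ] at hx hy
    rw [Prod.fst_add, Prod.snd_add, map_add, map_add]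
    linear_combination -hx - hy
  have hsmul : ∀ c x, κ.symm (i c * x) = c • κ.symm x := by
    intro c x
    rw [Equiv.symm_apply_eq, hκ]
    have hx := κ.apply_symm_apply x
    rw [hκ] at hx
    rw [Prod.smul_fst, Prod.smul_snd, smul_eq_mul, smul_eq_mul, map_mul, map_mul]
    linear_combination (-i c) * hx
  refine ⟨i, fun x => (κ.symm x).2, hi, ?_, ?_, ?_⟩
  · intro x y; simp only [hadd, Prod.snd_add]
  · intro c x; simp only [hsmul, Prod.smul_snd, smul_eq_mul]
  · intro x
    have hx := κ.apply_symm_apply x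
    rw [hκ] at hx
    have h1 : x ^ q = i (κ.symm x).1 + i (κ.symm x).2 * θ ^ q := by
      have h2 := (frob hK).map_add (i (κ.symm x).1) (i (κ.symm x).2 * θ)
      rw [frob_apply, frob_apply, frob_apply, mul_pow, hx, (hi _).2 ⟨_, rfl⟩,
        (hi _).2 ⟨_, rfl⟩] at h2
      exact h2
    constructor
    · intro h
      simp only at h
      rw [h, map_zero, zero_mul] at h1 hx
      rw [h1, hx]
    · intro h
      simp only
      rw [h1] at h
      conv_rhs at h => rw [← hx]
      have h3 : i (κ.symm x).2 * (θ ^ q - θ) = 0 := by linear_combination h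
      rcases mul_eq_zero.1 h3 with h4 | h4
      · exact (map_eq_zero i).1 h4
      · exact absurd (sub_eq_zero.1 h4) hθ

omit [Finite F] in
/-- dimension two -/
theorem finrank_eq_two (hK : Nat.card K = q ^ 2) (hF : Nat.card F = q) (h : 2 ≤ q) [Algebra F K] :
    Module.finrank F K = 2 := by
  have h1 := Module.natCard_eq_pow_finrank (K := F) (V := K)
  rw [hK, hF] at h1
  exact (Nat.pow_right_injective h h1).symm

end H49.QuadraticExt2
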