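import Mathlib

set_option autoImplicit false

/-! Elementary facts on a group automorphism `σ` and its powers (Shintani descent). -/

namespace H49.Shintani

variable {X : Type*} [Group X]

theorem fix_pow (σ : MulAut X) {x : X} (h : σ x = x) (n : ℕ) : (σ ^ n) x = x := by
  induction n with
  | zero => simp
  | succ d ih => rw [pow_succ, MulAut.mul_apply, h, ih]

theorem comm_pow (σ : MulAut X) (e : ℕ) (x : X) : σ ((σ ^ e) x) = (σ ^ e) (σ x) := by
  rw [← MulAut.mul_apply, ← MulAut.mul_apply, ← pow_succ', ← pow_succ]

theorem prod_aux (σ : MulAut X) (a : X) (d : ℕ) :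
    ((List.range d).map (fun i => (σ ^ i) (a * (σ a)⁻¹))).prod = a * ((σ ^ d) a)⁻¹ := by
  induction d with
  | zero => simp
  | succ d ih =>
    rw [List.range_succ, List.map_append, List.prod_append, ih]
    simp only [List.map_cons, List.map_nil, List.prod_cons, List.prod_nil, mul_one, map_mul,
      map_inv]
    rw [← MulAut.mul_apply, ← pow_succ]
    group

theorem mem_eqLocus (τ : MulAut X) (x : X) :
    x ∈ (MulEquiv.toMonoidHom τ).eqLocus (MonoidHom.id X) ↔ τ x = x := Iff.rfl

end H49.Shintani
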