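import Cfsg.Agent.Lib.H49.TF9

set_option autoImplicit false
set_option linter.unusedSectionVars false

/-! The minimal dimension. -/

namespace H49.TF

open Equiv Equiv.Perm Module

universe u

section

variable {α : Type*} [Fintype α] [DecidableEq α] {k : Type*} [Field k] {V : Type*} [AddCommGroup V] [Module k V]
  [FiniteDimensional k V] {T : Perm α → Module.End k V}

theorem IsFam.quad (hT : IsFam T) {c : Perm α} {v : V} (hv : v ∈ cs T c) : T c (T c v) = - v - T c v := by
  obtain ⟨w, rfl⟩ := hv
  rw [LinearMap.sub_apply]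
  change T c (T c (T c w - w)) = - (T c w - w) - T c (T c w - w)
  rw [map_sub, map_sub, hT.ap3]
  abel

theorem IsFam.cs_inv (hT : IsFam T) (c : Perm α) : cs T c⁻¹ ≤ cs T c := by
  rintro _ ⟨w, rfl⟩
  refine ⟨T c w + w, ?_⟩
  rw [LinearMap.sub_apply, LinearMap.sub_apply, hT.inv_ap]
  change T c (T c w + w) - (T c w + w) = T c (T c w) - w
  rw [map_add]; abel

theorem cs_stable {c : Perm α} {v : V} (hv : v ∈ cs T c) : T c v ∈ cs T c :=
  sub_mem_of_cs le_rfl hv

/-- a one-dimensional commutator space forces characteristic three and unipotence -/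
theorem unip_of_one (hT : IsFam T) (h5 : 5 ≤ Fintype.card α) {c : Perm α} (hc : c.IsThreeCycle)
    (h1 : finrank k (cs T c) = 1) : (3 : k) = 0 ∧ ∀ v ∈ cs T c, T c v = v := by
  obtain ⟨⟨u, hu⟩, hu0, hall⟩ := finrank_eq_one_iff'.mp h1
  have hu0' : u ≠ 0 := fun h => hu0 (Subtype.ext h)
  have hall' : ∀ w ∈ cs T c, ∃ a : k, w = a • u := by
    intro w hw
    obtain ⟨a, ha⟩ := hall ⟨w, hw⟩
    exact ⟨a, (congrArg Subtype.val ha).symm⟩
  obtain ⟨l, hl⟩ := hall' _ (cs_stable hu)
  have hq := hT.quad hu
  rw [hl, map_smul, hl, smul_smul] at hq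
  have hll : l ^ 2 + l + 1 = 0 := by
    have : (l ^ 2 + l + 1) • u = 0 := by
      have e : (l ^ 2 + l + 1) • u = (l * l) • u - (-u - l • u) := by module
      rw [e, hq, sub_self]
    exact (smul_eq_zero.mp this).resolve_right hu0'
  obtain ⟨σ, hσ, hσd⟩ := exists_inverter h5 hc
  obtain ⟨g, -, hg, hgT⟩ := hT.exists_lift_alt hσ
  have hgu : g u ∈ cs T c := by
    apply hT.cs_inv
    obtain ⟨w, rfl⟩ := hu
    refine ⟨g w, ?_⟩
    have := LinearMap.congr_fun (hgT c) w
    rw [hσd] at this
    change T c⁻¹ (g w) - g w = g (T c w - w)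
    rw [map_sub]
    rw [show g (T c w) = T c⁻¹ (g w) from this]
  obtain ⟨m, hm⟩ := hall' _ hgu
  have hgu0 : g u ≠ 0 := fun h => hu0' (unit_injective hg (by rw [h, map_zero]))
  have e1 := LinearMap.congr_fun (hgT c) u
  rw [hσd] at e1
  change g (T c u) = T c⁻¹ (g u) at e1
  rw [hl, map_smul, hT.inv_ap, hm, map_smul, hl, smul_smul, map_smul, map_smul, hl, smul_smul, smul_smul] at e1
  have hm0 : m ≠ 0 := by
    rintro rfl
    rw [zero_smul] at hm
    exact hgu0 hm
  have h2 : (l * m - m * l * l) • u = 0 := by rw [sub_smul, e1, sub_self]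
  have h3 := (smul_eq_zero.mp h2).resolve_right hu0'
  have hl0 : l ≠ 0 := by rintro rfl; simp at hll
  have hl1 : l = 1 := by
    have h4 : (l * m) * (1 - l) = 0 := by linear_combination h3
    have h5 := (mul_eq_zero.mp h4).resolve_left (mul_ne_zero hl0 hm0)
    exact (sub_eq_zero.mp h5).symm
  subst hl1
  refine ⟨by linear_combination hll, fun v hv => ?_⟩
  obtain ⟨a, rfl⟩ := hall' v hv
  rw [map_smul, hl, one_smul]

/-- commutator spaces have dimension at least two -/
theorem two_le (hT : IsFam T) (hirr : Irr T) [Nontrivial V] (hS : Star T) (hne : ∃ c, T c ≠ 1)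
    (h7 : 7 ≤ Fintype.card α) {c : Perm α} (hc : c.IsThreeCycle) : 2 ≤ finrank k (cs T c) := by
  by_contra hcon
  push Not at hcon
  have hb := bound_one hT hS hne (by omega) hc
  obtain ⟨c₁, hc₁⟩ := hne
  apply hc₁
  rcases Nat.lt_or_ge (finrank k (cs T c)) 1 with h0 | h0
  · -- zero
    have h1 : cs T c = ⊥ := Submodule.finrank_eq_zero.mp (by omega)
    have h2 : T c = 1 := by
      ext v
      have : T c v - v ∈ cs T c := mem_cs c v
      rw [h1, Submodule.mem_bot, sub_eq_zero] at this
      exact this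
    exact hT.trivial_of_one (by omega) hc h2 c₁
  · have h1 : ∀ d : Perm α, d.IsThreeCycle → finrank k (cs T d) = 1 := fun d hd => by
      rw [← hT.finrank_cs (by omega) hc hd]; omega
    have h3 : (3 : k) = 0 := (unip_of_one hT (by omega) hc (h1 c hc)).1
    have hquad : ∀ d : Perm α, d.IsThreeCycle → T d * T d = - T d - 1 := by
      intro d hd
      have hu := (unip_of_one hT (by omega) hd (h1 d hd)).2
      ext v
      have e := hu _ (mem_cs d v)
      rw [map_sub] at e
      change T d (T d v) = - T d v - v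
      have e2 : (3 : k) • T d v = 0 := by rw [h3, zero_smul]
      have e3 : T d (T d v) = (3 : k) • T d v - T d v - v := by
        rw [sub_eq_iff_eq_add] at e
        rw [e]
        module
      rw [e3, e2, zero_sub]
    have hR : ∀ a b x y : α, [a, b, x, y].Nodup → T (cyc a b y) = T (cyc b a x) := by
      intro a b x y hn
      have hn' := hn
      simp only [List.nodup_cons, List.mem_cons, List.not_mem_nil, or_false, not_or, List.nodup_nil, and_true,
        not_false_eq_true] at hn'
      obtain ⟨⟨hab, hax, hay⟩, ⟨hbx, hby⟩, hxy⟩ := hn'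
      have c1 : (cyc a b x).IsThreeCycle := cyc_three hab hax hbx
      have c2 : (cyc a b y).IsThreeCycle := cyc_three hab hay hby
      have hsq := sq_one hT hirr hn (by
        have := Submodule.finrank_add_le_finrank_add_finrank (cs T (cyc a b x)) (cs T (cyc a b y))
        rw [h1 _ c1, h1 _ c2] at this
        omega)
      have q1 := hquad _ c1
      have q2 := hquad _ c2
      have t1 := hT.cube (cyc a b x)
      have t2 := hT.cube (cyc a b y)
      have hinv : T (cyc b a x) = T (cyc a b x) ^ 2 := by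
        rw [← hT.inv, cyc_inv, cyc_rot (Ne.symm hbx) (Ne.symm hax) (Ne.symm hab)]
      rw [hinv]
      generalize T (cyc a b x) = X at *
      generalize T (cyc a b y) = Y at *
      have hXY : (X * Y) * (X * Y) = 1 := by rw [← pow_two]; exact hsq
      have hYY : Y * (Y * Y) = 1 := by rw [← pow_two, ← pow_succ']; exact t2
      have hXX : X * (X * X) = 1 := by rw [← pow_two, ← pow_succ']; exact t1
      -- X Y X = Y²
      have a1 : X * Y * X = Y * Y := by
        calc X * Y * X = X * Y * X * (Y * (Y * Y)) := by rw [hYY, mul_one]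
          _ = ((X * Y) * (X * Y)) * (Y * Y) := by simp only [mul_assoc]
          _ = Y * Y := by rw [hXY, one_mul]
      have a2 : X * Y = Y * Y * (X * X) := by
        calc X * Y = X * Y * (X * (X * X)) := by rw [hXX, mul_one]
          _ = (X * Y * X) * (X * X) := by simp only [mul_assoc]
          _ = Y * Y * (X * X) := by rw [a1]
      have a3 : X * Y = Y * X + Y + X + 1 := by
        rw [a2, q1, q2]; noncomm_ring
      have a4 : X * (X * Y) = X * Y * X + X * Y + X * X + X := by
        nth_rewrite 1 [a3]; noncomm_ring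
      have a5 : X * (X * Y) = - (X * Y) - Y := by
        rw [← mul_assoc, q1]; noncomm_ring
      rw [a5, a1, q2, q1] at a4
      have a6 : (2 : k) • (X * Y) = (2 : k) • (1 : Module.End k V) := by
        have e : (2 : k) • (X * Y) - (2 : k) • (1 : Module.End k V) =
          (-Y - 1 + X * Y + (-X - 1) + X) - (-(X * Y) - Y) := by
          rw [two_smul, two_smul]; abel
        rw [← sub_eq_zero, e, ← a4, sub_self]
      have h2 : (2 : k) ≠ 0 := by
        intro h2
        exact one_ne_zero (α := k) (by linear_combination h3 - h2)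
      have a7 : X * Y = 1 := smul_right_injective _ h2 a6
      calc Y = (X * (X * X)) * Y := by rw [hXX, one_mul]
        _ = (X * X) * (X * Y) := by simp only [mul_assoc]
        _ = X ^ 2 := by rw [a7, mul_one, pow_two]
    refine hT.trivial_of_change (by omega) (fun w x y z hn => ?_) c₁
    obtain ⟨l, hl1, hl2⟩ := exists_extend _ hn 1 (by simp; omega)
    obtain ⟨t, rfl⟩ := List.length_eq_one_iff.mp hl1
    simp only [List.cons_append, List.nil_append, List.nodup_cons, List.mem_cons, List.not_mem_nil, or_false,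
      not_or, List.nodup_nil, and_true, not_false_eq_true] at hl2
    obtain ⟨⟨n1, n2, n3, n4⟩, ⟨n5, n6, n7⟩, ⟨n8, n9⟩, n10⟩ := hl2
    have sy : ∀ {a b : α}, ¬ a = b → ¬ b = a := fun h h' => h h'.symm
    rw [cyc_rot n2 n3 n8, cyc_rot n5 n6 n8, hR y z t w (by
      simp only [List.nodup_cons, List.mem_cons, List.not_mem_nil, or_false, not_or, List.nodup_nil, and_true,
        not_false_eq_true]
      exact ⟨⟨n8, n9, sy n2⟩, ⟨n10, sy n3⟩, sy n4⟩), hR y z t x (by
      simp only [List.nodup_cons, List.mem_cons, List.not_mem_nil, or_false, not_or, List.nodup_nil, and_true,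
        not_false_eq_true]
      exact ⟨⟨n8, n9, sy n5⟩, ⟨n10, sy n6⟩, sy n7⟩)]

/-- second bound -/
theorem bound_two (hT : IsFam T) (hirr : Irr T) [Nontrivial V] (hS : Star T) (hne : ∃ c, T c ≠ 1)
    (h7 : 7 ≤ Fintype.card α) : Fintype.card α ≤ finrank k V + 2 := by
  obtain ⟨a, b, x, y, z, hn⟩ := exists_five (by omega : 5 ≤ Fintype.card α)
  simp only [List.nodup_cons, List.mem_cons, List.not_mem_nil, or_false, not_or, List.nodup_nil, and_true,
      not_false_eq_true] at hn
  obtain ⟨⟨hab, hax, hay, haz⟩, ⟨hbx, hby, hbz⟩, ⟨hxy, hxz⟩, hyz⟩ := hn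
  have hc : (cyc a b x).IsThreeCycle := cyc_three hab hax hbx
  have h1 := bound_one hT hS hne (by omega) hc
  have h2 := two_le hT hirr hS hne h7 hc
  omega

end

end H49.TF
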