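import Cfsg.Agent.Lib.H49.TF10

set_option autoImplicit false
set_option linter.unusedSectionVars false

/-! The minimal dimension when the characteristic does not divide the degree. -/

namespace H49.TF

open Equiv Equiv.Perm Module

universe u

section

variable {α : Type*} [Fintype α] [DecidableEq α] {k : Type*} [Field k] {V : Type*} [AddCommGroup V] [Module k V]
  [FiniteDimensional k V] {T : Perm α → Module.End k V}

theorem bound_three (hT : IsFam T) (hirr : Irr T) [Nontrivial V] (hS : Star T) (hne : ∃ c, T c ≠ 1)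
    (h8 : 8 ≤ Fintype.card α) (hk : ((Fintype.card α : ℕ) : k) ≠ 0) : Fintype.card α ≤ finrank k V + 1 := by
  by_contra hcon
  push Not at hcon
  have hb2 := bound_two hT hirr hS hne (by omega)
  have hn : finrank k V + 2 = Fintype.card α := by omega
  have hd : ∀ c : Perm α, c.IsThreeCycle → finrank k (cs T c) = 2 := by
    intro c hc
    have h1 := bound_one hT hS hne (by omega) hc
    have h2 := two_le hT hirr hS hne (by omega) hc
    omega
  obtain ⟨a, b, x₀, y₀, z₀, hn5⟩ := exists_five (by omega : 5 ≤ Fintype.card α)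
  simp only [List.nodup_cons, List.mem_cons, List.not_mem_nil, or_false, not_or, List.nodup_nil, and_true,
      not_false_eq_true] at hn5
  obtain ⟨⟨hab, hax₀, hay₀, -⟩, ⟨hbx₀, hby₀, -⟩, ⟨hxy₀, -⟩, -⟩ := hn5
  have hab' : a ≠ b := hab
  set P : α → Submodule k V := fun x => cs T (cyc a b x) with hP
  have hc3 : ∀ x, x ≠ a → x ≠ b → (cyc a b x).IsThreeCycle := fun x hxa hxb => cyc_three hab hxa.symm hxb.symm
  have hP2 : ∀ x, x ≠ a → x ≠ b → finrank k (P x) = 2 := fun x hxa hxb => hd _ (hc3 x hxa hxb)
  -- upper bounds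
  have hup : ∀ S : Finset α, a ∉ S → b ∉ S → S.card + 5 ≤ Fintype.card α → finrank k (US T a b S) ≤ S.card + 1 := by
    intro S ha hb hS'
    have := bound hT hS hne hab (hc3 x₀ (Ne.symm hax₀) (Ne.symm hbx₀)) (Fintype.card α - 5 - S.card) S ha hb (by omega)
    rw [hd _ (hc3 x₀ (Ne.symm hax₀) (Ne.symm hbx₀))] at this
    omega
  have hlow : ∀ (S : Finset α) (z : α), a ∉ S → b ∉ S → z ∉ S → z ≠ a → z ≠ b → S.card + 5 ≤ Fintype.card α →
      finrank k (US T a b S) + 1 ≤ finrank k (US T a b (insert z S)) := by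
    intro S z ha hb hz hza hzb hcard
    have h1 : 2 ≤ (insert a (insert b (insert z S)))ᶜ.card := by
      rw [Finset.card_compl]
      have := Finset.card_insert_le a (insert b (insert z S))
      have := Finset.card_insert_le b (insert z S)
      have := Finset.card_insert_le z S
      omega
    obtain ⟨R, hR1, hR2⟩ := Finset.exists_subset_card_eq h1
    obtain ⟨y, w, hyw, rfl⟩ := Finset.card_eq_two.mp hR2
    have m2 := hR1 (by simp : y ∈ ({y, w} : Finset α))
    have m3 := hR1 (by simp : w ∈ ({y, w} : Finset α))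
    simp only [Finset.mem_compl, Finset.mem_insert, not_or] at m2 m3
    refine US_lt hT hS hne (y := y) (w := w) ?_ S (fun x hx => ⟨?_, ?_, ?_, ?_, ?_⟩)
    · simp only [List.nodup_cons, List.mem_cons, List.not_mem_nil, or_false, not_or, List.nodup_nil, and_true,
        not_false_eq_true]
      exact ⟨⟨hab, hza.symm, fun h => m2.1 h.symm, fun h => m3.1 h.symm⟩,
        ⟨hzb.symm, fun h => m2.2.1 h.symm, fun h => m3.2.1 h.symm⟩,
        ⟨fun h => m2.2.2.1 h.symm, fun h => m3.2.2.1 h.symm⟩, hyw⟩
    · rintro rfl; exact ha hx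
    · rintro rfl; exact hb hx
    · rintro rfl; exact hz hx
    · rintro rfl; exact m2.2.2.2 hx
    · rintro rfl; exact m3.2.2.2 hx
  have hP3 : ∀ x y, x ≠ a → x ≠ b → y ≠ a → y ≠ b → x ≠ y → finrank k ↥(P x ⊔ P y) = 3 := by
    intro x y hxa hxb hya hyb hxy
    have h1 := hlow {y} x (by simpa using hya.symm) (by simpa using hyb.symm) (by simpa using hxy) hxa hxb
      (by rw [Finset.card_singleton]; omega)
    have h2 := hup (insert x {y}) (by simp [hxa.symm, hya.symm]) (by simp [hxb.symm, hyb.symm])
      (by rw [Finset.card_insert_of_notMem (by simpa using hxy), Finset.card_singleton]; omega)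
    rw [Finset.card_insert_of_notMem (by simpa using hxy), Finset.card_singleton] at h2
    rw [US_insert, US_singleton] at h1 h2
    rw [hd _ (hc3 y hya hyb)] at h1
    exact le_antisymm h2 h1
  have hP4 : ∀ x y z, x ≠ a → x ≠ b → y ≠ a → y ≠ b → z ≠ a → z ≠ b → x ≠ y → x ≠ z → y ≠ z →
      finrank k ↥(P z ⊔ (P x ⊔ P y)) = 4 := by
    intro x y z hxa hxb hya hyb hza hzb hxy hxz hyz
    have h1 := hlow (insert x {y}) z (by simp [hxa.symm, hya.symm]) (by simp [hxb.symm, hyb.symm])
      (by simp [hxz.symm, hyz.symm]) hza hzb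
      (by rw [Finset.card_insert_of_notMem (by simpa using hxy), Finset.card_singleton]; omega)
    have h2 := hup (insert z (insert x {y})) (by simp [hxa.symm, hya.symm, hza.symm])
      (by simp [hxb.symm, hyb.symm, hzb.symm])
      (by rw [Finset.card_insert_of_notMem (by simp [hxz.symm, hyz.symm]),
            Finset.card_insert_of_notMem (by simpa using hxy), Finset.card_singleton]; omega)
    rw [Finset.card_insert_of_notMem (by simp [hxz.symm, hyz.symm]),
      Finset.card_insert_of_notMem (by simpa using hxy), Finset.card_singleton] at h2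
    rw [US_insert a b z, US_insert a b x, US_singleton] at h1 h2
    have h3 := hP3 x y hxa hxb hya hyb hxy
    change finrank k ↥(P x ⊔ P y) + 1 ≤ finrank k ↥(P z ⊔ (P x ⊔ P y)) at h1
    change finrank k ↥(P z ⊔ (P x ⊔ P y)) ≤ _ at h2
    omega
  have hI : ∀ x y, x ≠ a → x ≠ b → y ≠ a → y ≠ b → x ≠ y → finrank k ↥(P x ⊓ P y) = 1 := by
    intro x y hxa hxb hya hyb hxy
    have h1 := Submodule.finrank_sup_add_finrank_inf_eq (P x) (P y)
    rw [hP3 x y hxa hxb hya hyb hxy, hP2 x hxa hxb, hP2 y hya hyb] at h1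
    omega
  have hII : ∀ x y z, x ≠ a → x ≠ b → y ≠ a → y ≠ b → z ≠ a → z ≠ b → x ≠ y → x ≠ z → y ≠ z →
      P x ⊓ P z = P y ⊓ P z := by
    intro x y z hxa hxb hya hyb hza hzb hxy hxz hyz
    have h1 := Submodule.finrank_sup_add_finrank_inf_eq (P z) (P x ⊔ P y)
    rw [hP3 x y hxa hxb hya hyb hxy, hP2 z hza hzb, hP4 x y z hxa hxb hya hyb hza hzb hxy hxz hyz] at h1
    have h2 : finrank k ↥(P z ⊓ (P x ⊔ P y)) = 1 := by omega
    have h3 : P x ⊓ P z = P z ⊓ (P x ⊔ P y) := by
      apply Submodule.eq_of_le_of_finrank_eq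
      · exact le_inf inf_le_right (inf_le_left.trans le_sup_left)
      · rw [h2, hI x z hxa hxb hza hzb hxz]
    have h4 : P y ⊓ P z = P z ⊓ (P x ⊔ P y) := by
      apply Submodule.eq_of_le_of_finrank_eq
      · exact le_inf inf_le_right (inf_le_left.trans le_sup_right)
      · rw [h2, hI y z hya hyb hza hzb hyz]
    rw [h3, h4]
  have hx₀a : x₀ ≠ a := Ne.symm hax₀
  have hx₀b : x₀ ≠ b := Ne.symm hbx₀
  have hy₀a : y₀ ≠ a := Ne.symm hay₀
  have hy₀b : y₀ ≠ b := Ne.symm hby₀
  have hx₀y₀ : x₀ ≠ y₀ := hxy₀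
  obtain ⟨⟨v, hvL⟩, hv0', -⟩ := finrank_eq_one_iff'.mp (hI x₀ y₀ hx₀a hx₀b hy₀a hy₀b hx₀y₀)
  have hv0 : v ≠ 0 := fun h => hv0' (Subtype.ext h)
  have hv : ∀ z, z ≠ a → z ≠ b → v ∈ P z := by
    intro z hza hzb
    by_cases h1 : z = x₀
    · subst h1; exact hvL.1
    · by_cases h2 : z = y₀
      · subst h2; exact hvL.2
      · have := hII z y₀ x₀ hza hzb hy₀a hy₀b hx₀a hx₀b h2 h1 hx₀y₀.symm
        have h3 : v ∈ P y₀ ⊓ P x₀ := ⟨hvL.2, hvL.1⟩
        rw [← this] at h3
        exact h3.1
  have hspan : ∀ x y, x ≠ a → x ≠ b → y ≠ a → y ≠ b → x ≠ y → ∀ w, w ∈ P x → w ∈ P y → ∃ l : k, w = l • v := by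
    intro x y hxa hxb hya hyb hxy w hwx hwy
    have h1 : Submodule.span k {v} = P x ⊓ P y := by
      apply Submodule.eq_of_le_of_finrank_eq
      · rw [Submodule.span_singleton_le_iff_mem]
        exact ⟨hv x hxa hxb, hv y hya hyb⟩
      · rw [hI x y hxa hxb hya hyb hxy, finrank_span_singleton hv0]
    have h2 : w ∈ Submodule.span k {v} := by rw [h1]; exact ⟨hwx, hwy⟩
    obtain ⟨l, hl⟩ := Submodule.mem_span_singleton.mp h2
    exact ⟨l, hl.symm⟩
  set u : α → V := fun x => T (cyc a b x) v with hu
  have huP : ∀ x, x ≠ a → x ≠ b → u x ∈ P x := fun x hxa hxb => cs_stable (hv x hxa hxb)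
  have hTu : ∀ x, x ≠ a → x ≠ b → T (cyc a b x) (u x) = - v - u x := fun x hxa hxb => hT.quad (hv x hxa hxb)
  -- `v` is not an eigenvector
  have hind : ∀ x, x ≠ a → x ≠ b → ∀ l : k, u x ≠ l • v := by
    intro x hxa hxb l hl
    have hall : ∀ y, y ≠ a → y ≠ b → T (cyc a b y) v = l • v := by
      intro y hya hyb
      by_cases hxy : x = y
      · subst hxy; exact hl
      obtain ⟨σ, hσ, hσ'⟩ := exists_alt (l := [a, b, x]) (l' := [a, b, y])
        (by simp [hab', hxa.symm, hxb.symm]) (by simp [hab', hya.symm, hyb.symm]) rfl (by simp; omega)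
      simp only [List.map_cons, List.map_nil, List.cons.injEq, and_true] at hσ'
      obtain ⟨s1, s2, s3⟩ := hσ'
      obtain ⟨g, -, hg, hgT⟩ := hT.exists_lift_alt hσ
      have hgP : ∀ z, z ≠ a → z ≠ b → g v ∈ P z := by
        intro z hza hzb
        have hz1 : σ⁻¹ z ≠ a := by
          intro h
          apply hza
          rw [← s1, ← h, ← Perm.mul_apply, mul_inv_cancel]; rfl
        have hz2 : σ⁻¹ z ≠ b := by
          intro h
          apply hzb
          rw [← s2, ← h, ← Perm.mul_apply, mul_inv_cancel]; rfl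
        obtain ⟨w, hw⟩ := hv _ hz1 hz2
        refine ⟨g w, ?_⟩
        have e := LinearMap.congr_fun (hgT (cyc a b (σ⁻¹ z))) w
        rw [conj_cyc, s1, s2, ← Perm.mul_apply, mul_inv_cancel] at e
        change g (T _ w) = T (cyc a b z) (g w) at e
        rw [← hw]
        change T (cyc a b z) (g w) - g w = g (T _ w - w)
        rw [map_sub, e]
      obtain ⟨m, hm⟩ := hspan x y hxa hxb hya hyb hxy (g v) (hgP x hxa hxb) (hgP y hya hyb)
      have hgv0 : g v ≠ 0 := fun h => hv0 (unit_injective hg (by rw [h, map_zero]))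
      have hm0 : m ≠ 0 := by
        rintro rfl
        rw [zero_smul] at hm
        exact hgv0 hm
      have e := LinearMap.congr_fun (hgT (cyc a b x)) v
      rw [conj_cyc, s1, s2, s3] at e
      change g (u x) = T (cyc a b y) (g v) at e
      rw [hl, map_smul, hm, map_smul, smul_comm] at e
      exact (smul_right_injective V hm0 e).symm
    have hst := hT.stab_all (U := Submodule.span k {v}) hab (fun x hxa hxb w hw => by
      obtain ⟨m, rfl⟩ := Submodule.mem_span_singleton.mp hw
      rw [map_smul, hall x hxa hxb]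
      exact Submodule.smul_mem _ _ (Submodule.smul_mem _ _ (Submodule.mem_span_singleton_self v)))
    rcases hirr _ (fun c v hv => hst c v hv) with h | h
    · rw [Submodule.span_singleton_eq_bot] at h
      exact hv0 h
    · have h1 : finrank k (Submodule.span k {v}) = 1 := finrank_span_singleton hv0
      rw [h, finrank_top] at h1
      omega
  -- independence of `v` and `u x`
  have hli2 : ∀ x, x ≠ a → x ≠ b → ∀ l m : k, l • v + m • u x = 0 → l = 0 ∧ m = 0 := by
    intro x hxa hxb l m h
    have hm : m = 0 := by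
      by_contra hm
      apply hind x hxa hxb (-(m⁻¹ * l))
      have e : u x = m⁻¹ • (m • u x) := by rw [smul_smul, inv_mul_cancel₀ hm, one_smul]
      have e2 : m • u x = - (l • v) := by rw [eq_neg_iff_add_eq_zero, add_comm]; exact h
      rw [e, e2]; module
    subst hm
    rw [zero_smul, add_zero] at h
    exact ⟨(smul_eq_zero.mp h).resolve_right hv0, rfl⟩
  have hli3 : ∀ x y, x ≠ a → x ≠ b → y ≠ a → y ≠ b → x ≠ y → ∀ l m r : k, l • v + m • u x + r • u y = 0 →
      l = 0 ∧ m = 0 ∧ r = 0 := by
    intro x y hxa hxb hya hyb hxy l m r h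
    have h1 : r • u y ∈ P x := by
      have : r • u y = - (l • v + m • u x) := by rw [eq_neg_iff_add_eq_zero, add_comm]; exact h
      rw [this]
      exact (P x).neg_mem ((P x).add_mem ((P x).smul_mem _ (hv x hxa hxb)) ((P x).smul_mem _ (huP x hxa hxb)))
    obtain ⟨q, hq⟩ := hspan x y hxa hxb hya hyb hxy _ h1 ((P y).smul_mem _ (huP y hya hyb))
    have h2 : q • v + (-r) • u y = 0 := by rw [← hq]; module
    have hr : r = 0 := by
      have := (hli2 y hya hyb q (-r) h2).2
      linear_combination -this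
    subst hr
    rw [zero_smul, add_zero] at h
    obtain ⟨h3, h4⟩ := hli2 x hxa hxb l m h
    exact ⟨h3, h4, rfl⟩
  have hcomb : ∀ x, x ≠ a → x ≠ b → ∀ w ∈ P x, ∃ l m : k, w = l • v + m • u x := by
    intro x hxa hxb w hw
    have h1 : LinearIndependent k ![v, u x] := by
      rw [LinearIndependent.pair_iff]
      exact hli2 x hxa hxb
    have h2 : Submodule.span k (Set.range ![v, u x]) = P x := by
      apply Submodule.eq_of_le_of_finrank_eq
      · rw [Submodule.span_le]
        rintro _ ⟨i, rfl⟩
        fin_cases i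
        · exact hv x hxa hxb
        · exact huP x hxa hxb
      · rw [finrank_span_eq_card h1, hP2 x hxa hxb]; rfl
    have h3 : w ∈ Submodule.span k (Set.range ![v, u x]) := by rw [h2]; exact hw
    rw [Matrix.range_cons, Matrix.range_cons, Matrix.range_empty, Set.union_empty] at h3
    obtain ⟨l, m, hlm⟩ := Submodule.mem_span_pair.mp h3
    exact ⟨l, m, hlm.symm⟩
  -- the relation
  have hrel : ∀ x y, x ≠ a → x ≠ b → y ≠ a → y ≠ b → x ≠ y → T (cyc a b x) (u y) = u y - u x := by
    intro x y hxa hxb hya hyb hxy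
    obtain ⟨l, m, hlm⟩ := hcomb x hxa hxb _ (mem_cs (cyc a b x) (u y))
    obtain ⟨l', m', hlm'⟩ := hcomb y hya hyb _ (mem_cs (cyc a b y) (u x))
    have e1 : T (cyc a b x) (u y) = u y + l • v + m • u x := by
      rw [sub_eq_iff_eq_add] at hlm
      rw [hlm]; abel
    have e2 : T (cyc a b y) (u x) = u x + l' • v + m' • u y := by
      rw [sub_eq_iff_eq_add] at hlm'
      rw [hlm']; abel
    have key : ∀ x y, x ≠ a → x ≠ b → y ≠ a → y ≠ b → x ≠ y → ∀ l m l' m' : k,
        T (cyc a b x) (u y) = u y + l • v + m • u x → T (cyc a b y) (u x) = u x + l' • v + m' • u y →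
        m = -1 ∧ l' = 0 := by
      intro x y hxa hxb hya hyb hxy l m l' m' e1 e2
      have hnd : [a, b, x, y].Nodup := by simp [hab', hxa.symm, hya.symm, hxb.symm, hyb.symm, hxy]
      have hsq := sq_one hT hirr hnd (by
        change finrank k ↥(P x ⊔ P y) < _
        rw [hP3 x y hxa hxb hya hyb hxy]; omega)
      have hsq' : T (cyc a b x) (T (cyc a b y) (T (cyc a b x) (T (cyc a b y) v))) = v := by
        have := LinearMap.congr_fun hsq v
        rw [pow_two] at this
        exact this
      change T (cyc a b x) (T (cyc a b y) (T (cyc a b x) (u y))) = v at hsq'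
      -- apply inverses
      have h1 : T (cyc a b x) (u y) = T (cyc a b y) (T (cyc a b y) (T (cyc a b x) (T (cyc a b x) v))) := by
        have h2 : T (cyc a b y) (T (cyc a b x) (u y)) = T (cyc a b x) (T (cyc a b x) v) := by
          conv_rhs => rw [← hsq']
          rw [hT.ap3]
        rw [← h2, hT.ap3]
      have h2 : T (cyc a b y) (T (cyc a b y) v) = - v - u y := hTu y hya hyb
      have h3 : T (cyc a b x) (T (cyc a b x) v) = - v - u x := hTu x hxa hxb
      have h4 : T (cyc a b y) (T (cyc a b y) (u x)) = u x + (l' - m') • v + l' • u y := by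
        rw [e2, map_add, map_add, map_smul, map_smul, e2, hTu y hya hyb]
        change u x + l' • v + m' • u y + l' • u y + m' • (-v - u y) = _
        module
      rw [h3, map_sub, map_neg, map_sub, map_neg, h2, h4, e1] at h1
      have h5 : (l - 1 + l' - m') • v + (m + 1) • u x + l' • u y = 0 := by
        rw [← sub_eq_zero] at h1
        rw [← h1]; module
      obtain ⟨-, h6, h7⟩ := hli3 x y hxa hxb hya hyb hxy _ _ _ h5
      exact ⟨by linear_combination h6, h7⟩
    obtain ⟨k1, k2⟩ := key x y hxa hxb hya hyb hxy l m l' m' e1 e2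
    obtain ⟨k3, k4⟩ := key y x hya hyb hxa hxb hxy.symm l' m' l m e2 e1
    rw [e1, k1, k4]; module
  -- final independence
  have hfin : LinearIndependent k (fun o : Option {x // x ≠ a ∧ x ≠ b} => o.elim v (fun x => u x)) := by
    rw [Fintype.linearIndependent_iff]
    intro g hg
    rw [Fintype.sum_option] at hg
    simp only [Option.elim_none, Option.elim_some] at hg
    set M : k := ∑ x : {x // x ≠ a ∧ x ≠ b}, g (some x) with hM
    have hg' : ∑ x : {x // x ≠ a ∧ x ≠ b}, g (some x) • u x = - (g none • v) := by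
      rw [eq_neg_iff_add_eq_zero, add_comm]; exact hg
    have hy : ∀ y : {x // x ≠ a ∧ x ≠ b}, g none + g (some y) = 0 ∧ g none - M - g (some y) = 0 := by
      intro y
      have e1 := congrArg (T (cyc a b y)) hg
      rw [map_add, map_smul, map_sum, map_zero] at e1
      have e2 : ∀ x : {x // x ≠ a ∧ x ≠ b}, T (cyc a b y) (g (some x) • u x) =
          g (some x) • u x - g (some x) • u y - (if x = y then g (some y) • (v + u y) else 0) := by
        intro x
        rw [map_smul]
        by_cases hxy : x = y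
        · subst hxy
          rw [hTu x x.2.1 x.2.2, if_pos rfl]; module
        · rw [hrel y x y.2.1 y.2.2 x.2.1 x.2.2 (fun h => hxy (Subtype.ext h.symm)), if_neg hxy, sub_zero, smul_sub]
      rw [Finset.sum_congr rfl (fun x _ => e2 x), Finset.sum_sub_distrib, Finset.sum_sub_distrib, hg',
        ← Finset.sum_smul, Finset.sum_ite_eq' Finset.univ, if_pos (Finset.mem_univ _)] at e1
      change g none • u y + _ = 0 at e1
      have e3 : (-(g none) - g (some y)) • v + (g none - M - g (some y)) • u y = 0 := by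
        rw [← e1]; module
      obtain ⟨e4, e5⟩ := hli2 y y.2.1 y.2.2 _ _ e3
      exact ⟨by linear_combination -e4, e5⟩
    have hMeq : M = - ((Fintype.card {x // x ≠ a ∧ x ≠ b} : ℕ) : k) * g none := by
      rw [hM, Finset.sum_congr rfl (fun x _ => (eq_neg_of_add_eq_zero_right (hy x).1)), Finset.sum_const,
        Finset.card_univ, nsmul_eq_mul]
      ring
    have hcard : Fintype.card {x // x ≠ a ∧ x ≠ b} + 2 = Fintype.card α := by
      have : Fintype.card {x // x ≠ a ∧ x ≠ b} = (({a, b} : Finset α)ᶜ).card := by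
        apply Fintype.card_of_subtype
        intro x
        simp
      rw [this, Finset.card_compl, Finset.card_pair hab']
      omega
    have h0 : g none = 0 := by
      have y₁ : {x // x ≠ a ∧ x ≠ b} := ⟨x₀, hx₀a, hx₀b⟩
      have e1 := hy y₁
      have e2 : ((Fintype.card α : ℕ) : k) * g none = 0 := by
        rw [← hcard]
        push_cast
        linear_combination e1.1 + e1.2 + hMeq
      exact (mul_eq_zero.mp e2).resolve_left hk
    intro o
    cases o with
    | none => exact h0
    | some y =>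
      have := (hy y).1
      rw [h0, zero_add] at this
      exact this
  have hle := hfin.fintype_card_le_finrank
  have hcard : Fintype.card {x // x ≠ a ∧ x ≠ b} + 2 = Fintype.card α := by
    have : Fintype.card {x // x ≠ a ∧ x ≠ b} = (({a, b} : Finset α)ᶜ).card := by
      apply Fintype.card_of_subtype
      intro x
      simp
    rw [this, Finset.card_compl, Finset.card_pair hab']
    omega
  rw [Fintype.card_option] at hle
  omega

end

end H49.TF
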