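import Cfsg.Agent.Lib.H49.TF11

set_option autoImplicit false
set_option linter.unusedSectionVars false

/-! Clifford algebras and the spin case. -/

namespace H49.TF

open Equiv Equiv.Perm Module

universe u v

section Cliff

variable {k : Type u} [Field k]

/-- dimension of modules for anticommuting operators -/
theorem cliff_dim [IsAlgClosed k] (h2 : (2 : k) ≠ 0) (h : ℕ) : ∀ (V : Type v) [AddCommGroup V] [Module k V]
    [FiniteDimensional k V] [Nontrivial V] (e : ℕ → Module.End k V) (c : ℕ → k)
    (_ : ∀ i, i < 2 * h → c i ≠ 0) (_ : ∀ i, i < 2 * h → e i * e i = c i • (1 : Module.End k V))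
    (_ : ∀ i j, i < 2 * h → j < 2 * h → i ≠ j → e i * e j = - (e j * e i)), 2 ^ h ≤ finrank k V := by
  induction h with
  | zero =>
    intro V _ _ _ _ e c _ _ _
    rw [pow_zero]
    exact finrank_pos
  | succ h ih =>
    intro V _ _ _ _ e c hc hsq hanti
    set x := e (2 * h) with hx
    set y := e (2 * h + 1) with hy
    set f := x * y with hf
    have hxx := hsq (2 * h) (by omega)
    have hyy := hsq (2 * h + 1) (by omega)
    have hxy : y * x = - (x * y) := hanti (2 * h + 1) (2 * h) (by omega) (by omega) (by omega)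
    rw [← hx] at hxx
    rw [← hy] at hyy
    obtain ⟨δ, hδ⟩ := IsAlgClosed.exists_pow_nat_eq (- (c (2 * h) * c (2 * h + 1))) (by norm_num : 0 < 2)
    have hδ0 : δ ≠ 0 := by
      rintro rfl
      have := mul_ne_zero (hc (2 * h) (by omega)) (hc (2 * h + 1) (by omega))
      apply this
      simpa using hδ
    have hff : f * f = (δ ^ 2) • (1 : Module.End k V) := by
      calc f * f = x * (y * x) * y := by rw [hf]; simp only [mul_assoc]
        _ = - ((x * x) * (y * y)) := by rw [hxy]; noncomm_ring
        _ = (δ ^ 2) • (1 : Module.End k V) := by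
          rw [hxx, hyy, hδ, smul_mul_assoc, one_mul, smul_smul, neg_smul]
    have hxf : x * f = - (f * x) := by
      calc x * f = x * (x * y) := rfl
        _ = - (x * (- (x * y))) := by noncomm_ring
        _ = - (x * (y * x)) := by rw [hxy]
        _ = - (f * x) := by rw [hf, mul_assoc]
    have hxinj : Function.Injective x := by
      intro a b hab
      have e1 : ∀ v, x (x v) = c (2 * h) • v := fun v => LinearMap.congr_fun hxx v
      have e2 : c (2 * h) • a = c (2 * h) • b := by rw [← e1, ← e1, hab]
      exact smul_right_injective V (hc (2 * h) (by omega)) e2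
    have hδδ : δ ≠ -δ := by
      intro h'
      have : 2 * δ = 0 := by linear_combination h'
      rcases mul_eq_zero.mp this with h'' | h''
      · exact h2 h''
      · exact hδ0 h''
    have hm : ∀ a : k, ∀ v ∈ f.eigenspace a, x v ∈ f.eigenspace (-a) := by
      intro a v hv
      rw [Module.End.mem_eigenspace_iff] at hv ⊢
      have := LinearMap.congr_fun hxf v
      change x (f v) = - f (x v) at this
      rw [hv, map_smul] at this
      rw [neg_smul, this, neg_neg]
    have d1 := finrank_le_of_maps hxinj (hm δ)
    have d2 := finrank_le_of_maps hxinj (hm (-δ))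
    rw [neg_neg] at d2
    have d3 := finrank_add_le_of_disjoint (eigenspace_disjoint f hδδ)
    have hffv : ∀ v, f (f v) = (δ ^ 2) • v := fun v => LinearMap.congr_fun hff v
    have hnt : Nontrivial (f.eigenspace δ) := by
      obtain ⟨v, hv⟩ := exists_ne (0 : V)
      by_cases h0 : f v = - δ • v
      · have m1 : v ∈ f.eigenspace (-δ) := by rw [Module.End.mem_eigenspace_iff, h0]
        have m2 := hm (-δ) v m1
        rw [neg_neg] at m2
        refine ⟨⟨⟨x v, m2⟩, 0, fun h' => hv ?_⟩⟩
        have : x v = 0 := congrArg Subtype.val h'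
        exact hxinj (by rw [this, map_zero])
      · have m1 : f v + δ • v ∈ f.eigenspace δ := by
          rw [Module.End.mem_eigenspace_iff, map_add, map_smul, hffv]
          module
        refine ⟨⟨⟨f v + δ • v, m1⟩, 0, fun h' => h0 ?_⟩⟩
        have : f v + δ • v = 0 := congrArg Subtype.val h'
        rw [neg_smul, eq_neg_iff_add_eq_zero]
        exact this
    have hcomm : ∀ i, i < 2 * h → ∀ v ∈ f.eigenspace δ, e i v ∈ f.eigenspace δ := by
      intro i hi v hv
      have a1 : e i * x = - (x * e i) := hanti i (2 * h) (by omega) (by omega) (by omega)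
      have a2 : e i * y = - (y * e i) := hanti i (2 * h + 1) (by omega) (by omega) (by omega)
      have a3 : e i * f = f * e i := by
        calc e i * f = (e i * x) * y := by rw [hf, mul_assoc]
          _ = - (x * (e i * y)) := by rw [a1]; noncomm_ring
          _ = f * e i := by rw [a2, hf]; noncomm_ring
      rw [Module.End.mem_eigenspace_iff] at hv ⊢
      have := LinearMap.congr_fun a3 v
      change e i (f v) = f (e i v) at this
      rw [← this, hv, map_smul]
    have hih := ih (f.eigenspace δ) (fun i => if hi : i < 2 * h then (e i).restrict (hcomm i hi) else 0) c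
      (fun i hi => hc i (by omega)) (fun i hi => by
        simp only [dif_pos hi]
        ext w
        have := LinearMap.congr_fun (hsq i (by omega)) (w : V)
        exact this) (fun i j hi hj hij => by
        simp only [dif_pos hi, dif_pos hj]
        ext w
        have := LinearMap.congr_fun (hanti i j (by omega) (by omega) hij) (w : V)
        exact this)
    rw [pow_succ]
    omega

/-- the bilinear form `-4 ⟨w, w'⟩ - 2 (Σ w) (Σ w')` -/
noncomputable def bf (k : Type u) [Field k] (ι : Type*) [Fintype ι] : LinearMap.BilinForm k (ι → k) :=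
  LinearMap.mk₂ k (fun w w' => -4 * ∑ x, w x * w' x - 2 * (∑ x, w x) * (∑ x, w' x))
    (fun a b c => by
      simp only [Pi.add_apply, add_mul, Finset.sum_add_distrib]; ring)
    (fun r a b => by
      simp only [Pi.smul_apply, smul_eq_mul, mul_assoc, ← Finset.mul_sum]; ring)
    (fun a b c => by
      simp only [Pi.add_apply, mul_add, Finset.sum_add_distrib]; ring)
    (fun r a b => by
      simp only [Pi.smul_apply, smul_eq_mul]
      have : ∀ x, a x * (r * b x) = r * (a x * b x) := fun x => by ring
      simp only [this, ← Finset.mul_sum]; ring)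

theorem bf_apply {ι : Type*} [Fintype ι] (w w' : ι → k) :
    bf k ι w w' = -4 * ∑ x, w x * w' x - 2 * (∑ x, w x) * (∑ x, w' x) := rfl

theorem bf_symm {ι : Type*} [Fintype ι] : LinearMap.IsSymm (bf k ι) := by
  constructor
  intro w w'
  rw [RingHom.id_apply, bf_apply, bf_apply]
  have : ∑ x, w x * w' x = ∑ x, w' x * w x := Finset.sum_congr rfl fun x _ => mul_comm _ _
  rw [this]; ring

theorem bf_sep {ι : Type*} [Fintype ι] (h2 : (2 : k) ≠ 0) (hs : ((Fintype.card ι + 2 : ℕ) : k) ≠ 0) :
    (bf k ι).SeparatingLeft := by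
  classical
  intro w hw
  have h1 : ∀ i, 2 * w i + ∑ x, w x = 0 := by
    intro i
    have := hw (Pi.single i 1)
    rw [bf_apply] at this
    simp only [Pi.single_apply, mul_ite, mul_one, mul_zero, Finset.sum_ite_eq', Finset.mem_univ, if_true] at this
    have h3 : (-2 : k) * (2 * w i + ∑ x, w x) = 0 := by linear_combination this
    exact (mul_eq_zero.mp h3).resolve_left (neg_ne_zero.mpr h2)
  have h3 : 2 * ∑ x, w x + (Fintype.card ι : k) * ∑ x, w x = 0 := by
    have := Finset.sum_congr (s₁ := Finset.univ) rfl (fun i (_ : i ∈ Finset.univ) => h1 i)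
    rw [Finset.sum_add_distrib, ← Finset.mul_sum, Finset.sum_const, Finset.card_univ, Finset.sum_const_zero,
      nsmul_eq_mul] at this
    exact this
  have h4 : ∑ x, w x = 0 := by
    have : ((Fintype.card ι + 2 : ℕ) : k) * ∑ x, w x = 0 := by push_cast; linear_combination h3
    exact (mul_eq_zero.mp this).resolve_left hs
  funext i
  have := h1 i
  rw [h4, add_zero] at this
  exact (mul_eq_zero.mp this).resolve_left h2

theorem cliff_bound [IsAlgClosed k] (h2 : (2 : k) ≠ 0) {ι : Type*} [Fintype ι] [DecidableEq ι]
    (hs : ((Fintype.card ι + 2 : ℕ) : k) ≠ 0) {V : Type v} [AddCommGroup V] [Module k V] [FiniteDimensional k V]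
    [Nontrivial V] (s : ι → Module.End k V) (h1 : ∀ x, s x * s x = (-3 : k) • (1 : Module.End k V))
    (h3 : ∀ x y, x ≠ y → s x * s y + s y * s x = (-2 : k) • (1 : Module.End k V)) (h : ℕ)
    (hh : 2 * h ≤ Fintype.card ι) : 2 ^ h ≤ finrank k V := by
  haveI : Invertible (2 : k) := invertibleOfNonzero h2
  obtain ⟨b, hb⟩ := LinearMap.BilinForm.exists_orthogonal_basis (bf_symm (k := k) (ι := ι))
  have hb0 := hb.not_isOrtho_basis_self_of_separatingLeft (bf_sep h2 hs)
  set E : (ι → k) → Module.End k V := fun w => ∑ x, w x • s x with hE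
  have hEE : ∀ w w', E w * E w' + E w' * E w = bf k ι w w' • (1 : Module.End k V) := by
    intro w w'
    have e1 : E w * E w' = ∑ x, ∑ y, (w x * w' y) • (s x * s y) := by
      rw [hE]
      simp only [Finset.sum_mul_sum, smul_mul_smul_comm]
    have e2 : E w' * E w = ∑ x, ∑ y, (w x * w' y) • (s y * s x) := by
      rw [hE]
      simp only [Finset.sum_mul_sum, smul_mul_smul_comm]
      rw [Finset.sum_comm]
      refine Finset.sum_congr rfl fun x _ => Finset.sum_congr rfl fun y _ => ?_
      rw [mul_comm (w' y)]
    rw [e1, e2, ← Finset.sum_add_distrib, bf_apply, sub_smul, mul_smul]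
    have e3 : ∀ x, (∑ y, (w x * w' y) • (s x * s y) + ∑ y, (w x * w' y) • (s y * s x)) =
        (-4 * (w x * w' x)) • (1 : Module.End k V) - (2 * (w x * ∑ y, w' y)) • (1 : Module.End k V) := by
      intro x
      rw [← Finset.sum_add_distrib]
      have e4 : ∀ y, (w x * w' y) • (s x * s y) + (w x * w' y) • (s y * s x) =
          ((w x * w' y) * (-2) + if x = y then (w x * w' y) * (-4) else 0) • (1 : Module.End k V) := by
        intro y
        rw [← smul_add]
        by_cases hxy : x = y
        · subst hxy
          rw [h1, if_pos rfl]; module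
        · rw [h3 x y hxy, if_neg hxy, add_zero, smul_smul]
      rw [Finset.sum_congr rfl (fun y _ => e4 y), ← Finset.sum_smul, Finset.sum_add_distrib, Finset.sum_ite_eq,
        if_pos (Finset.mem_univ _), ← Finset.sum_mul, ← Finset.mul_sum, ← sub_smul]
      congr 1; ring
    rw [Finset.sum_congr rfl (fun x _ => e3 x), Finset.sum_sub_distrib, ← Finset.sum_smul, ← Finset.sum_smul,
      ← Finset.mul_sum, ← Finset.mul_sum, ← Finset.sum_mul, mul_smul, mul_assoc]
  have hcard : finrank k (ι → k) = Fintype.card ι := Module.finrank_fintype_fun_eq_card k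
  refine cliff_dim h2 h V (fun i => if hi : i < finrank k (ι → k) then E (b ⟨i, hi⟩) else 0)
    (fun i => if hi : i < finrank k (ι → k) then bf k ι (b ⟨i, hi⟩) (b ⟨i, hi⟩) / 2 else 0) ?_ ?_ ?_
  · intro i hi
    have hi' : i < finrank k (ι → k) := by rw [hcard]; omega
    simp only [dif_pos hi']
    exact div_ne_zero (hb0 _) h2
  · intro i hi
    have hi' : i < finrank k (ι → k) := by rw [hcard]; omega
    simp only [dif_pos hi']
    have := hEE (b ⟨i, hi'⟩) (b ⟨i, hi'⟩)
    rw [← two_smul k] at this
    rw [div_eq_inv_mul, mul_smul, ← this, smul_smul, inv_mul_cancel₀ h2, one_smul]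
  · intro i j hi hj hij
    have hi' : i < finrank k (ι → k) := by rw [hcard]; omega
    have hj' : j < finrank k (ι → k) := by rw [hcard]; omega
    simp only [dif_pos hi', dif_pos hj']
    have e1 := hEE (b ⟨i, hi'⟩) (b ⟨j, hj'⟩)
    have e2 : bf k ι (b ⟨i, hi'⟩) (b ⟨j, hj'⟩) = 0 := hb (fun h => hij (by simpa using h))
    rw [e2, zero_smul] at e1
    exact eq_neg_of_add_eq_zero_left e1

end Cliff

end H49.TF
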