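import Cfsg.Agent.Lib.H49.TF12

set_option autoImplicit false
set_option linter.unusedSectionVars false

/-! The spin case: families with `T c ^ 2 + T c + 1 = 0`. -/

namespace H49.TF

open Equiv Equiv.Perm Module

universe u

section

variable {k : Type u} [Field k] {α : Type*} [Fintype α] [DecidableEq α] {V : Type*} [AddCommGroup V] [Module k V]
  [FiniteDimensional k V] {T : Perm α → Module.End k V}

/-- two three-cycles sharing two points cannot commute -/
theorem IsFam.trivial_of_commute' {R : Type*} [Monoid R] {T : Perm α → R} (hT : IsFam T)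
    (h6 : 6 ≤ Fintype.card α) {a b x y : α} (hn : [a, b, x, y].Nodup)
    (hc : T (cyc a b x) * T (cyc a b y) = T (cyc a b y) * T (cyc a b x)) (c : Perm α) : T c = 1 := by
  have hn' := hn
  simp only [List.nodup_cons, List.mem_cons, List.not_mem_nil, or_false, not_or, List.nodup_nil, and_true,
    not_false_eq_true] at hn'
  obtain ⟨⟨hab, hax, hay⟩, ⟨hbx, hby⟩, hxy⟩ := hn'
  have h1 : T (cyc b x y) = T (cyc a b y) := by
    rw [hT.conj _ _ (cyc_three hab hax hbx), conj_cyc, cyc_apply_1 hab hax, cyc_apply_2 hax hbx,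
      cyc_apply_of (Ne.symm hay) (Ne.symm hby) (Ne.symm hxy)] at hc
    exact (hT.isUnit _).mul_right_cancel hc
  have h2 : ∀ a b x y : α, [a, b, x, y].Nodup → T (cyc b x y) = T (cyc a b y) := by
    intro a' b' x' y' hn2
    obtain ⟨σ, hσ, hσ'⟩ := exists_alt hn hn2 rfl (by simpa using h6)
    simp only [List.map_cons, List.map_nil, List.cons.injEq, and_true] at hσ'
    obtain ⟨s1, s2, s3, s4⟩ := hσ'
    have := hT.eq_conj hσ h1
    rwa [conj_cyc, conj_cyc, s1, s2, s3, s4] at this
  refine hT.trivial_of_change (by omega) (fun w x y z hn2 => ?_) c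
  -- `T (cyc w y z) = T (cyc x y z)`
  obtain ⟨l, hl1, hl2⟩ := exists_extend _ hn2 1 (by simp; omega)
  obtain ⟨t, rfl⟩ := List.length_eq_one_iff.mp hl1
  simp only [List.cons_append, List.nil_append, List.nodup_cons, List.mem_cons, List.not_mem_nil, or_false,
      not_or, List.nodup_nil, and_true, not_false_eq_true] at hl2
  obtain ⟨⟨n1, n2, n3, n4⟩, ⟨n5, n6, n7⟩, ⟨n8, n9⟩, n10⟩ := hl2
  have sy : ∀ {a b : α}, ¬ a = b → ¬ b = a := fun h h' => h h'.symm
  -- cyc w y z = cyc z w y = cyc (t) ... use `T (cyc b x y) = T (cyc a b y)` with `b = z, y = y`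
  have e1 : T (cyc z w y) = T (cyc t z y) := h2 t z w y (by
    simp only [List.nodup_cons, List.mem_cons, List.not_mem_nil, or_false, not_or, List.nodup_nil, and_true,
      not_false_eq_true]
    exact ⟨⟨sy n10, sy n4, sy n9⟩, ⟨sy n3, sy n8⟩, n2⟩)
  have e2 : T (cyc z x y) = T (cyc t z y) := h2 t z x y (by
    simp only [List.nodup_cons, List.mem_cons, List.not_mem_nil, or_false, not_or, List.nodup_nil, and_true,
      not_false_eq_true]
    exact ⟨⟨sy n10, sy n7, sy n9⟩, ⟨sy n6, sy n8⟩, n5⟩)
  rw [← cyc_rot (sy n3) (sy n8) n2, ← cyc_rot (sy n6) (sy n8) n5, e1, e2]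

/-- spin families have large dimension -/
theorem spin_bound [IsAlgClosed k] (h2 : (2 : k) ≠ 0) (hs : ((Fintype.card α : ℕ) : k) ≠ 0) [Nontrivial V]
    (hT : IsFam T) (hirr : Irr T) (hne : ∃ c, T c ≠ 1) (h6 : 6 ≤ Fintype.card α)
    (hq : ∀ c : Perm α, c.IsThreeCycle → T c * T c = - T c - 1) (h : ℕ) (hh : 2 * h + 2 ≤ Fintype.card α) :
    2 ^ h ≤ finrank k V := by
  obtain ⟨c₁, hc₁⟩ := hne
  obtain ⟨a, b, x₀, y₀, z₀, hn5⟩ := exists_five (by omega : 5 ≤ Fintype.card α)
  simp only [List.nodup_cons, List.mem_cons, List.not_mem_nil, or_false, not_or, List.nodup_nil, and_true,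
      not_false_eq_true] at hn5
  obtain ⟨⟨hab, -⟩, -⟩ := hn5
  have hab' : a ≠ b := hab
  have hrel : ∀ x y, x ≠ a → x ≠ b → y ≠ a → y ≠ b → x ≠ y →
      T (cyc a b x) * T (cyc a b y) + T (cyc a b y) * T (cyc a b x) = - T (cyc a b x) - T (cyc a b y) - 1 := by
    intro x y hxa hxb hya hyb hxy
    have hn : [a, b, x, y].Nodup := by simp [hab', hxa.symm, hya.symm, hxb.symm, hyb.symm, hxy]
    have hz := comm_sq hT hn
    have q1 := hq _ (cyc_three hab' hxa.symm hxb.symm)
    have q2 := hq _ (cyc_three hab' hya.symm hyb.symm)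
    have t1 := hT.cube (cyc a b x)
    have t2 := hT.cube (cyc a b y)
    have hnc := fun h => hc₁ (hT.trivial_of_commute' h6 hn h c₁)
    have hzX := hz (cyc a b x)
    have hzY := hz (cyc a b y)
    set z := (T (cyc a b x) * T (cyc a b y)) ^ 2 with hzdef
    set X := T (cyc a b x) with hX
    set Y := T (cyc a b y) with hY
    have hYY : Y * (Y * Y) = 1 := by rw [← pow_two, ← pow_succ']; exact t2
    have hXX : X * (X * X) = 1 := by rw [← pow_two, ← pow_succ']; exact t1
    have hz2 : z = X * Y * (X * Y) := by rw [hzdef, pow_two]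
    -- X Y = z Y² X²
    have a1 : X * Y = z * (Y * X + Y + X + 1) := by
      have e1 : X * Y = z * ((Y * Y) * (X * X)) := by
        calc X * Y = X * Y * (X * (Y * (Y * Y)) * (X * X)) := by rw [hYY, mul_one, hXX, mul_one]
          _ = (X * Y * (X * Y)) * ((Y * Y) * (X * X)) := by simp only [mul_assoc]
          _ = _ := by rw [← hz2]
      have e2 : (Y * Y) * (X * X) = Y * X + Y + X + 1 := by rw [q1, q2]; noncomm_ring
      rw [e1, e2]
    -- z = (Y X)²
    have hz3 : z = Y * X * (Y * X) := by
      calc z = z * ((Y * Y) * Y) := by rw [mul_assoc, hYY, mul_one]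
        _ = (z * Y) * (Y * Y) := by simp only [mul_assoc]
        _ = Y * z * (Y * Y) := by rw [hzY]
        _ = Y * X * (Y * X) * (Y * (Y * Y)) := by rw [hz2]; simp only [mul_assoc]
        _ = Y * X * (Y * X) := by rw [hYY, mul_one]
    have a2 : Y * X = z * (X * Y + X + Y + 1) := by
      have e1 : Y * X = z * ((X * X) * (Y * Y)) := by
        calc Y * X = Y * X * (Y * (X * (X * X)) * (Y * Y)) := by rw [hXX, mul_one, hYY, mul_one]
          _ = (Y * X * (Y * X)) * ((X * X) * (Y * Y)) := by simp only [mul_assoc]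
          _ = _ := by rw [← hz3]
      have e2 : (X * X) * (Y * Y) = X * Y + X + Y + 1 := by rw [q1, q2]; noncomm_ring
      rw [e1, e2]
    have a3 : (1 + z) * (X * Y - Y * X) = 0 := by
      have : (1 + z) * (X * Y - Y * X) = (X * Y - z * (Y * X + Y + X + 1)) - (Y * X - z * (X * Y + X + Y + 1)) := by
        noncomm_ring
      rw [this, ← a1, ← a2]; simp
    -- the kernel of `1 + z`
    have hker : ∀ c, ∀ v ∈ LinearMap.ker (1 + z), T c v ∈ LinearMap.ker (1 + z) := by
      intro c v hv
      rw [LinearMap.mem_ker] at hv ⊢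
      have e := LinearMap.congr_fun (hz c) v
      change z (T c v) = T c (z v) at e
      change T c v + z (T c v) = 0
      change v + z v = 0 at hv
      rw [e, ← map_add, hv, map_zero]
    have hz1 : z = -1 := by
      rcases hirr _ hker with hk | hk
      · exfalso
        apply hnc
        have : ∀ v, (X * Y - Y * X) v = 0 := by
          intro v
          have e : (1 + z) ((X * Y - Y * X) v) = 0 := LinearMap.congr_fun a3 v
          have e2 : (X * Y - Y * X) v ∈ LinearMap.ker (1 + z) := e
          rw [hk] at e2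
          exact e2
        exact sub_eq_zero.mp (LinearMap.ext this)
      · ext v
        have e : v ∈ LinearMap.ker (1 + z) := by rw [hk]; trivial
        rw [LinearMap.mem_ker] at e
        exact eq_neg_of_add_eq_zero_right e
    rw [hz1] at a1
    have : X * Y + Y * X = (X * Y - -1 * (Y * X + Y + X + 1)) + (- X - Y - 1) := by noncomm_ring
    rw [this, ← a1, sub_self, zero_add]
  have hcard : Fintype.card {x // x ≠ a ∧ x ≠ b} + 2 = Fintype.card α := by
    have : Fintype.card {x // x ≠ a ∧ x ≠ b} = (({a, b} : Finset α)ᶜ).card := by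
      apply Fintype.card_of_subtype
      intro x
      simp
    rw [this, Finset.card_compl, Finset.card_pair hab']
    omega
  refine cliff_bound h2 (ι := {x // x ≠ a ∧ x ≠ b}) (by rw [hcard]; exact hs)
    (fun x => (2 : k) • T (cyc a b x) + 1) ?_ ?_ h (by omega)
  · intro x
    have q := hq _ (cyc_three hab' x.2.1.symm x.2.2.symm)
    have e : ((2 : k) • T (cyc a b x) + 1) * ((2 : k) • T (cyc a b x) + 1) =
        (4 : k) • (T (cyc a b x) * T (cyc a b x)) + (4 : k) • T (cyc a b x) + 1 := by
      rw [add_mul, mul_add, mul_add, smul_mul_smul_comm, mul_one, one_mul, one_mul]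
      module
    rw [e, q]
    module
  · intro x y hxy
    have q := hrel x y x.2.1 x.2.2 y.2.1 y.2.2 (fun h => hxy (Subtype.ext h))
    have e : ((2 : k) • T (cyc a b x) + 1) * ((2 : k) • T (cyc a b y) + 1) +
        ((2 : k) • T (cyc a b y) + 1) * ((2 : k) • T (cyc a b x) + 1) =
        (4 : k) • (T (cyc a b x) * T (cyc a b y) + T (cyc a b y) * T (cyc a b x)) +
          (4 : k) • T (cyc a b x) + (4 : k) • T (cyc a b y) + (2 : k) • (1 : Module.End k V) := by
      simp only [add_mul, mul_add, smul_mul_smul_comm, mul_one, one_mul]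
      module
    rw [e, q]
    module

end

end H49.TF
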