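import Cfsg.Agent.Lib.H49.TF13

set_option autoImplicit false
set_option linter.unusedSectionVars false

/-! Base cases. -/

namespace H49.TF

open Equiv Equiv.Perm Module

universe u

section

variable {k : Type u} [Field k]

theorem P.of_star {t N : ℕ} (ht : 8 ≤ t) (hN : N + 2 ≤ t ∨ (((t : ℕ) : k) ≠ 0 ∧ N + 1 ≤ t))
    (H : ∀ (β : Type) [Fintype β] [DecidableEq β], Fintype.card β = t →
      ∀ (V : Type u) [AddCommGroup V] [Module k V] [FiniteDimensional k V] [Nontrivial V]
      (T : Perm β → Module.End k V), IsFam T → Irr T → finrank k V < N → (∃ c, T c ≠ 1) → Star T) : P k t N := by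
  refine P.of_irr (by omega) fun β _ _ hβ V _ _ _ _ T hT hirr hn => ?_
  by_contra hcon
  push Not at hcon
  have hS := H β hβ V T hT hirr hn hcon
  rcases hN with h | ⟨h1, h2⟩
  · have := bound_two hT hirr hS hcon (by omega)
    omega
  · have := bound_three hT hirr hS hcon (by omega) (by rw [hβ]; exact h1)
    omega

theorem star_of {α : Type} [Fintype α] [DecidableEq α] {V : Type u} [AddCommGroup V] [Module k V]
    {T : Perm α → Module.End k V}
    (h : ∀ c d : Perm α, c.IsThreeCycle → d.IsThreeCycle → c.Disjoint d → ∀ v : V, T c (T d v - v) = T d v - v) :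
    Star T := by
  rintro c d hc hd hcd _ ⟨v, rfl⟩
  exact h c d hc hd hcd v

/-- from the spaces of dimension one in characteristic three -/
theorem P_three (h3 : (3 : k) = 0) : P k 3 2 := by
  intro β _ _ hβ V _ _ _ T hT hd c
  rcases Nat.lt_or_ge (finrank k V) 1 with h0 | h1
  · haveI : Subsingleton V := by
      rw [← Module.finrank_zero_iff (R := k)]
      omega
    exact Subsingleton.elim _ _
  · obtain ⟨v, hv0, hv⟩ := finrank_eq_one_iff'.mp (by omega : finrank k V = 1)
    obtain ⟨a, ha⟩ := hv (T c v)
    have h := hT.ap3 c v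
    rw [← ha, map_smul, ← ha, map_smul, map_smul, ← ha, smul_smul, smul_smul] at h
    have h4 : (a * a * a - 1) • v = 0 := by
      rw [sub_smul, one_smul, sub_eq_zero]
      exact h
    have h5 : a * a * a - 1 = 0 := (smul_eq_zero.mp h4).resolve_right hv0
    have h6 : (a - 1) ^ 3 = 0 := by linear_combination h5 - (a ^ 2 - a) * h3
    have h7 : a = 1 := sub_eq_zero.mp (pow_eq_zero_iff (by norm_num) |>.mp h6)
    ext w
    obtain ⟨b, rfl⟩ := hv w
    rw [map_smul, ← ha, h7, one_smul]
    rfl

/-- `P` for degree eight, characteristic three -/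
theorem P_eight_three [IsAlgClosed k] (h3 : (3 : k) = 0) : P k 8 5 := by
  have h5 : (5 : k) ≠ 0 := by
    intro h5
    exact one_ne_zero (α := k) (by linear_combination 2 * h3 - h5)
  refine P.of_star (by norm_num) (Or.inl (by norm_num)) fun β _ _ hβ V _ _ _ _ T hT hirr hn _ => ?_
  exact star_of fun c d hc hd hcd v => star5 h5 (P_three h3) (by norm_num) (by omega) hT (by omega) hc hd hcd v

/-- variant of `star_core` using only the commutator space, characteristic not three -/
theorem star_core' [IsAlgClosed k] (h3 : (3 : k) ≠ 0) {N : ℕ} {β : Type} [Fintype β] [DecidableEq β]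
    (h5 : 5 ≤ Fintype.card β) (hP : P k (Fintype.card β) N)
    {V : Type u} [AddCommGroup V] [Module k V] [FiniteDimensional k V] {T : Perm β → Module.End k V}
    (hT : IsFam T) (X : Module.End k V) (hX : X ^ 3 = 1) (hc : ∀ c, T c * X = X * T c)
    (g : Module.End k V) (hg : IsUnit g) (hgX : g * X = X ^ 2 * g)
    (hn : finrank k (LinearMap.range (X - 1)) < 2 * N)
    (c : Perm β) (v : V) : T c (X v - v) = X v - v := by
  have hX3 : ∀ v, X (X (X v)) = v := fun v => LinearMap.congr_fun hX v
  have hc' : ∀ c v, T c (X v) = X (T c v) := fun c v => LinearMap.congr_fun (hc c) v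
  have hgX' : ∀ v, g (X v) = X (X (g v)) := fun v => LinearMap.congr_fun hgX v
  set U := LinearMap.range (X - 1) with hU
  have hUX : ∀ v ∈ U, X v ∈ U := by
    rintro _ ⟨w, rfl⟩
    exact ⟨X w, by rw [LinearMap.sub_apply, LinearMap.sub_apply, map_sub]; rfl⟩
  have hUT : ∀ c, ∀ v ∈ U, T c v ∈ U := by
    rintro c _ ⟨w, rfl⟩
    refine ⟨T c w, ?_⟩
    rw [LinearMap.sub_apply, LinearMap.sub_apply, map_sub, hc']; rfl
  have hUg : ∀ v ∈ U, g v ∈ U := by
    rintro _ ⟨w, rfl⟩
    refine ⟨X (g w) + g w, ?_⟩
    rw [LinearMap.sub_apply, LinearMap.sub_apply, map_sub, hgX']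
    change X (X (g w) + g w) - (X (g w) + g w) = X (X (g w)) - g w
    rw [map_add]; abel
  have hgi : Function.Injective (g.restrict hUg) := by
    intro a b hab
    exact Subtype.ext (unit_injective hg (congrArg Subtype.val hab))
  have hgu : IsUnit (g.restrict hUg) := (Module.End.isUnit_iff _).mpr
    ⟨hgi, LinearMap.injective_iff_surjective.mp hgi⟩
  have key := star_core h5 hP (hT.res U hUT) (X.restrict hUX) (by
      ext w; exact hX3 w) (fun c => by ext w; exact hc' c w) (g.restrict hUg) hgu (by ext w; exact hgX' w) hn c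
  have h6 : ∀ w ∈ U, T c (X w - w) = X w - w := by
    intro w hw
    exact congrArg Subtype.val (key ⟨w, hw⟩)
  -- `(X - 1)` is bijective on `U` in characteristic not three
  set w := X v - v with hw
  have hwU : w ∈ U := ⟨v, rfl⟩
  have hww : X (X w) = - X w - w := by
    rw [hw, map_sub, map_sub, hX3]; abel
  have e1 := h6 (X w) (hUX w hwU)
  have e2 := h6 w hwU
  rw [hww] at e1
  have e3 : T c ((3 : k) • w) = (3 : k) • w := by
    have e4 : (3 : k) • w = (-1 : k) • (- X w - w - X w) - (2 : k) • (X w - w) := by module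
    rw [e4, map_sub, map_smul, map_smul, e1, e2]
  rw [map_smul] at e3
  exact smul_right_injective V h3 e3

/-- disjoint three-cycles, using only the commutator space -/
theorem star3' [IsAlgClosed k] (h3 : (3 : k) ≠ 0) {t N : ℕ} (hP : P k t N) (ht : 5 ≤ t) {α : Type} [Fintype α]
    [DecidableEq α]
    (hα : t + 3 ≤ Fintype.card α) {V : Type u} [AddCommGroup V] [Module k V] [FiniteDimensional k V]
    {T : Perm α → Module.End k V} (hT : IsFam T) {c d : Perm α} (hn : finrank k (cs T d) < 2 * N)
    (hd : d.IsThreeCycle) (hcd : c.Disjoint d) (v : V) : T c (T d v - v) = T d v - v := by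
  obtain ⟨σ, hσ, hσd⟩ := exists_inverter (by omega : 5 ≤ Fintype.card α) hd
  obtain ⟨g, -, hg, hgT⟩ := hT.exists_lift_alt hσ
  obtain ⟨p, hp⟩ : ∃ p : α → Prop, ∀ x, p x ↔ x ∈ (d.supportᶜ : Finset α) := ⟨_, fun _ => Iff.rfl⟩
  haveI : DecidablePred p := Classical.decPred p
  have hcard : Fintype.card {x // p x} = Fintype.card α - 3 := by
    rw [Fintype.card_of_subtype d.supportᶜ (fun x => (hp x).symm), Finset.card_compl, hd.card_support]
  obtain ⟨c', rfl⟩ := exists_ofSubtype (p := p) (c := c) (fun x hx => by
    rw [hp, Finset.mem_compl, mem_support, not_not]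
    exact (hcd x).resolve_left hx)
  have hdis : ∀ c' : Perm {x // p x}, (ofSubtype c').Disjoint d := by
    intro c' x
    by_cases hx : p x
    · right
      rw [hp, Finset.mem_compl, mem_support, not_not] at hx
      exact hx
    · left
      exact ofSubtype_apply_of_not_mem c' hx
  refine star_core' h3 (β := {x // p x}) (by omega) (hP.mono_left (by omega) (by omega)) (hT.sub p) (T d) (hT.cube d)
    (fun c => hT.commute_of_disjoint (hdis c)) g hg ?_ hn c' v
  rw [hgT, hσd, hT.inv]

/-- `P` for degree eight, characteristic not two, three -/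
theorem P_eight [IsAlgClosed k] (h2 : (2 : k) ≠ 0) (h3 : (3 : k) ≠ 0) : P k 8 5 := by
  refine P.of_star (by norm_num) (Or.inl (by norm_num)) fun β _ _ hβ V _ _ _ _ T hT hirr hn hne => ?_
  by_cases hlt : finrank k V < 4
  · exfalso
    obtain ⟨c, hc⟩ := hne
    exact hc ((P_six h3).mono_left (by norm_num) (by norm_num : 6 ≤ 8) β hβ V T hT hlt c)
  · have hn4 : finrank k V = 4 := by omega
    by_cases hcs : ∃ d : Perm β, d.IsThreeCycle ∧ finrank k (cs T d) = 4
    · exfalso
      obtain ⟨d, hd, hd4⟩ := hcs
      have hq : ∀ c : Perm β, c.IsThreeCycle → T c * T c = - T c - 1 := by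
        intro c hc
        have h1 : finrank k (cs T c) = 4 := by rw [← hd4, hT.finrank_cs (by omega) hc hd]
        have h4 : cs T c = ⊤ := Submodule.eq_top_of_finrank_eq (by rw [h1, hn4])
        ext v
        have hv : v ∈ cs T c := by rw [h4]; trivial
        change T c (T c v) = - T c v - v
        rw [hT.quad hv]; abel
      have h8 : ((Fintype.card β : ℕ) : k) ≠ 0 := by
        rw [hβ]
        have : ((8 : ℕ) : k) = 2 ^ 3 := by norm_num
        rw [this]
        exact pow_ne_zero _ h2
      have := spin_bound h2 h8 hT hirr hne (by omega) hq 3 (by omega)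
      omega
    · push Not at hcs
      refine star_of fun c d hc hd hcd v => star3' h3 P_five (by norm_num) (by omega) hT ?_ hd hcd v
      have h1 := hcs d hd
      have h4 := Submodule.finrank_le (cs T d)
      omega

/-- `P` for degree nine -/
theorem P_nine [IsAlgClosed k] (h3 : (3 : k) ≠ 0) : P k 9 8 := by
  refine P.of_star (by norm_num) (Or.inr ⟨?_, by norm_num⟩) fun β _ _ hβ V _ _ _ _ T hT hirr hn hne => ?_
  · have : ((9 : ℕ) : k) = 3 * 3 := by norm_num
    rw [this]
    exact mul_ne_zero h3 h3
  · exact star_of fun c d hc hd hcd v => star3 (P_six h3) (by norm_num) (by omega) hT (by omega) hd hcd v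

theorem P_nine_three [IsAlgClosed k] (h3 : (3 : k) = 0) : P k 9 7 := by
  have h5 : (5 : k) ≠ 0 := by
    intro h5
    exact one_ne_zero (α := k) (by linear_combination 2 * h3 - h5)
  refine P.of_star (by norm_num) (Or.inl (by norm_num)) fun β _ _ hβ V _ _ _ _ T hT hirr hn _ => ?_
  exact star_of fun c d hc hd hcd v => star5 h5 ((P_three h3).mono_left (by norm_num) (by norm_num : 3 ≤ 4))
    (by norm_num) (by omega) hT (by omega) hc hd hcd v

/-- `P` for degree eleven (weak form: Star) -/
theorem star_eleven [IsAlgClosed k] {β : Type} [Fintype β] [DecidableEq β] (hβ : Fintype.card β = 11)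
    {V : Type u} [AddCommGroup V] [Module k V] [FiniteDimensional k V] {T : Perm β → Module.End k V} (hT : IsFam T)
    (hn : finrank k V < 10) : Star T := by
  by_cases h3 : (3 : k) = 0
  · exact star_of fun c d hc hd hcd v => star3 (P_eight_three h3) (by norm_num) (by omega) hT (by omega) hd hcd v
  by_cases h5 : (5 : k) = 0
  · have h2 : (2 : k) ≠ 0 := by
      intro h2
      exact one_ne_zero (α := k) (by linear_combination h5 - 2 * h2)
    exact star_of fun c d hc hd hcd v => star3 (P_eight h2 h3) (by norm_num) (by omega) hT (by omega) hd hcd v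
  · exact star_of fun c d hc hd hcd v => star5 h5 (P_six h3) (by norm_num) (by omega) hT (by omega) hc hd hcd v

end

end H49.TF
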