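import Cfsg.Agent.Lib.H49.TF14

set_option autoImplicit false
set_option linter.unusedSectionVars false

/-! Degree ten and the main bound. -/

namespace H49.TF

open Equiv Equiv.Perm Module

universe u

section

variable {k : Type u} [Field k]

/-- Cayley-Hamilton in dimension two -/
theorem ch2 {U : Type*} [AddCommGroup U] [Module k U] [FiniteDimensional k U] (h : finrank k U = 2)
    (f : Module.End k U) : f * f = (LinearMap.trace k U f) • f - (LinearMap.det f) • (1 : Module.End k U) := by
  let b : Basis (Fin 2) k U := finBasisOfFinrankEq k U h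
  apply (LinearMap.toMatrixAlgEquiv b).injective
  rw [map_mul, map_sub, map_smul, map_smul, map_one, LinearMap.trace_eq_matrix_trace k b f, ← LinearMap.det_toMatrix b f]
  change LinearMap.toMatrix b b f * LinearMap.toMatrix b b f = (LinearMap.toMatrix b b f).trace •
    LinearMap.toMatrix b b f - (LinearMap.toMatrix b b f).det • (1 : Matrix (Fin 2) (Fin 2) k)
  generalize LinearMap.toMatrix b b f = M
  ext i j
  rw [Matrix.mul_apply, Matrix.sub_apply, Matrix.smul_apply, Matrix.smul_apply, Matrix.trace_fin_two,
    Matrix.det_fin_two, Fin.sum_univ_two, Matrix.one_apply]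
  fin_cases i <;> fin_cases j <;> simp <;> ring

/-- families in dimension two -/
theorem two_dim {β : Type*} [Fintype β] [DecidableEq β] (h5 : 5 ≤ Fintype.card β) {U : Type*} [AddCommGroup U]
    [Module k U] [FiniteDimensional k U] (h : finrank k U = 2) {F : Perm β → Module.End k U} (hF : IsFam F)
    (c : Perm β) : F c = 1 ∨ F c * F c = - F c - 1 := by
  obtain ⟨a, b, x, y, z, hn⟩ := exists_five h5
  have hdet := (hF.map LinearMap.det).trivial_of_commute hn (mul_comm _ _) c
  change LinearMap.det (F c) = 1 at hdet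
  have hch := ch2 h (F c)
  rw [hdet, one_smul] at hch
  set τ := LinearMap.trace k U (F c)
  have h3 : F c * (F c * F c) = 1 := by rw [← pow_two, ← pow_succ']; exact hF.cube c
  haveI : Nontrivial U := Module.nontrivial_of_finrank_pos (R := k) (by omega)
  have h4 : (τ + 1) • ((τ - 1) • F c - 1) = 0 := by
    have e1 : F c * (F c * F c) = (τ ^ 2 - 1) • F c - τ • (1 : Module.End k U) := by
      rw [hch, mul_sub, mul_smul_comm, mul_one, hch]
      module
    rw [h3] at e1
    have e2 : (τ + 1) • ((τ - 1) • F c - 1) = ((τ ^ 2 - 1) • F c - τ • (1 : Module.End k U)) - 1 := by module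
    rw [e2, ← e1, sub_self]
  rcases smul_eq_zero.mp h4 with h | h
  · right
    have hτ : τ = -1 := eq_neg_of_add_eq_zero_left h
    rw [hch, hτ]; module
  · left
    have hτ : τ - 1 ≠ 0 := by
      intro h0
      rw [h0, zero_smul, zero_sub, neg_eq_zero] at h
      exact one_ne_zero h
    have e1 : F c = (τ - 1)⁻¹ • (1 : Module.End k U) := by
      rw [sub_eq_zero] at h
      rw [← h, smul_smul, inv_mul_cancel₀ hτ, one_smul]
    set μ := (τ - 1)⁻¹
    have e2 : μ ^ 2 = 1 := by
      rw [e1, LinearMap.det_smul, ‹finrank k U = 2›] at hdet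
      simpa using hdet
    have e3 : μ ^ 3 = 1 := by
      rw [e1, smul_mul_smul_comm, smul_mul_smul_comm, one_mul, one_mul] at h3
      have : (μ * (μ * μ) - 1) • (1 : Module.End k U) = 0 := by rw [sub_smul, h3, one_smul, sub_self]
      have := (smul_eq_zero.mp this).resolve_right one_ne_zero
      linear_combination this
    have e4 : μ = 1 := by linear_combination e3 - μ * e2
    rw [e1, e4, one_smul]

theorem IsFam.quad_conj {α : Type*} [Fintype α] [DecidableEq α] {V : Type*} [AddCommGroup V] [Module k V]
    {T : Perm α → Module.End k V} (hT : IsFam T) (h5 : 5 ≤ Fintype.card α) {c₀ : Perm α} (hc₀ : c₀.IsThreeCycle)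
    (h : T c₀ * T c₀ = - T c₀ - 1) {c : Perm α} (hc : c.IsThreeCycle) : T c * T c = - T c - 1 := by
  obtain ⟨x, y, z, hxy, hxz, hyz, rfl⟩ := exists_cyc hc₀
  obtain ⟨x', y', z', hxy', hxz', hyz', rfl⟩ := exists_cyc hc
  obtain ⟨σ, hσ, hσ'⟩ := exists_alt (l := [x, y, z]) (l' := [x', y', z'])
    (by simp [hxy, hxz, hyz]) (by simp [hxy', hxz', hyz']) rfl (by simpa using h5)
  simp only [List.map_cons, List.map_nil, List.cons.injEq, and_true] at hσ'
  obtain ⟨s1, s2, s3⟩ := hσ'
  obtain ⟨g, -, hg, hgT⟩ := hT.exists_lift_alt hσ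
  have e := hgT (cyc x y z)
  rw [conj_cyc, s1, s2, s3] at e
  apply hg.mul_right_cancel
  calc T (cyc x' y' z') * T (cyc x' y' z') * g = g * (T (cyc x y z) * T (cyc x y z)) := by
        rw [mul_assoc, ← e, ← mul_assoc, ← e, mul_assoc]
    _ = g * (- T (cyc x y z) - 1) := by rw [h]
    _ = - (g * T (cyc x y z)) - g := by noncomm_ring
    _ = (- T (cyc x' y' z') - 1) * g := by rw [e]; noncomm_ring

/-- `P` for degree ten -/
theorem P_ten [IsAlgClosed k] (h2 : (2 : k) ≠ 0) (h5 : (5 : k) ≠ 0) : P k 10 9 := by
  have h10 : ((10 : ℕ) : k) ≠ 0 := by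
    have : ((10 : ℕ) : k) = 2 * 5 := by norm_num
    rw [this]
    exact mul_ne_zero h2 h5
  refine P.of_star (by norm_num) (Or.inr ⟨h10, by norm_num⟩) fun β _ _ hβ V _ _ _ _ T hT hirr hn hne => ?_
  obtain ⟨ζ, hζ⟩ := exists_zeta (k := k)
  by_cases hN : ∀ x y z r s p q : β, [x, y, z, r, s, p, q].Nodup →
      finrank k (((T (cyc r s x) * T (cyc x y z)) ^ 6).eigenspace ζ) < 2
  · exact star_of fun c d hc hd hcd v => star5_core h5 hζ P_five (by norm_num) (by omega) hT hN hc hd hcd v
  exfalso
  push Not at hN
  obtain ⟨x, y, z, r, s, p, q, hn7, h2m⟩ := hN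
  obtain ⟨hA5, θ, hθ, hθA⟩ := five_setup hT hn7
  obtain ⟨hinj, hall, hle, hsup⟩ := five_core h5 _ θ hA5 hθ hθA hζ
  set f : Module.End k V := (T (cyc r s x) * T (cyc x y z)) ^ 6 with hf
  have hV : finrank k V = 8 := by omega
  have hm : finrank k (f.eigenspace ζ) = 2 := by omega
  have hζ5 : ζ ^ 5 = 1 := by linear_combination (ζ - 1) * hζ
  have hζ1 : ζ ≠ 1 := by
    rintro rfl
    apply h5
    linear_combination hζ
  have hζ0 : ζ ≠ 0 := by rintro rfl; simp at hζ
  have hne1 : ∀ i : Fin 4, ζ ^ (i.val + 1) ≠ 1 := by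
    haveI : Fact (Nat.Prime 5) := ⟨by norm_num⟩
    have ho : orderOf ζ = 5 := orderOf_eq_prime hζ5 hζ1
    intro i hi
    have := orderOf_dvd_of_pow_eq_one hi
    rw [ho] at this
    have := Nat.le_of_dvd (by omega) this
    omega
  -- no fixed vectors
  have hfix : f.eigenspace 1 = ⊥ := by
    have hinj' : Function.Injective (fun o : Option (Fin 4) => o.elim (1 : k) (fun i => ζ ^ (i.val + 1))) := by
      intro a b hab
      cases a with
      | none =>
        cases b with
        | none => rfl
        | some j => exact absurd hab.symm (hne1 j)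
      | some i =>
        cases b with
        | none => exact absurd hab (hne1 i)
        | some j => exact congrArg some (hinj hab)
    have := sum_finrank_le (fun o : Option (Fin 4) => f.eigenspace (o.elim (1 : k) (fun i => ζ ^ (i.val + 1))))
      (f.eigenspaces_iSupIndep.comp hinj')
    rw [Fintype.sum_option] at this
    have this' : finrank k (f.eigenspace 1) + ∑ i : Fin 4, finrank k (f.eigenspace (ζ ^ (i.val + 1))) ≤
      finrank k V := this
    have e8 : ∑ i : Fin 4, finrank k (f.eigenspace (ζ ^ (i.val + 1))) = 8 := by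
      rw [Finset.sum_congr rfl (fun i _ => hall i), Finset.sum_const, Finset.card_univ, Fintype.card_fin,
        smul_eq_mul, hm]
    exact Submodule.finrank_eq_zero.mp (by omega)
  have hfix' : ∀ x' y' z' r' s' p' q' : β, [x', y', z', r', s', p', q'].Nodup →
      ((T (cyc r' s' x') * T (cyc x' y' z')) ^ 6).eigenspace 1 = ⊥ := by
    intro x' y' z' r' s' p' q' hn'
    obtain ⟨σ, hσ, hσ'⟩ := exists_alt hn7 hn' rfl (by simp; omega)
    simp only [List.map_cons, List.map_nil, List.cons.injEq, and_true] at hσ'
    obtain ⟨s1, s2, s3, s4, s5, s6, s7⟩ := hσ'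
    obtain ⟨g, -, hg, hgT⟩ := hT.exists_lift_alt hσ
    have e1 := hgT (cyc r s x)
    have e2 := hgT (cyc x y z)
    rw [conj_cyc, s4, s5, s1] at e1
    rw [conj_cyc, s1, s2, s3] at e2
    have e3 : g * (T (cyc r s x) * T (cyc x y z)) = (T (cyc r' s' x') * T (cyc x' y' z')) * g := by
      rw [← mul_assoc, e1, mul_assoc, e2, mul_assoc]
    have e4 : ∀ m : ℕ, g * (T (cyc r s x) * T (cyc x y z)) ^ m = (T (cyc r' s' x') * T (cyc x' y' z')) ^ m * g := by
      intro m
      induction m with
      | zero => rw [pow_zero, pow_zero, one_mul, mul_one]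
      | succ m ih => rw [pow_succ, ← mul_assoc, ih, mul_assoc, e3, ← mul_assoc, ← pow_succ]
    rw [Submodule.eq_bot_iff]
    intro w hw
    rw [Module.End.mem_eigenspace_iff, one_smul] at hw
    obtain ⟨v, rfl⟩ : ∃ v, g v = w := by
      obtain ⟨gu, rfl⟩ := hg
      refine ⟨(gu⁻¹ : (Module.End k V)ˣ).1 w, ?_⟩
      change (gu.1 * (gu⁻¹ : (Module.End k V)ˣ).1) w = w
      rw [Units.mul_inv]; rfl
    have e5 := LinearMap.congr_fun (e4 6) v
    change g (f v) = _ at e5
    rw [Module.End.mul_apply, hw] at e5
    have e6 := unit_injective hg e5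
    have e7 : v ∈ f.eigenspace 1 := by rw [Module.End.mem_eigenspace_iff, one_smul, e6]
    rw [hfix, Submodule.mem_bot] at e7
    rw [e7, map_zero]
  -- the sum of the eigenspaces is everything
  have htop : (⨆ i : Fin 4, f.eigenspace (ζ ^ (i.val + 1))) = ⊤ := by
    rw [eq_top_iff]
    intro w _
    have hinj2 : Function.Injective (f - 1 : Module.End k V) := by
      rw [← LinearMap.ker_eq_bot, Submodule.eq_bot_iff]
      intro v hv
      rw [LinearMap.mem_ker, LinearMap.sub_apply, sub_eq_zero] at hv
      have e7 : v ∈ f.eigenspace 1 := by rw [Module.End.mem_eigenspace_iff, one_smul]; exact hv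
      rw [hfix, Submodule.mem_bot] at e7
      exact e7
    obtain ⟨v, hv⟩ := LinearMap.injective_iff_surjective.mp hinj2 ((5 : k)⁻¹ • w)
    have := hsup v
    rw [LinearMap.sub_apply] at hv
    change f v - v = _ at hv
    rwa [hv, smul_smul, mul_inv_cancel₀ h5, one_smul] at this
  -- the complement
  obtain ⟨l, hl1, hl2⟩ := exists_extend _ hn7 3 (by simp; omega)
  match l, hl1 with
  | [a, b, c], _ =>
  have hperm : List.Perm ([x, y, z, r, s, p, q] ++ [a, b, c]) ([p, q, a, b, c] ++ [x, y, z, r, s]) := by
    have : [x, y, z, r, s, p, q] ++ [a, b, c] = [x, y, z, r, s] ++ [p, q, a, b, c] := rfl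
    rw [this]
    exact List.perm_append_comm
  have hl3 := hperm.nodup_iff.mp hl2
  have hn5 : [p, q, a, b, c].Nodup := (List.nodup_append.mp hl3).1
  let e : Fin 5 ↪ β := ⟨fun i => [p, q, a, b, c].get i, List.nodup_iff_injective_get.mp hn5⟩
  have hn7' : [p, q, a, b, c, x, y].Nodup := by
    have : ([p, q, a, b, c, x, y] ++ [z, r, s]).Nodup := hl3
    exact (List.nodup_append.mp this).1
  have hdisp : ∀ t ∈ [x, y, z, r, s], t ∉ Set.range e := by
    intro t ht
    rintro ⟨i, rfl⟩
    exact (List.nodup_append.mp hl3).2.2 _ (List.get_mem [p, q, a, b, c] i) _ ht rfl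
  have hcomm : ∀ c' : Perm (Fin 5), T (viaEmbeddingHom e c') * f = f * T (viaEmbeddingHom e c') := by
    intro c'
    have hfixp : ∀ t ∈ [x, y, z, r, s], viaEmbeddingHom e c' t = t := by
      intro t ht
      rw [viaEmbeddingHom_apply, viaEmbedding_apply_of_notMem _ _ _ (hdisp t ht)]
    have e1 : T (viaEmbeddingHom e c') * T (cyc r s x) = T (cyc r s x) * T (viaEmbeddingHom e c') :=
      hT.commute_of_disjoint (by
        intro t
        by_cases h : cyc r s x t = t
        · exact Or.inr h
        · left
          apply hfixp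
          rcases support_cyc t h with rfl | rfl | rfl <;> simp)
    have e2 : T (viaEmbeddingHom e c') * T (cyc x y z) = T (cyc x y z) * T (viaEmbeddingHom e c') :=
      hT.commute_of_disjoint (by
        intro t
        by_cases h : cyc x y z t = t
        · exact Or.inr h
        · left
          apply hfixp
          rcases support_cyc t h with rfl | rfl | rfl <;> simp)
    have e3 : Commute (T (viaEmbeddingHom e c')) (T (cyc r s x) * T (cyc x y z)) := Commute.mul_right e1 e2
    exact (e3.pow_right 6).eq
  have c012 : viaEmbeddingHom e (cyc 0 1 2) = cyc p q a := emb_cyc e 0 1 2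
  have c340 : viaEmbeddingHom e (cyc 3 4 0) = cyc b c p := emb_cyc e 3 4 0
  have hquadE : ∀ i : Fin 4, ∀ v ∈ f.eigenspace (ζ ^ (i.val + 1)),
      T (cyc p q a) (T (cyc p q a) v) = - T (cyc p q a) v - v := by
    intro i
    set E := f.eigenspace (ζ ^ (i.val + 1)) with hE
    have hEst : ∀ c' : Perm (Fin 5), ∀ v ∈ E, T (viaEmbeddingHom e c') v ∈ E := by
      intro c' v hv
      rw [hE, Module.End.mem_eigenspace_iff] at hv ⊢
      have := LinearMap.congr_fun (hcomm c') v
      rw [Module.End.mul_apply, Module.End.mul_apply] at this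
      rw [← this, hv, map_smul]
    have hF := (hT.emb e).res E hEst
    have hE2 : finrank k E = 2 := by rw [hE, hall i, hm]
    rcases two_dim (by simp) hE2 hF (cyc 0 1 2) with h1 | h1
    · exfalso
      have hall1 := hF.trivial_of_one (by simp) (cyc_three (by decide) (by decide) (by decide)) h1
      have t1 : ∀ v ∈ E, T (cyc p q a) v = v := by
        intro v hv
        have := congrArg (fun f => ((f ⟨v, hv⟩ : E) : V)) (hall1 (cyc 0 1 2))
        change T (viaEmbeddingHom e (cyc 0 1 2)) v = v at this
        rwa [c012] at this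
      have t2 : ∀ v ∈ E, T (cyc b c p) v = v := by
        intro v hv
        have := congrArg (fun f => ((f ⟨v, hv⟩ : E) : V)) (hall1 (cyc 3 4 0))
        change T (viaEmbeddingHom e (cyc 3 4 0)) v = v at this
        rwa [c340] at this
      have hb := hfix' p q a b c x y hn7'
      have hle' : E ≤ ((T (cyc b c p) * T (cyc p q a)) ^ 6).eigenspace 1 := by
        intro v hv
        rw [Module.End.mem_eigenspace_iff, one_smul]
        have : ∀ m : ℕ, ((T (cyc b c p) * T (cyc p q a)) ^ m) v = v := by
          intro m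
          induction m with
          | zero => rfl
          | succ m ih =>
            rw [pow_succ]
            change ((T (cyc b c p) * T (cyc p q a)) ^ m) (T (cyc b c p) (T (cyc p q a) v)) = v
            rw [t1 v hv, t2 v hv, ih]
        exact this 6
      rw [hb, le_bot_iff] at hle'
      rw [hle', finrank_bot] at hE2
      omega
    · intro v hv
      have := congrArg (fun f => ((f ⟨v, hv⟩ : E) : V)) h1
      change T (viaEmbeddingHom e (cyc 0 1 2)) (T (viaEmbeddingHom e (cyc 0 1 2)) v) =
        - T (viaEmbeddingHom e (cyc 0 1 2)) v - v at this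
      rwa [c012] at this
  have hquad0 : T (cyc p q a) * T (cyc p q a) = - T (cyc p q a) - 1 := by
    have : (⨆ i : Fin 4, f.eigenspace (ζ ^ (i.val + 1))) ≤
        LinearMap.ker (T (cyc p q a) * T (cyc p q a) + T (cyc p q a) + 1) := by
      refine iSup_le fun i v hv => ?_
      rw [LinearMap.mem_ker]
      change T (cyc p q a) (T (cyc p q a) v) + T (cyc p q a) v + v = 0
      rw [hquadE i v hv]; abel
    rw [htop] at this
    have h0 : T (cyc p q a) * T (cyc p q a) + T (cyc p q a) + 1 = 0 := by
      ext v
      exact this (Submodule.mem_top : v ∈ ⊤)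
    have e1 : T (cyc p q a) * T (cyc p q a) = (T (cyc p q a) * T (cyc p q a) + T (cyc p q a) + 1) +
      (- T (cyc p q a) - 1) := by abel
    rw [e1, h0, zero_add]
  have hpq3 : (cyc p q a).IsThreeCycle := by
    rw [← c012]
    exact (emb_three e _).mpr (cyc_three (by decide) (by decide) (by decide))
  have hq : ∀ c : Perm β, c.IsThreeCycle → T c * T c = - T c - 1 := fun c hc =>
    hT.quad_conj (by omega) hpq3 hquad0 hc
  have := spin_bound h2 (by rw [hβ]; exact h10) hT hirr hne (by omega) hq 4 (by omega)
  omega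

/-- the main bound -/
theorem main_P [IsAlgClosed k] (p : ℕ) [hp : Fact p.Prime] [CharP k p] (s : ℕ) (hs : 9 ≤ s) :
    P k s (s - 1 - (if p ∣ s then 1 else 0)) := by
  have hcast : ∀ n : ℕ, ((n : ℕ) : k) = 0 ↔ p ∣ n := fun n => CharP.cast_eq_zero_iff k p n
  have of_star : ∀ t : ℕ, 8 ≤ t → (∀ (β : Type) [Fintype β] [DecidableEq β], Fintype.card β = t →
      ∀ (V : Type u) [AddCommGroup V] [Module k V] [FiniteDimensional k V] [Nontrivial V]
      (T : Perm β → Module.End k V), IsFam T → Irr T → finrank k V < (t - 1 - (if p ∣ t then 1 else 0)) →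
        (∃ c, T c ≠ 1) → Star T) → P k t (t - 1 - (if p ∣ t then 1 else 0)) := by
    intro t ht H
    refine P.of_star ht ?_ H
    split_ifs with h
    · left; omega
    · right
      exact ⟨fun h' => h ((hcast t).mp h'), by omega⟩
  induction s using Nat.strong_induction_on with
  | _ s ih =>
  rcases Nat.lt_or_ge s 12 with h12 | h12
  · have hcases : s = 9 ∨ s = 10 ∨ s = 11 := by omega
    rcases hcases with rfl | rfl | rfl
    · by_cases h3 : (3 : k) = 0
      · have : p ∣ 9 := by
          rw [← hcast]
          have : ((9 : ℕ) : k) = 3 * 3 := by norm_num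
          rw [this, h3, zero_mul]
        rw [if_pos this]
        exact P_nine_three h3
      · exact (P_nine h3).mono (by omega)
    · by_cases h2 : (2 : k) = 0
      · have h10 : p ∣ 10 := by
          rw [← hcast]
          have : ((10 : ℕ) : k) = 2 * 5 := by norm_num
          rw [this, h2, zero_mul]
        rw [if_pos h10]
        have h3 : (3 : k) ≠ 0 := by
          intro h3
          exact one_ne_zero (α := k) (by linear_combination h3 - h2)
        exact (P_nine h3).mono_left (by norm_num) (by norm_num)
      · by_cases h5 : (5 : k) = 0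
        · have h10 : p ∣ 10 := by
            rw [← hcast]
            have : ((10 : ℕ) : k) = 2 * 5 := by norm_num
            rw [this, h5, mul_zero]
          rw [if_pos h10]
          have h3 : (3 : k) ≠ 0 := by
            intro h3
            exact one_ne_zero (α := k) (by linear_combination 2 * h3 - h5)
          exact (P_nine h3).mono_left (by norm_num) (by norm_num)
        · exact (P_ten h2 h5).mono (by omega)
    · refine of_star 11 (by norm_num) fun β _ _ hβ V _ _ _ _ T hT hirr hn hne => ?_
      exact star_eleven hβ hT (by split_ifs at hn <;> omega)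
  · refine of_star s (by omega) fun β _ _ hβ V _ _ _ _ T hT hirr hn hne => ?_
    have hPs := ih (s - 3) (by omega) (by omega)
    refine star_of fun c d hc hd hcd v => star3 hPs (by omega) (by omega) hT ?_ hd hcd v
    split_ifs at hn ⊢ <;> omega

end

end H49.TF
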