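import Cfsg.Agent.Lib.H49.TF1

set_option autoImplicit false
set_option linter.unusedSectionVars false

/-! Families of lifts of three-cycles acting on vector spaces. -/

namespace H49.TF

open Equiv Equiv.Perm Module

universe u

section Stab

variable {k V : Type*} [Field k] [AddCommGroup V] [Module k V]

/-- endomorphisms stabilising a subspace -/
def Stab (U : Submodule k V) : Submonoid (Module.End k V) where
  carrier := {f | ∀ v ∈ U, f v ∈ U}
  mul_mem' := fun {f g} hf hg v hv => hf _ (hg v hv)
  one_mem' := fun v hv => hv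

/-- restriction to a subspace -/
def res (U : Submodule k V) : Stab U →* Module.End k U where
  toFun f := f.1.restrict f.2
  map_one' := by ext; rfl
  map_mul' f g := by ext; rfl

/-- action on the quotient -/
def quo (U : Submodule k V) : Stab U →* Module.End k (V ⧸ U) where
  toFun f := U.mapQ U f.1 f.2
  map_one' := Submodule.linearMap_qext _ (by ext; rfl)
  map_mul' f g := Submodule.linearMap_qext _ (by ext; rfl)

theorem res_apply (U : Submodule k V) (f : Stab U) (v : U) : ((res U f v : U) : V) = f.1 v := rfl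

theorem quo_apply (U : Submodule k V) (f : Stab U) (v : V) :
    quo U f (Submodule.Quotient.mk v) = Submodule.Quotient.mk (f.1 v) := rfl

end Stab

section

variable {α : Type*} [Fintype α] [DecidableEq α]

theorem IsFam.codRestrict {R : Type*} [Monoid R] {T : Perm α → R} (h : IsFam T) (S : Submonoid R)
    (hS : ∀ c, T c ∈ S) : IsFam (fun c => (⟨T c, hS c⟩ : S)) where
  triv c hc := Subtype.ext (h.triv c hc)
  cube c := Subtype.ext (h.cube c)
  inv c := Subtype.ext (h.inv c)
  conj c d hc := Subtype.ext (h.conj c d hc)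

variable {k V : Type*} [Field k] [AddCommGroup V] [Module k V]

/-- family on a subspace -/
theorem IsFam.res {T : Perm α → Module.End k V} (h : IsFam T) (U : Submodule k V)
    (hU : ∀ c, ∀ v ∈ U, T c v ∈ U) : IsFam (fun c => TF.res U ⟨T c, hU c⟩) :=
  (h.codRestrict (Stab U) hU).map (TF.res U)

/-- family on a quotient -/
theorem IsFam.quo {T : Perm α → Module.End k V} (h : IsFam T) (U : Submodule k V)
    (hU : ∀ c, ∀ v ∈ U, T c v ∈ U) : IsFam (fun c => TF.quo U ⟨T c, hU c⟩) :=
  (h.codRestrict (Stab U) hU).map (TF.quo U)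

theorem exists_five (h5 : 5 ≤ Fintype.card α) : ∃ a b x y z : α, [a, b, x, y, z].Nodup := by
  obtain ⟨l, hl1, hl2⟩ := exists_extend ([] : List α) List.nodup_nil 5 (by simpa using h5)
  rw [List.nil_append] at hl2
  match l, hl1 with
  | [a, b, x, y, z], _ => exact ⟨a, b, x, y, z, hl2⟩

/-- a family trivial on a subspace and on the quotient is trivial -/
theorem IsFam.trivial_of_ext {T : Perm α → Module.End k V} (h : IsFam T) (h5 : 5 ≤ Fintype.card α)
    (U : Submodule k V) (h1 : ∀ c, ∀ v ∈ U, T c v = v) (h2 : ∀ c v, T c v - v ∈ U) (c : Perm α) : T c = 1 := by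
  obtain ⟨a, b, x, y, z, hn⟩ := exists_five h5
  refine h.trivial_of_commute hn ?_ c
  ext v
  have e : ∀ c d, T c (T d v) = T c v + (T d v - v) := by
    intro c d
    have : T d v = v + (T d v - v) := by abel
    rw [this, map_add, h1 c _ (h2 d v)]
    abel
  change T _ (T _ v) = T _ (T _ v)
  rw [e, e]
  abel

/-- the family has no invariant subspaces -/
def Irr (T : Perm α → Module.End k V) : Prop :=
  ∀ U : Submodule k V, (∀ c, ∀ v ∈ U, T c v ∈ U) → U = ⊥ ∨ U = ⊤

end

/-- families over `t` points in dimension less than `N` are trivial -/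
def P (k : Type u) [Field k] (t N : ℕ) : Prop :=
  ∀ (β : Type) [Fintype β] [DecidableEq β], Fintype.card β = t →
    ∀ (V : Type u) [AddCommGroup V] [Module k V] [FiniteDimensional k V] (T : Perm β → Module.End k V),
      IsFam T → finrank k V < N → ∀ c, T c = 1

section

variable {k : Type u} [Field k]

/-- reduction to irreducible families -/
theorem trivial_of_irr {β : Type} [Fintype β] [DecidableEq β] (h5 : 5 ≤ Fintype.card β) {N : ℕ}
    (H : ∀ (V : Type u) [AddCommGroup V] [Module k V] [FiniteDimensional k V] [Nontrivial V]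
      (T : Perm β → Module.End k V), IsFam T → Irr T → finrank k V < N → ∀ c, T c = 1)
    (V : Type u) [AddCommGroup V] [Module k V] [FiniteDimensional k V]
      (T : Perm β → Module.End k V) (hT : IsFam T) (hN : finrank k V < N) (c : Perm β) : T c = 1 := by
  induction hd : finrank k V using Nat.strong_induction_on generalizing V c with
  | _ d ih =>
  rcases subsingleton_or_nontrivial V with hV | hV
  · exact Subsingleton.elim _ _
  by_cases hirr : Irr T
  · exact H V T hT hirr hN c
  · unfold Irr at hirr
    push Not at hirr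
    obtain ⟨U, hU, hU1, hU2⟩ := hirr
    have d1 : finrank k U < finrank k V := Submodule.finrank_lt (lt_top_iff_ne_top.mpr hU2).ne
    have d2 : finrank k (V ⧸ U) < finrank k V := by
      have h1 := Submodule.finrank_quotient_add_finrank U
      have h2 : 0 < finrank k U := by
        rw [Module.finrank_pos_iff]
        exact (Submodule.nontrivial_iff_ne_bot).mpr hU1
      omega
    have r1 := fun c => ih _ (hd ▸ d1) U _ (hT.res U hU) (by omega) c rfl
    have r2 := fun c => ih _ (hd ▸ d2) (V ⧸ U) _ (hT.quo U hU) (by omega) c rfl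
    refine hT.trivial_of_ext h5 U (fun c v hv => ?_) (fun c v => ?_) c
    · have := congrArg (fun f => ((f ⟨v, hv⟩ : U) : V)) (r1 c)
      exact this
    · have := LinearMap.congr_fun (r2 c) (Submodule.Quotient.mk v)
      rw [quo_apply] at this
      exact (Submodule.Quotient.eq U).mp this

theorem P.of_irr {t N : ℕ} (ht : 5 ≤ t)
    (H : ∀ (β : Type) [Fintype β] [DecidableEq β], Fintype.card β = t →
      ∀ (V : Type u) [AddCommGroup V] [Module k V] [FiniteDimensional k V] [Nontrivial V]
      (T : Perm β → Module.End k V), IsFam T → Irr T → finrank k V < N → ∀ c, T c = 1) : P k t N := by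
  intro β _ _ hβ V _ _ _ T hT hN c
  exact trivial_of_irr (by omega) (fun V _ _ _ _ T hT hi hN => H β hβ V T hT hi hN) V T hT hN c

theorem P.mono {t N N' : ℕ} (h : P k t N) (hN : N' ≤ N) : P k t N' :=
  fun β _ _ hβ V _ _ _ T hT hd => h β hβ V T hT (by omega)

theorem ofSubtype_cyc {α : Type*} [DecidableEq α] {p : α → Prop} [DecidablePred p] (a b x : {x // p x}) :
    ofSubtype (cyc a b x) = cyc (a : α) b x := by
  unfold cyc
  rw [map_mul, ofSubtype_swap_eq, ofSubtype_swap_eq]

/-- apply `P` to a subset of points and an invariant subspace -/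
theorem P.apply {t N : ℕ} (hP : P k t N) (ht : 3 ≤ t) {α : Type} [Fintype α] [DecidableEq α]
    {V : Type u} [AddCommGroup V] [Module k V] [FiniteDimensional k V] {T : Perm α → Module.End k V}
    (hT : IsFam T) (s : Finset α) (hs : t ≤ s.card) (U : Submodule k V)
    (hU : ∀ c : Perm α, c.support ⊆ s → ∀ v ∈ U, T c v ∈ U) (hN : finrank k U < N) (c : Perm α)
    (hc : c.support ⊆ s) (v : V) (hv : v ∈ U) : T c v = v := by
  by_cases h3 : c.IsThreeCycle
  · obtain ⟨s', h1, h2, h4⟩ := Finset.exists_subsuperset_card_eq hc (by rw [h3.card_support]; exact ht) hs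
    obtain ⟨x, y, z, hxy, hxz, hyz, rfl⟩ := exists_cyc h3
    have hx : x ∈ s' := h1 (mem_support.mpr (by rw [cyc_apply_1 hxy hxz]; exact hxy.symm))
    have hy : y ∈ s' := h1 (mem_support.mpr (by rw [cyc_apply_2 hxz hyz]; exact hyz.symm))
    have hz : z ∈ s' := h1 (mem_support.mpr (by rw [cyc_apply_3]; exact hxz))
    obtain ⟨p, hp⟩ : ∃ p : α → Prop, ∀ x, p x ↔ x ∈ s' := ⟨(· ∈ s'), fun _ => Iff.rfl⟩
    haveI : DecidablePred p := Classical.decPred p
    have hU' : ∀ d : Perm {x // p x}, ∀ v ∈ U, T (ofSubtype d) v ∈ U := by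
      intro d
      refine hU _ ?_
      intro w hw
      apply h2
      by_contra hws
      rw [mem_support, ofSubtype_apply_of_not_mem d (fun h => hws ((hp _).mp h))] at hw
      exact hw rfl
    have hcard : Fintype.card {x // p x} = t := by
      rw [Fintype.card_of_subtype s' (fun x => (hp x).symm), h4]
    have := hP {x // p x} hcard U _ ((hT.sub p).res U hU') hN
      (cyc ⟨x, (hp _).mpr hx⟩ ⟨y, (hp _).mpr hy⟩ ⟨z, (hp _).mpr hz⟩)
    have := congrArg (fun f => ((f ⟨v, hv⟩ : U) : V)) this
    change T (ofSubtype (cyc ⟨x, (hp _).mpr hx⟩ ⟨y, (hp _).mpr hy⟩ ⟨z, (hp _).mpr hz⟩)) v = v at this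
    rw [ofSubtype_cyc] at this
    exact this
  · rw [hT.triv c h3]; rfl

theorem P.mono_left {t t' N : ℕ} (hP : P k t N) (ht : 3 ≤ t) (htt : t ≤ t') : P k t' N := by
  intro β _ _ hβ V _ _ _ T hT hd c
  ext v
  refine hP.apply ht hT Finset.univ (by rw [Finset.card_univ]; omega) ⊤ (fun _ _ _ _ => trivial)
    (by rw [finrank_top]; exact hd) c (Finset.subset_univ _) v trivial

end

end H49.TF
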