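import Cfsg.Agent.Lib.H49.TF2

set_option autoImplicit false
set_option linter.unusedSectionVars false

/-! Linear algebra for families and the small cases. -/

namespace H49.TF

open Equiv Equiv.Perm Module

universe u

section Lin

variable {k V : Type*} [Field k] [AddCommGroup V] [Module k V] [FiniteDimensional k V]

theorem comm_of_finrank_lt_two (h : finrank k V < 2) (f g : Module.End k V) : f * g = g * f := by
  rcases Nat.lt_or_ge (finrank k V) 1 with h0 | h1
  · haveI : Subsingleton V := by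
      rw [← Module.finrank_zero_iff (R := k)]
      omega
    exact Subsingleton.elim _ _
  · obtain ⟨v, hv0, hv⟩ := finrank_eq_one_iff'.mp (by omega : finrank k V = 1)
    obtain ⟨a, ha⟩ := hv (f v)
    obtain ⟨b, hb⟩ := hv (g v)
    ext w
    obtain ⟨c, rfl⟩ := hv w
    change f (g (c • v)) = g (f (c • v))
    rw [map_smul, map_smul, map_smul, map_smul, ← hb, ← ha, map_smul, map_smul, ← ha, ← hb,
      smul_comm b a]

/-- joint eigenvectors with distinct weights are independent -/
theorem card_le_of_joint [Infinite k] {ι : Type*} [Fintype ι] (f g : Module.End k V) (l m : ι → k)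
    (hinj : ∀ i j, l i = l j → m i = m j → i = j) (v : ι → V) (hv : ∀ i, v i ≠ 0)
    (h1 : ∀ i, f (v i) = l i • v i) (h2 : ∀ i, g (v i) = m i • v i) : Fintype.card ι ≤ finrank k V := by
  classical
  obtain ⟨τ, hτ⟩ := Infinite.exists_notMem_finset
    (Finset.image (fun p : ι × ι => (l p.1 - l p.2) / (m p.2 - m p.1)) Finset.univ)
  have hμ : Function.Injective (fun i => l i + τ * m i) := by
    intro i j hij
    simp only at hij
    by_cases hm : m i = m j
    · refine hinj i j ?_ hm
      rw [hm] at hij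
      exact add_right_cancel hij
    · exfalso
      apply hτ
      rw [Finset.mem_image]
      refine ⟨(i, j), Finset.mem_univ _, ?_⟩
      have : m j - m i ≠ 0 := sub_ne_zero.mpr (fun h => hm h.symm)
      simp only
      rw [div_eq_iff this]
      linear_combination hij
  have := Module.End.eigenvectors_linearIndependent' (f + τ • g) _ hμ v (fun i => ⟨by
    rw [Module.End.mem_eigenspace_iff, LinearMap.add_apply, LinearMap.smul_apply, h1, h2, smul_smul, add_smul],
    hv i⟩)
  exact this.fintype_card_le_finrank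

theorem exists_eig {f : Module.End k V} (h3 : f ^ 3 = 1) (h1 : f ≠ 1) {ω : k} (hω : ω ^ 2 + ω + 1 = 0) :
    ∃ l : k, l ^ 2 + l + 1 = 0 ∧ ∃ v : V, v ≠ 0 ∧ f v = l • v := by
  obtain ⟨v, hv⟩ : ∃ v, f v ≠ v := by
    by_contra hcon
    push Not at hcon
    exact h1 (LinearMap.ext hcon)
  have hf3 : ∀ v, f (f (f v)) = v := fun v => LinearMap.congr_fun h3 v
  set w := f v - v with hw
  have hw0 : w ≠ 0 := sub_ne_zero.mpr hv
  have hww : f (f w) + f w + w = 0 := by
    rw [hw, map_sub, map_sub, hf3]; abel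
  by_cases h : f w = (ω ^ 2) • w
  · exact ⟨ω ^ 2, by linear_combination (ω ^ 2 - ω + 1) * hω, w, hw0, h⟩
  · refine ⟨ω, hω, f w - (ω ^ 2) • w, sub_ne_zero.mpr h, ?_⟩
    have h5 : f (f w) = - f w - w := by
      rw [eq_sub_iff_add_eq, eq_neg_iff_add_eq_zero, ← hww]; abel
    rw [map_sub, map_smul, h5, smul_sub, smul_smul]
    have h6 : ω ^ 2 = - ω - 1 := by linear_combination hω
    have h7 : ω * ω ^ 2 = 1 := by linear_combination (ω - 1) * hω
    rw [h7, h6]
    module

theorem exists_eig_on [IsAlgClosed k] (f g : Module.End k V) (hfg : f * g = g * f) {l : k} {v : V} (hv : v ≠ 0)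
    (h : f v = l • v) : ∃ m : k, ∃ w : V, w ≠ 0 ∧ f w = l • w ∧ g w = m • w := by
  have hE : ∀ w ∈ f.eigenspace l, g w ∈ f.eigenspace l := by
    intro w hw
    rw [Module.End.mem_eigenspace_iff] at hw ⊢
    have := LinearMap.congr_fun hfg w
    change f (g w) = g (f w) at this
    rw [this, hw, map_smul]
  haveI : Nontrivial (f.eigenspace l) := by
    refine ⟨⟨⟨v, Module.End.mem_eigenspace_iff.mpr h⟩, 0, fun h0 => hv ?_⟩⟩
    exact congrArg Subtype.val h0
  obtain ⟨m, hm⟩ := Module.End.exists_eigenvalue (K := k) (g.restrict hE)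
  obtain ⟨w, hw⟩ := hm.exists_hasEigenvector
  refine ⟨m, w, fun h0 => hw.2 (Subtype.ext h0), Module.End.mem_eigenspace_iff.mp w.2, ?_⟩
  have := hw.apply_eq_smul
  exact congrArg Subtype.val this

end Lin

section Small

variable {k : Type u} [Field k]

/-- over five points, dimension one -/
theorem P_five : P k 5 2 := by
  intro β _ _ hβ V _ _ _ T hT hd c
  obtain ⟨a, b, x, y, z, hn⟩ := exists_five (by omega : 5 ≤ Fintype.card β)
  exact hT.trivial_of_commute hn (comm_of_finrank_lt_two hd _ _) c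

theorem exists_omega [IsAlgClosed k] : ∃ ω : k, ω ^ 2 + ω + 1 = 0 := by
  obtain ⟨ω, hω⟩ := IsAlgClosed.exists_root (Polynomial.X ^ 2 + Polynomial.X + 1 : Polynomial k) (by
    have : (Polynomial.X ^ 2 + Polynomial.X + 1 : Polynomial k) =
      Polynomial.C 1 * Polynomial.X ^ 2 + Polynomial.C 1 * Polynomial.X + Polynomial.C 1 := by simp
    rw [this, Polynomial.degree_quadratic one_ne_zero]
    norm_num)
  refine ⟨ω, ?_⟩
  simpa using hω

theorem IsFam.trivial_of_one {α : Type*} [Fintype α] [DecidableEq α] {R : Type*} [Monoid R] {T : Perm α → R}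
    (hT : IsFam T) (h5 : 5 ≤ Fintype.card α) {c₀ : Perm α} (hc₀ : c₀.IsThreeCycle) (h1 : T c₀ = 1) (c : Perm α) :
    T c = 1 := by
  have ht1 : T 1 = 1 := hT.triv 1 (fun h => h.ne_one rfl)
  by_cases hc3 : c.IsThreeCycle
  · obtain ⟨a, b, x, hab, hax, hbx, rfl⟩ := exists_cyc hc₀
    obtain ⟨a', b', x', h1', h2', h3', rfl⟩ := exists_cyc hc3
    obtain ⟨σ, hσ, hσ'⟩ := exists_alt (l := [a, b, x]) (l' := [a', b', x'])
      (by simp [hab, hax, hbx]) (by simp [h1', h2', h3']) rfl (by simpa using h5)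
    simp only [List.map_cons, List.map_nil, List.cons.injEq, and_true] at hσ'
    obtain ⟨s1, s2, s3⟩ := hσ'
    have := hT.eq_conj hσ (c := cyc a b x) (d := 1) (by rw [h1, ht1])
    rw [conj_cyc, s1, s2, s3, mul_one, mul_inv_cancel, ht1] at this
    exact this
  · exact hT.triv c hc3

theorem P.of_fin {t N : ℕ}
    (H : ∀ (V : Type u) [AddCommGroup V] [Module k V] [FiniteDimensional k V] (T : Perm (Fin t) → Module.End k V),
      IsFam T → finrank k V < N → ∀ c, T c = 1) : P k t N := by
  intro β _ _ hβ V _ _ _ T hT hd c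
  let e : Fin t ≃ β := (Fintype.equivFinOfCardEq hβ).symm
  let E : Perm (Fin t) ≃* Perm β := e.permCongrHom
  have h3 : ∀ c : Perm (Fin t), (E c).IsThreeCycle ↔ c.IsThreeCycle := fun c => by
    rw [← card_support_eq_three_iff, ← card_support_eq_three_iff]
    have : (E c).support = c.support.map e.toEmbedding := by
      ext x
      simp only [mem_support, Finset.mem_map_equiv]
      change e (c (e.symm x)) ≠ x ↔ _
      rw [ne_eq, ne_eq, ← e.apply_eq_iff_eq_symm_apply]
    rw [this, Finset.card_map]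
  have hE : IsFam (fun c : Perm (Fin t) => T (E c)) := by
    refine ⟨fun c hc => hT.triv _ (fun h' => hc ((h3 c).mp h')), fun c => hT.cube _, fun c => ?_, fun c d hc => ?_⟩
    · rw [← hT.inv, map_inv]
    · rw [hT.conj _ _ ((h3 c).mpr hc), map_mul, map_mul, map_inv]
  obtain ⟨c, rfl⟩ := E.surjective c
  exact H V _ hE hd c

/-- over six points, characteristic not three -/
theorem P_six [IsAlgClosed k] (h3 : (3 : k) ≠ 0) : P k 6 4 := by
  apply P.of_fin
  intro V _ _ _ T hT hd
  obtain ⟨ω, hω⟩ := exists_omega (k := k)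
  have hcube : ∀ (c : Perm (Fin 6)) (v : V), T c (T c (T c v)) = v := fun c v => LinearMap.congr_fun (hT.cube c) v
  by_cases hne : T (cyc 0 1 2) = 1
  · exact hT.trivial_of_one (by simp) (cyc_three (by decide) (by decide) (by decide)) hne
  exfalso
  obtain ⟨l, hl, v, hv, hv1⟩ := exists_eig (hT.cube _) hne hω
  obtain ⟨m, v, hv, hv1, hv2⟩ := exists_eig_on (T (cyc 0 1 2)) (T (cyc 3 4 5))
    (hT.commute_of_disjoint (by unfold Equiv.Perm.Disjoint; decide)) hv hv1
  have hl3 : l ^ 3 = 1 := by linear_combination (l - 1) * hl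
  have hm3 : m ^ 3 = 1 := by
    have := hcube (cyc 3 4 5) v
    rw [hv2, map_smul, hv2, map_smul, map_smul, hv2, smul_smul, smul_smul] at this
    have h5 : (m ^ 3 - 1) • v = 0 := by
      rw [sub_smul, one_smul, sub_eq_zero]
      refine Eq.trans ?_ this
      congr 1
      ring
    rcases smul_eq_zero.mp h5 with h | h
    · exact sub_eq_zero.mp h
    · exact absurd h hv
  have hl1 : l ≠ 1 := by
    rintro rfl
    apply h3
    linear_combination hl
  -- the symmetry
  obtain ⟨σ, hσ1, hσ2, hσ3⟩ : ∃ σ : Perm (Fin 6), σ ∈ alternatingGroup (Fin 6) ∧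
      σ * cyc 0 1 2 * σ⁻¹ = cyc 3 4 5 ∧ σ * cyc 3 4 5 * σ⁻¹ = (cyc 0 1 2)⁻¹ := by
    refine ⟨swap 2 5 * (swap 0 3 * (swap 3 1 * swap 1 4)), mem_alternatingGroup.mpr (by decide), ?_, ?_⟩ <;> decide
  obtain ⟨g, -, hg, hgT⟩ := hT.exists_lift_alt hσ1
  have step : ∀ (l m : k) (v : V), l ^ 3 = 1 → v ≠ 0 → T (cyc 0 1 2) v = l • v → T (cyc 3 4 5) v = m • v →
      g v ≠ 0 ∧ T (cyc 0 1 2) (g v) = m ^ 2 • g v ∧ T (cyc 3 4 5) (g v) = l • g v := by
    intro l m v hl hv h1 h2
    refine ⟨fun h0 => hv ?_, ?_, ?_⟩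
    · obtain ⟨u, rfl⟩ := hg
      have : (u⁻¹ : (Module.End k V)ˣ).1 ((u : Module.End k V) v) = v := by
        change ((u⁻¹ : (Module.End k V)ˣ).1 * u.1) v = v
        rw [Units.inv_mul]; rfl
      rw [← this, h0, map_zero]
    · have e1 := LinearMap.congr_fun (hgT (cyc 3 4 5)) v
      rw [hσ3, hT.inv] at e1
      change g (T (cyc 3 4 5) v) = T (cyc 0 1 2) (T (cyc 0 1 2) (g v)) at e1
      rw [h2, map_smul] at e1
      have e2 := hcube (cyc 0 1 2) (g v)
      have e3 : T (cyc 0 1 2) (g v) = T (cyc 0 1 2) (T (cyc 0 1 2) (T (cyc 0 1 2) (T (cyc 0 1 2) (g v)))) := by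
        rw [e2]
      rw [e3, ← e1, map_smul, map_smul, ← e1, smul_smul, pow_two]
    · have e1 := LinearMap.congr_fun (hgT (cyc 0 1 2)) v
      rw [hσ2] at e1
      change g (T (cyc 0 1 2) v) = T (cyc 3 4 5) (g v) at e1
      rw [← e1, h1, map_smul]
  have hm23 : (m ^ 2) ^ 3 = 1 := by rw [← pow_mul, mul_comm, pow_mul, hm3, one_pow]
  have hl23 : (l ^ 2) ^ 3 = 1 := by rw [← pow_mul, mul_comm, pow_mul, hl3, one_pow]
  obtain ⟨a1, a2, a3⟩ := step l m v hl3 hv hv1 hv2
  obtain ⟨b1, b2, b3⟩ := step _ _ _ hm23 a1 a2 a3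
  obtain ⟨c1, c2, c3⟩ := step _ _ _ hl23 b1 b2 b3
  have hl2 : l ^ 2 ≠ l := by
    intro h
    apply hl1
    have : l * (l - 1) = 0 := by linear_combination h
    rcases mul_eq_zero.mp this with h | h
    · rw [h] at hl; simp at hl
    · exact sub_eq_zero.mp h
  have hm4 : (m ^ 2) ^ 2 = m := by linear_combination m * hm3
  have hl4 : (l ^ 2) ^ 2 = l := by linear_combination l * hl3
  rw [hm4] at c2
  haveI : Infinite k := IsAlgClosed.instInfinite
  have := card_le_of_joint (T (cyc 0 1 2)) (T (cyc 3 4 5)) ![l, m ^ 2, l ^ 2, m] ![m, l, m ^ 2, l ^ 2] ?_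
    ![v, g v, g (g v), g (g (g v))] ?_ ?_ ?_
  · simp only [Fintype.card_fin] at this
    omega
  · have hll : l ^ 2 = l → False := hl2
    intro i j
    fin_cases i <;> fin_cases j <;> simp <;> intro h1 h2 <;> apply hll <;>
    first
    | linear_combination (-(m + l)) * h2 - h1
    | linear_combination -h1
    | linear_combination -h2 - h1
    | linear_combination (l + m) * h2 + h1
    | linear_combination -h2
    | linear_combination h1
    | linear_combination h1 + h2
    | linear_combination h2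
    | linear_combination hl4 - h2 - (l ^ 2 + m) * h1
    | linear_combination hl4 + h2 + (l ^ 2 + m) * h1
  · intro i; fin_cases i <;> simp [hv, a1, b1, c1]
  · intro i; fin_cases i <;> simp [hv1, a2, b2, c2]
  · intro i; fin_cases i <;> simp [hv2, a3, b3, c3]

end Small

end H49.TF
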