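import Cfsg.Agent.Lib.H49.TF3

set_option autoImplicit false
set_option linter.unusedSectionVars false

/-! Disjoint three-cycles: from small degree to large degree. -/

namespace H49.TF

open Equiv Equiv.Perm Module

universe u

section Lin

variable {k V : Type*} [Field k] [AddCommGroup V] [Module k V] [FiniteDimensional k V]

theorem unit_injective {g : Module.End k V} (hg : IsUnit g) : Function.Injective g := by
  obtain ⟨u, rfl⟩ := hg
  intro x y hxy
  have e : ∀ v, (u⁻¹ : (Module.End k V)ˣ).1 (u.1 v) = v := fun v => by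
    change ((u⁻¹ : (Module.End k V)ˣ).1 * u.1) v = v
    rw [Units.inv_mul]; rfl
  rw [← e x, ← e y, hxy]

theorem finrank_le_of_maps {g : Module.End k V} (hg : Function.Injective g) {E F : Submodule k V}
    (h : ∀ v ∈ E, g v ∈ F) : finrank k E ≤ finrank k F := by
  refine LinearMap.finrank_le_finrank_of_injective (f := (g.domRestrict E).codRestrict F (fun v => h _ v.2)) ?_
  intro x y hxy
  have := congrArg Subtype.val hxy
  exact Subtype.ext (hg this)

theorem finrank_add_le_of_disjoint {E F : Submodule k V} (h : Disjoint E F) :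
    finrank k E + finrank k F ≤ finrank k V := by
  have h1 := Submodule.finrank_sup_add_finrank_inf_eq E F
  rw [h.eq_bot, finrank_bot, add_zero] at h1
  rw [← h1]
  exact Submodule.finrank_le _

theorem eigenspace_disjoint (f : Module.End k V) {a b : k} (hab : a ≠ b) :
    Disjoint (f.eigenspace a) (f.eigenspace b) := by
  rw [Submodule.disjoint_def]
  intro x hx hy
  rw [Module.End.mem_eigenspace_iff] at hx hy
  have : (a - b) • x = 0 := by rw [sub_smul, ← hx, ← hy, sub_self]
  rcases smul_eq_zero.mp this with h | h
  · exact absurd (sub_eq_zero.mp h) hab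
  · exact h

end Lin

section

variable {k : Type u} [Field k]

theorem star_core [IsAlgClosed k] {N : ℕ} {β : Type} [Fintype β] [DecidableEq β] (h5 : 5 ≤ Fintype.card β)
    (hP : P k (Fintype.card β) N)
    {V : Type u} [AddCommGroup V] [Module k V] [FiniteDimensional k V] {T : Perm β → Module.End k V}
    (hT : IsFam T) (X : Module.End k V) (hX : X ^ 3 = 1) (hc : ∀ c, T c * X = X * T c)
    (g : Module.End k V) (hg : IsUnit g) (hgX : g * X = X ^ 2 * g) (hn : finrank k V < 2 * N)
    (c : Perm β) (v : V) : T c (X v - v) = X v - v := by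
  have hX3 : ∀ v, X (X (X v)) = v := fun v => LinearMap.congr_fun hX v
  have hgX' : ∀ v, g (X v) = X (X (g v)) := fun v => LinearMap.congr_fun hgX v
  have hc' : ∀ c v, T c (X v) = X (T c v) := fun c v => LinearMap.congr_fun (hc c) v
  by_cases h3 : (3 : k) = 0
  · -- characteristic three
    set n : Module.End k V := X - 1 with hn1
    have hnc : ∀ c v, T c (n v) = n (T c v) := by
      intro c v
      rw [hn1, LinearMap.sub_apply, LinearMap.sub_apply, map_sub, hc']
      rfl
    set U := LinearMap.range n with hU
    have hUi : ∀ c, ∀ v ∈ U, T c v ∈ U := by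
      rintro c _ ⟨w, rfl⟩
      exact ⟨T c w, (hnc c w).symm⟩
    have hTU := hT.res U hUi
    have hnU : ∀ v ∈ U, n v ∈ U := fun v _ => ⟨v, rfl⟩
    set m : Module.End k U := n.restrict hnU with hm
    set U' := LinearMap.range m with hU'
    have hU'i : ∀ c, ∀ v ∈ U', TF.res U ⟨T c, hUi c⟩ v ∈ U' := by
      rintro c _ ⟨w, rfl⟩
      refine ⟨TF.res U ⟨T c, hUi c⟩ w, ?_⟩
      apply Subtype.ext
      exact (hnc c w).symm
    have h33 : ∀ w : V, w + w + w = 0 := fun w => by
      have : (3 : k) • w = 0 := by rw [h3, zero_smul]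
      rw [← this]
      module
    have hnnn : ∀ v, n (n (n v)) = 0 := by
      intro v
      simp only [hn1, LinearMap.sub_apply, map_sub, Module.End.one_apply, hX3]
      calc v - X (X v) - (X (X v) - X v) - (X (X v) - X v - (X v - v))
          = - (X (X v) + X (X v) + X (X v)) + (X v + X v + X v) := by abel
        _ = 0 := by rw [h33, h33]; simp
    have hmm : ∀ v, m (m v) = 0 := by
      rintro ⟨_, ⟨w, rfl⟩⟩
      apply Subtype.ext
      exact hnnn w
    have d1 : finrank k U' + finrank k (LinearMap.ker m) = finrank k U := LinearMap.finrank_range_add_finrank_ker m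
    have d2 : finrank k U' ≤ finrank k (LinearMap.ker m) := by
      apply Submodule.finrank_mono
      rintro _ ⟨w, rfl⟩
      exact hmm w
    have d3 := Submodule.finrank_quotient_add_finrank U'
    have d4 : finrank k (LinearMap.ker m) ≤ finrank k (LinearMap.ker n) := by
      refine LinearMap.finrank_le_finrank_of_injective (f := ((U.subtype.domRestrict (LinearMap.ker m)).codRestrict
        (LinearMap.ker n) (fun v => ?_))) ?_
      · have := v.2
        rw [LinearMap.mem_ker] at this ⊢
        exact congrArg Subtype.val this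
      · intro x y hxy
        have := congrArg Subtype.val hxy
        exact Subtype.ext (Subtype.ext this)
    have d5 : finrank k U + finrank k (LinearMap.ker n) = finrank k V := LinearMap.finrank_range_add_finrank_ker n
    have e1 := fun c => hP β rfl U' _ (hTU.res U' hU'i) (by omega) c
    have e2 := fun c => hP β rfl (U ⧸ U') _ (hTU.quo U' hU'i) (by omega) c
    have e3 := hTU.trivial_of_ext h5 U' (fun c v hv => by
      have := congrArg (fun f => ((f ⟨v, hv⟩ : U') : U)) (e1 c)
      exact this) (fun c v => by
      have := LinearMap.congr_fun (e2 c) (Submodule.Quotient.mk v)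
      rw [quo_apply] at this
      exact (Submodule.Quotient.eq U').mp this) c
    have e4 : X v - v ∈ U := ⟨v, rfl⟩
    exact congrArg (fun f => ((f ⟨X v - v, e4⟩ : U) : V)) e3
  · -- other characteristics
    obtain ⟨ω, hω⟩ := exists_omega (k := k)
    have hω3 : ω ^ 3 = 1 := by linear_combination (ω - 1) * hω
    have hω0 : ω ≠ 0 := by rintro rfl; simp at hω
    have hne : ω ≠ ω ^ 2 := by
      intro h
      have : ω * (ω - 1) = 0 := by linear_combination -h
      rcases mul_eq_zero.mp this with h | h
      · exact hω0 h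
      · apply h3
        have h1 : ω = 1 := sub_eq_zero.mp h
        rw [h1] at hω
        linear_combination hω
    have hinv : ∀ a : k, ∀ c, ∀ v ∈ X.eigenspace a, T c v ∈ X.eigenspace a := by
      intro a c v hv
      rw [Module.End.mem_eigenspace_iff] at hv ⊢
      rw [← hc', hv, map_smul]
    have m1 : ∀ v ∈ X.eigenspace ω, g v ∈ X.eigenspace (ω ^ 2) := by
      intro v hv
      rw [Module.End.mem_eigenspace_iff] at hv ⊢
      have e1 := hgX' v
      rw [hv, map_smul] at e1
      have e2 : X (g v) = X (X (X (X (g v)))) := by rw [hX3]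
      rw [e2, ← e1, map_smul, map_smul, ← e1, smul_smul, pow_two]
    have m2 : ∀ v ∈ X.eigenspace (ω ^ 2), g v ∈ X.eigenspace ω := by
      intro v hv
      rw [Module.End.mem_eigenspace_iff] at hv ⊢
      have e1 := hgX' v
      rw [hv, map_smul] at e1
      have e2 : X (g v) = X (X (X (X (g v)))) := by rw [hX3]
      rw [e2, ← e1, map_smul, map_smul, ← e1, smul_smul]
      congr 1
      linear_combination ω * hω3
    have d1 := finrank_le_of_maps (unit_injective hg) m1
    have d2 := finrank_le_of_maps (unit_injective hg) m2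
    have d3 := finrank_add_le_of_disjoint (eigenspace_disjoint X hne)
    have t1 : ∀ c, ∀ v ∈ X.eigenspace ω, T c v = v := fun c v hv =>
      hP.apply (by omega) hT Finset.univ (by rw [Finset.card_univ]) _ (fun c _ => hinv _ c) (by omega) c
        (Finset.subset_univ _) v hv
    have t2 : ∀ c, ∀ v ∈ X.eigenspace (ω ^ 2), T c v = v := fun c v hv =>
      hP.apply (by omega) hT Finset.univ (by rw [Finset.card_univ]) _ (fun c _ => hinv _ c) (by omega) c
        (Finset.subset_univ _) v hv
    set w := X v - v with hw
    have hww : X (X w) = - X w - w := by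
      rw [hw, map_sub, map_sub, hX3]; abel
    have w1 : X w - ω ^ 2 • w ∈ X.eigenspace ω := by
      rw [Module.End.mem_eigenspace_iff, map_sub, map_smul, hww, smul_sub, smul_smul]
      have h6 : ω ^ 2 = - ω - 1 := by linear_combination hω
      have h7 : ω * ω ^ 2 = 1 := by linear_combination hω3
      rw [h7, h6]
      module
    have w2 : X w - ω • w ∈ X.eigenspace (ω ^ 2) := by
      rw [Module.End.mem_eigenspace_iff, map_sub, map_smul, hww, smul_sub, smul_smul]
      have h6 : ω ^ 2 = - ω - 1 := by linear_combination hω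
      have h7 : ω ^ 2 * ω = 1 := by linear_combination hω3
      rw [h7, h6]
      module
    have e1 := t1 c _ w1
    have e2 := t2 c _ w2
    have e3 : (ω - ω ^ 2) • (T c w - w) = 0 := by
      rw [map_sub, map_smul] at e1 e2
      have : (ω - ω ^ 2) • (T c w - w) = (T c (X w) - ω ^ 2 • T c w) - (T c (X w) - ω • T c w) -
        ((X w - ω ^ 2 • w) - (X w - ω • w)) := by module
      rw [this, e1, e2, sub_self]
    rcases smul_eq_zero.mp e3 with h | h
    · exact absurd (sub_eq_zero.mp h) hne
    · exact sub_eq_zero.mp h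

theorem exists_inverter {α : Type*} [Fintype α] [DecidableEq α] (h5 : 5 ≤ Fintype.card α) {d : Perm α}
    (hd : d.IsThreeCycle) : ∃ σ ∈ alternatingGroup α, σ * d * σ⁻¹ = d⁻¹ := by
  obtain ⟨a, b, x, hab, hax, hbx, rfl⟩ := exists_cyc hd
  obtain ⟨σ, hσ, hσ'⟩ := exists_alt (l := [a, b, x]) (l' := [x, b, a])
    (by simp [hab, hax, hbx]) (by simp [hab.symm, hax.symm, hbx.symm]) rfl (by simpa using h5)
  simp only [List.map_cons, List.map_nil, List.cons.injEq, and_true] at hσ'
  obtain ⟨s1, s2, s3⟩ := hσ'
  exact ⟨σ, hσ, by rw [conj_cyc, s1, s2, s3, cyc_inv]⟩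

theorem exists_ofSubtype {α : Type*} [Fintype α] [DecidableEq α] {p : α → Prop} [DecidablePred p] {c : Perm α}
    (hc : ∀ x, c x ≠ x → p x) : ∃ c' : Perm {x // p x}, ofSubtype c' = c := by
  have h : ∀ x, p (c x) ↔ p x := by
    intro x
    by_cases hx : c x = x
    · rw [hx]
    · exact ⟨fun _ => hc x hx, fun _ => hc _ (fun h => hx (c.injective h))⟩
  exact ⟨subtypePerm c h, ofSubtype_subtypePerm h hc⟩

/-- disjoint three-cycles, from degree `t` to degree `t + 3` -/
theorem star3 [IsAlgClosed k] {t N : ℕ} (hP : P k t N) (ht : 5 ≤ t) {α : Type} [Fintype α] [DecidableEq α]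
    (hα : t + 3 ≤ Fintype.card α) {V : Type u} [AddCommGroup V] [Module k V] [FiniteDimensional k V]
    {T : Perm α → Module.End k V} (hT : IsFam T) (hn : finrank k V < 2 * N) {c d : Perm α}
    (hd : d.IsThreeCycle) (hcd : c.Disjoint d) (v : V) : T c (T d v - v) = T d v - v := by
  obtain ⟨σ, hσ, hσd⟩ := exists_inverter (by omega : 5 ≤ Fintype.card α) hd
  obtain ⟨g, -, hg, hgT⟩ := hT.exists_lift_alt hσ
  obtain ⟨p, hp⟩ : ∃ p : α → Prop, ∀ x, p x ↔ x ∈ (d.supportᶜ : Finset α) := ⟨_, fun _ => Iff.rfl⟩
  haveI : DecidablePred p := Classical.decPred p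
  have hcard : Fintype.card {x // p x} = Fintype.card α - 3 := by
    rw [Fintype.card_of_subtype d.supportᶜ (fun x => (hp x).symm), Finset.card_compl, hd.card_support]
  obtain ⟨c', rfl⟩ := exists_ofSubtype (p := p) (c := c) (fun x hx => by
    rw [hp, Finset.mem_compl, mem_support, not_not]
    exact (hcd x).resolve_left hx)
  have hdis : ∀ c' : Perm {x // p x}, (ofSubtype c').Disjoint d := by
    intro c' x
    by_cases hx : p x
    · right
      rw [hp, Finset.mem_compl, mem_support, not_not] at hx
      exact hx
    · left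
      exact ofSubtype_apply_of_not_mem c' hx
  refine star_core (β := {x // p x}) (by omega) (hP.mono_left (by omega) (by omega)) (hT.sub p) (T d) (hT.cube d)
    (fun c => hT.commute_of_disjoint (hdis c)) g hg ?_ hn c' v
  rw [hgT, hσd, hT.inv]

end

end H49.TF
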