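import Cfsg.Agent.Lib.H49.TF4

set_option autoImplicit false
set_option linter.unusedSectionVars false

/-! Five-cycles in families of three-cycles. -/

namespace H49.TF

open Equiv Equiv.Perm Module

universe u

section Emb

variable {α β : Type*} [Fintype α] [DecidableEq α] [Fintype β] [DecidableEq β]

theorem emb_swap (e : β ↪ α) (a b : β) : viaEmbeddingHom e (swap a b) = swap (e a) (e b) := by
  rw [viaEmbeddingHom_apply]
  ext x
  by_cases hx : x ∈ Set.range e
  · obtain ⟨y, rfl⟩ := hx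
    rw [viaEmbedding_apply]
    by_cases h1 : y = a
    · subst h1; rw [swap_apply_left, swap_apply_left]
    · by_cases h2 : y = b
      · subst h2; rw [swap_apply_right, swap_apply_right]
      · rw [swap_apply_of_ne_of_ne h1 h2, swap_apply_of_ne_of_ne (fun h => h1 (e.injective h))
          (fun h => h2 (e.injective h))]
  · rw [viaEmbedding_apply_of_notMem _ _ _ hx, swap_apply_of_ne_of_ne]
    · rintro rfl; exact hx ⟨a, rfl⟩
    · rintro rfl; exact hx ⟨b, rfl⟩

theorem emb_cyc (e : β ↪ α) (a b c : β) : viaEmbeddingHom e (cyc a b c) = cyc (e a) (e b) (e c) := by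
  unfold cyc
  rw [map_mul, emb_swap, emb_swap]

theorem emb_three (e : β ↪ α) (c : Perm β) : (viaEmbeddingHom e c).IsThreeCycle ↔ c.IsThreeCycle := by
  rw [← card_support_eq_three_iff, ← card_support_eq_three_iff]
  have : (viaEmbeddingHom e c).support = c.support.map e := by
    ext x
    rw [mem_support, Finset.mem_map, viaEmbeddingHom_apply]
    by_cases hx : x ∈ Set.range e
    · obtain ⟨y, rfl⟩ := hx
      rw [viaEmbedding_apply]
      constructor
      · intro h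
        exact ⟨y, mem_support.mpr (fun h' => h (by rw [h'])), rfl⟩
      · rintro ⟨z, hz, hzy⟩ h
        rw [e.injective hzy] at hz
        exact (mem_support.mp hz) (e.injective h)
    · rw [viaEmbedding_apply_of_notMem _ _ _ hx]
      constructor
      · intro h; exact absurd rfl h
      · rintro ⟨z, hz, rfl⟩
        exact absurd ⟨z, rfl⟩ hx
  rw [this, Finset.card_map]

theorem emb_alt (e : β ↪ α) {c : Perm β} (hc : c ∈ alternatingGroup β) :
    viaEmbeddingHom e c ∈ alternatingGroup α := by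
  rw [← closure_three_cycles_eq_alternating] at hc
  induction hc using Subgroup.closure_induction with
  | mem x hx => exact mem_alternatingGroup.mpr ((emb_three e x).mpr hx).sign
  | one => rw [map_one]; exact one_mem _
  | mul x y _ _ hx hy => rw [map_mul]; exact mul_mem hx hy
  | inv x _ hx => rw [map_inv]; exact inv_mem hx

theorem IsFam.emb {R : Type*} [Monoid R] {T : Perm α → R} (h : IsFam T) (e : β ↪ α) :
    IsFam (fun c : Perm β => T (viaEmbeddingHom e c)) := by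
  refine ⟨fun c hc => h.triv _ (fun h' => hc ((emb_three e c).mp h')), fun c => h.cube _, fun c => ?_,
    fun c d hc => ?_⟩
  · rw [← h.inv, map_inv]
  · rw [h.conj _ _ ((emb_three e c).mpr hc), map_mul, map_mul, map_inv]

/-- the family as a family of units -/
theorem IsFam.units {R : Type*} [Monoid R] {T : Perm α → R} (h : IsFam T) :
    ∃ T' : Perm α → Rˣ, IsFam T' ∧ ∀ c, (T' c : R) = T c := by
  refine ⟨fun c => (h.isUnit c).unit, ⟨fun c hc => ?_, fun c => ?_, fun c => ?_, fun c d hc => ?_⟩, fun c => rfl⟩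
  · exact Units.ext (h.triv c hc)
  · exact Units.ext (h.cube c)
  · exact Units.ext (h.inv c)
  · exact Units.ext (h.conj c d hc)

end Emb

section Grp

variable {α : Type*} [Fintype α] [DecidableEq α] {G : Type*} [Group G] {T : Perm α → G}

theorem IsFam.exists_lift_grp (h : IsFam T) {σ : Perm α} (hσ : σ ∈ alternatingGroup α) :
    ∃ g ∈ Submonoid.closure (Set.range T), ∀ d, g * T d * g⁻¹ = T (σ * d * σ⁻¹) := by
  obtain ⟨g, hg, -, h2⟩ := h.exists_lift_alt hσ
  exact ⟨g, hg, fun d => by rw [h2, mul_inv_cancel_right]⟩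

theorem IsFam.inv_grp (h : IsFam T) (c : Perm α) : T c⁻¹ = (T c)⁻¹ :=
  eq_inv_of_mul_eq_one_left (h.inv_mul c)

theorem commute_closure {z : G} (hz : ∀ d, z * T d * z⁻¹ = T d) {g : G}
    (hg : g ∈ Submonoid.closure (Set.range T)) : Commute g z := by
  induction hg using Submonoid.closure_induction with
  | mem x hx =>
    obtain ⟨d, rfl⟩ := hx
    have := hz d
    rw [mul_inv_eq_iff_eq_mul] at this
    exact this.symm
  | one => exact Commute.one_left _
  | mul x y _ _ hx hy => exact hx.mul_left hy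

/-- lifts of elements -/
def Lifts (T : Perm α → G) (g : G) (σ : Perm α) : Prop := ∀ d, g * T d * g⁻¹ = T (σ * d * σ⁻¹)

theorem Lifts.mul {g g' : G} {σ σ' : Perm α} (h : Lifts T g σ) (h' : Lifts T g' σ') : Lifts T (g * g') (σ * σ') := by
  intro d
  have e1 : g * g' * T d * (g * g')⁻¹ = g * (g' * T d * g'⁻¹) * g⁻¹ := by group
  have e2 : σ * σ' * d * (σ * σ')⁻¹ = σ * (σ' * d * σ'⁻¹) * σ⁻¹ := by group
  rw [e1, h', h, e2]

theorem Lifts.inv {g : G} {σ : Perm α} (h : Lifts T g σ) : Lifts T g⁻¹ σ⁻¹ := by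
  intro d
  have e1 := h (σ⁻¹ * d * σ)
  have e2 : σ * (σ⁻¹ * d * σ) * σ⁻¹ = d := by group
  rw [e2] at e1
  rw [← e1, inv_inv]
  group

theorem Lifts.one : Lifts T 1 1 := by
  intro d
  rw [one_mul, inv_one, mul_one, one_mul, inv_one, mul_one]

theorem Lifts.pow {g : G} {σ : Perm α} (h : Lifts T g σ) (n : ℕ) : Lifts T (g ^ n) (σ ^ n) := by
  induction n with
  | zero => rw [pow_zero, pow_zero]; exact Lifts.one
  | succ n ih => rw [pow_succ, pow_succ]; exact ih.mul h

theorem IsFam.lifts (h : IsFam T) {c : Perm α} (hc : c.IsThreeCycle) : Lifts T (T c) c := fun d => by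
  rw [h.conj c d hc, mul_inv_cancel_right]

/-- the normalised lift of a five-cycle and its square are conjugate -/
theorem IsFam.five (h : IsFam T) (e : Fin 7 ↪ α) (A : G) (hA : A = T (cyc (e 3) (e 4) (e 0)) * T (cyc (e 0) (e 1) (e 2))) :
    (A ^ 6) ^ 5 = 1 ∧ ∃ θ : G, θ * A ^ 6 * θ⁻¹ = (A ^ 6) ^ 2 := by
  set E : Perm (Fin 7) →* Perm α := viaEmbeddingHom e with hE
  have hc : ∀ a b c : Fin 7, cyc (e a) (e b) (e c) = E (cyc a b c) := fun a b c => (emb_cyc e a b c).symm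
  rw [hc, hc] at hA
  set A2 : G := T (E (cyc 1 3 0)) * T (E (cyc 0 2 4)) with hA2
  obtain ⟨H, hH, hHT⟩ := h.exists_lift_grp (emb_alt e (c := swap 1 4 * swap 2 3) (mem_alternatingGroup.mpr (by decide)))
  obtain ⟨θ, -, hθT⟩ := h.exists_lift_grp (emb_alt e (c := swap 1 2 * (swap 2 4 * (swap 4 3 * swap 5 6)))
    (mem_alternatingGroup.mpr (by decide)))
  rw [← hE] at hHT hθT
  have three : ∀ a b c : Fin 7, a ≠ b → a ≠ c → b ≠ c → (E (cyc a b c)).IsThreeCycle := fun a b c h1 h2 h3 =>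
    (emb_three e _).mpr (cyc_three h1 h2 h3)
  have l1 : Lifts T A (E (cyc 3 4 0 * cyc 0 1 2)) := by
    rw [hA, map_mul]
    exact (h.lifts (three _ _ _ (by decide) (by decide) (by decide))).mul
      (h.lifts (three _ _ _ (by decide) (by decide) (by decide)))
  have l2 : Lifts T A2 (E (cyc 1 3 0 * cyc 0 2 4)) := by
    rw [hA2, map_mul]
    exact (h.lifts (three _ _ _ (by decide) (by decide) (by decide))).mul
      (h.lifts (three _ _ _ (by decide) (by decide) (by decide)))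
  -- conjugation by `H`
  have cH : ∀ a b : Perm (Fin 7), swap 1 4 * swap 2 3 * a * (swap 1 4 * swap 2 3)⁻¹ = b →
      H * T (E a) * H⁻¹ = T (E b) := fun a b hab => by
    rw [hHT, ← map_mul, ← map_inv, ← map_mul, hab]
  have cθ : ∀ a b : Perm (Fin 7), (swap 1 2 * (swap 2 4 * (swap 4 3 * swap 5 6))) * a *
      (swap 1 2 * (swap 2 4 * (swap 4 3 * swap 5 6)))⁻¹ = b → θ * T (E a) * θ⁻¹ = T (E b) := fun a b hab => by
    rw [hθT, ← map_mul, ← map_inv, ← map_mul, hab]
  have hHA : H * A * H⁻¹ = A⁻¹ := by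
    have : H * A * H⁻¹ = (H * T (E (cyc 3 4 0)) * H⁻¹) * (H * T (E (cyc 0 1 2)) * H⁻¹) := by rw [hA]; group
    rw [this, cH (cyc 3 4 0) (cyc 0 1 2)⁻¹ (by decide), cH (cyc 0 1 2) (cyc 3 4 0)⁻¹ (by decide), map_inv, map_inv,
      h.inv_grp, h.inv_grp, hA, mul_inv_rev]
  have hHA2 : H * A2 * H⁻¹ = A2⁻¹ := by
    have : H * A2 * H⁻¹ = (H * T (E (cyc 1 3 0)) * H⁻¹) * (H * T (E (cyc 0 2 4)) * H⁻¹) := by rw [hA2]; group
    rw [this, cH (cyc 1 3 0) (cyc 0 2 4)⁻¹ (by decide), cH (cyc 0 2 4) (cyc 1 3 0)⁻¹ (by decide), map_inv, map_inv,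
      h.inv_grp, h.inv_grp, hA2, mul_inv_rev]
  have hθA : θ * A * θ⁻¹ = A2 := by
    have : θ * A * θ⁻¹ = (θ * T (E (cyc 3 4 0)) * θ⁻¹) * (θ * T (E (cyc 0 1 2)) * θ⁻¹) := by rw [hA]; group
    rw [this, cθ (cyc 3 4 0) (cyc 1 3 0) (by decide), cθ (cyc 0 1 2) (cyc 0 2 4) (by decide)]
  have one_of : ∀ (z : G), Lifts T z 1 → Commute H z ∧ Commute A z := by
    intro z hz
    have hz' : ∀ d, z * T d * z⁻¹ = T d := fun d => by rw [hz d, one_mul, inv_one, mul_one]
    refine ⟨commute_closure hz' hH, commute_closure hz' ?_⟩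
    rw [hA]
    exact mul_mem (Submonoid.subset_closure ⟨_, rfl⟩) (Submonoid.subset_closure ⟨_, rfl⟩)
  have conj_pow : ∀ (B : G) (n : ℕ), H * B * H⁻¹ = B⁻¹ → H * B ^ n * H⁻¹ = (B ^ n)⁻¹ := by
    intro B n hB
    rw [← conj_pow, hB, inv_pow]
  have ten : ∀ (B : G), H * B * H⁻¹ = B⁻¹ → Lifts T (B ^ 5) 1 → B ^ 10 = 1 := by
    intro B hB hl
    have h1 := (one_of _ hl).1
    have h2 := conj_pow B 5 hB
    rw [h1.eq, mul_inv_cancel_right] at h2
    have h3 : B ^ 10 = B ^ 5 * B ^ 5 := by rw [← pow_add]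
    rw [h3]
    nth_rewrite 1 [h2]
    exact inv_mul_cancel _
  have hA10 : A ^ 10 = 1 := ten A hHA (by
    have := l1.pow 5
    rw [← map_pow] at this
    have e1 : (cyc 3 4 0 * cyc 0 1 2 : Perm (Fin 7)) ^ 5 = 1 := by decide
    rwa [e1, map_one] at this)
  have hA210 : A2 ^ 10 = 1 := ten A2 hHA2 (by
    have := l2.pow 5
    rw [← map_pow] at this
    have e1 : (cyc 1 3 0 * cyc 0 2 4 : Perm (Fin 7)) ^ 5 = 1 := by decide
    rwa [e1, map_one] at this)
  set y := A2 ^ 6 * (A ^ 12)⁻¹ with hy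
  have hyl : Lifts T y 1 := by
    have := (l2.pow 6).mul (l1.pow 12).inv
    have e1 : (cyc 1 3 0 * cyc 0 2 4 : Perm (Fin 7)) = (cyc 3 4 0 * cyc 0 1 2) ^ 2 := by decide
    rw [e1, map_pow, ← pow_mul, mul_inv_cancel] at this
    exact this
  obtain ⟨hyH, hyA⟩ := one_of y hyl
  have e2 : A2 ^ 6 = y * A ^ 12 := by rw [hy, inv_mul_cancel_right]
  have hyA12 : Commute (A ^ 12) y := hyA.pow_left 12
  have hy2 : y = y⁻¹ := by
    have h1 : H * y * H⁻¹ = y := by rw [hyH.eq, mul_inv_cancel_right]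
    have h2 : H * y * H⁻¹ = (A2 ^ 6)⁻¹ * A ^ 12 := by
      have : H * y * H⁻¹ = (H * A2 ^ 6 * H⁻¹) * (H * A ^ 12 * H⁻¹)⁻¹ := by rw [hy]; group
      rw [this, conj_pow A2 6 hHA2, conj_pow A 12 hHA, inv_inv]
    rw [h1, e2, mul_inv_rev] at h2
    have h3 : (A ^ 12)⁻¹ * y⁻¹ * A ^ 12 = y⁻¹ := by
      have := (hyA12.inv_right).inv_left
      rw [this.eq, inv_mul_cancel_right]
    rw [h3] at h2
    exact h2
  have hyy : y * y = 1 := by nth_rewrite 1 [hy2]; exact inv_mul_cancel _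
  have hy5 : y ^ 5 = 1 := by
    have h1 : (A2 ^ 6) ^ 5 = y ^ 5 * (A ^ 12) ^ 5 := by rw [e2, (hyA12.symm).mul_pow]
    have h2 : (A2 ^ 6) ^ 5 = 1 := by
      rw [← pow_mul, show 6 * 5 = 10 * 3 from rfl, pow_mul, hA210, one_pow]
    have h3 : (A ^ 12) ^ 5 = 1 := by
      rw [← pow_mul, show 12 * 5 = 10 * 6 from rfl, pow_mul, hA10, one_pow]
    rw [h2, h3, mul_one] at h1
    exact h1.symm
  have hy1 : y = 1 := by
    have : y ^ 5 = y * ((y * y) * (y * y)) := by simp only [pow_succ, pow_zero, one_mul, mul_assoc]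
    rw [hyy, mul_one, mul_one] at this
    rw [← this, hy5]
  refine ⟨?_, θ, ?_⟩
  · rw [← pow_mul, show 6 * 5 = 10 * 3 from rfl, pow_mul, hA10, one_pow]
  · rw [← _root_.conj_pow, hθA, e2, hy1, one_mul, ← pow_mul]

end Grp

end H49.TF
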