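import Cfsg.Agent.Lib.H49.TF5

set_option autoImplicit false
set_option linter.unusedSectionVars false

/-! Disjoint three-cycles through the eigenspaces of a five-cycle. -/

namespace H49.TF

open Equiv Equiv.Perm Module

universe u

theorem sum_finrank_le {k V : Type*} [Field k] [AddCommGroup V] [Module k V] [FiniteDimensional k V] {ι : Type*}
    [Fintype ι] (p : ι → Submodule k V) (h : iSupIndep p) : ∑ i, finrank k (p i) ≤ finrank k V := by
  classical
  have h1 := h.dfinsupp_lsum_injective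
  have h2 : finrank k (DirectSum ι fun i => p i) ≤ finrank k V :=
    LinearMap.finrank_le_finrank_of_injective (f := DFinsupp.lsum ℕ fun i => (p i).subtype) h1
  rwa [Module.finrank_directSum] at h2

/-- if the normalised lift of a five-cycle is trivial, the family is trivial -/
theorem IsFam.trivial_of_six {α : Type*} [Fintype α] [DecidableEq α] {R : Type*} [Monoid R] {T : Perm α → R}
    (h : IsFam T) {a b x y z : α} (hn : [a, b, x, y, z].Nodup)
    (h6 : (T (cyc a b x) * T (cyc x y z)) ^ 6 = 1) (c : Perm α) : T c = 1 := by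
  refine h.trivial_of_commute hn ?_ c
  obtain ⟨T', hT', hTT⟩ := h.units
  have h6' : (T' (cyc a b x) * T' (cyc x y z)) ^ 6 = 1 := by
    apply Units.ext
    rw [Units.val_pow_eq_pow_val, Units.val_mul, hTT, hTT, h6]; rfl
  rw [← hTT, ← hTT, ← Units.val_mul, ← Units.val_mul]
  congr 1
  let e : Fin 5 ↪ α := ⟨fun i => [a, b, x, y, z].get i, List.nodup_iff_injective_get.mp hn⟩
  have l1 : Lifts T' (T' (cyc a b x) * T' (cyc x y z)) (viaEmbeddingHom e (cyc 0 1 2 * cyc 2 3 4)) := by
    rw [map_mul, emb_cyc, emb_cyc]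
    refine (hT'.lifts ?_).mul (hT'.lifts ?_)
    · have := (emb_three e (cyc 0 1 2)).mpr (cyc_three (by decide) (by decide) (by decide))
      rwa [emb_cyc] at this
    · have := (emb_three e (cyc 2 3 4)).mpr (cyc_three (by decide) (by decide) (by decide))
      rwa [emb_cyc] at this
  have l5 := l1.pow 5
  have e1 : (cyc 0 1 2 * cyc 2 3 4 : Perm (Fin 5)) ^ 5 = 1 := by decide
  rw [← map_pow, e1, map_one] at l5
  have l6 := l5 (cyc a b x)
  rw [one_mul, inv_one, mul_one] at l6
  generalize T' (cyc a b x) = A at *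
  generalize T' (cyc x y z) = B at *
  have e2 : (A * B) ^ 5 = (A * B)⁻¹ := by
    rw [eq_inv_iff_mul_eq_one, ← pow_succ, h6']
  rw [e2, inv_inv] at l6
  -- (A B)⁻¹ A (A B) = A
  have e3 : A * (A * B) = (A * B) * A := by
    calc A * (A * B) = (A * B) * ((A * B)⁻¹ * A * (A * B)) := by group
      _ = _ := by rw [l6]
  have e4 : A * (A * B) = A * (B * A) := by rw [e3]; group
  exact mul_left_cancel e4

theorem support_cyc {α : Type*} [Fintype α] [DecidableEq α] {a b c : α} (x : α) (hx : cyc a b c x ≠ x) :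
    x = a ∨ x = b ∨ x = c := by
  by_contra h
  push Not at h
  exact hx (cyc_apply_of h.1 h.2.1 h.2.2)

section

variable {k : Type u} [Field k]

theorem exists_zeta [IsAlgClosed k] : ∃ ζ : k, 1 + ζ + ζ ^ 2 + ζ ^ 3 + ζ ^ 4 = 0 := by
  obtain ⟨ζ, hζ⟩ := IsAlgClosed.exists_root (Polynomial.X ^ 4 + Polynomial.X ^ 3 + Polynomial.X ^ 2 + Polynomial.X + 1 :
    Polynomial k) (by
    have : (Polynomial.X ^ 4 + Polynomial.X ^ 3 + Polynomial.X ^ 2 + Polynomial.X + 1 : Polynomial k).natDegree = 4 := by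
      compute_degree!
    rw [Polynomial.degree_eq_natDegree (by
      intro h; rw [h, Polynomial.natDegree_zero] at this; omega), this]
    norm_num)
  refine ⟨ζ, ?_⟩
  simp only [Polynomial.IsRoot.def, Polynomial.eval_add, Polynomial.eval_pow, Polynomial.eval_X,
    Polynomial.eval_one] at hζ
  linear_combination hζ

/-- eigenspaces of an operator of order five -/
theorem five_core (h5 : (5 : k) ≠ 0) {V : Type u} [AddCommGroup V] [Module k V]
    [FiniteDimensional k V] (f θ : Module.End k V) (hf : f ^ 5 = 1) (hθ : IsUnit θ) (hθf : θ * f = f ^ 2 * θ)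
    {ζ : k} (hζ : 1 + ζ + ζ ^ 2 + ζ ^ 3 + ζ ^ 4 = 0) :
      Function.Injective (fun i : Fin 4 => ζ ^ (i.val + 1)) ∧
      (∀ i : Fin 4, finrank k (f.eigenspace (ζ ^ (i.val + 1))) = finrank k (f.eigenspace ζ)) ∧
      4 * finrank k (f.eigenspace ζ) ≤ finrank k V ∧
      ∀ v : V, (5 : k) • (f v - v) ∈ ⨆ i : Fin 4, f.eigenspace (ζ ^ (i.val + 1)) := by
  have hζ5 : ζ ^ 5 = 1 := by linear_combination (ζ - 1) * hζ
  have hζ1 : ζ ≠ 1 := by
    rintro rfl
    apply h5
    linear_combination hζ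
  have hζ0 : ζ ≠ 0 := by rintro rfl; simp at hζ
  have hinj : Function.Injective (fun i : Fin 4 => ζ ^ (i.val + 1)) := by
    haveI : Fact (Nat.Prime 5) := ⟨by norm_num⟩
    have ho : orderOf ζ = 5 := orderOf_eq_prime hζ5 hζ1
    intro i j hij
    have := pow_injOn_Iio_orderOf (x := ζ) (show i.val + 1 ∈ Set.Iio (orderOf ζ) by
      rw [ho, Set.mem_Iio]; omega) (show j.val + 1 ∈ Set.Iio (orderOf ζ) by
      rw [ho, Set.mem_Iio]; omega) hij
    exact Fin.ext (by simpa using this)
  have hf5 : ∀ v, f (f (f (f (f v)))) = v := fun v => LinearMap.congr_fun hf v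
  have hθf' : ∀ v, θ (f v) = f (f (θ v)) := fun v => LinearMap.congr_fun hθf v
  have hm : ∀ a : k, ∀ v ∈ f.eigenspace a, θ v ∈ f.eigenspace (a ^ 3) := by
    intro a v hv
    rw [Module.End.mem_eigenspace_iff] at hv ⊢
    have e1 := hθf' v
    rw [hv, map_smul] at e1
    have e2 : f (θ v) = f (f (f (f (f (f (θ v)))))) := by rw [hf5]
    rw [e2, ← e1, map_smul, map_smul, ← e1, smul_smul, map_smul, map_smul, ← e1, smul_smul]
    congr 1; ring
  have hle : ∀ a : k, finrank k (f.eigenspace a) ≤ finrank k (f.eigenspace (a ^ 3)) := fun a =>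
    finrank_le_of_maps (unit_injective hθ) (hm a)
  have l1 := hle ζ
  have l2 := hle (ζ ^ 3)
  have l3 := hle (ζ ^ 4)
  have l4 := hle (ζ ^ 2)
  have p1 : (ζ ^ 3) ^ 3 = ζ ^ 4 := by linear_combination ζ ^ 4 * hζ5
  have p2 : (ζ ^ 4) ^ 3 = ζ ^ 2 := by linear_combination (ζ ^ 7 + ζ ^ 2) * hζ5
  have p3 : (ζ ^ 2) ^ 3 = ζ := by linear_combination ζ * hζ5
  rw [p1] at l2
  rw [p2] at l3
  rw [p3] at l4
  have hall : ∀ i : Fin 4, finrank k (f.eigenspace (ζ ^ (i.val + 1))) = finrank k (f.eigenspace ζ) := by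
    intro i
    fin_cases i
    · change finrank k (f.eigenspace (ζ ^ 1)) = _
      rw [pow_one]
    · simp only [Nat.reduceAdd]; omega
    · simp only [Nat.reduceAdd]; omega
    · simp only [Nat.reduceAdd]; omega
  refine ⟨hinj, hall, ?_, ?_⟩
  · have := sum_finrank_le (fun i : Fin 4 => f.eigenspace (ζ ^ (i.val + 1))) (f.eigenspaces_iSupIndep.comp hinj)
    rw [Finset.sum_congr rfl (fun i _ => hall i), Finset.sum_const, Finset.card_univ, Fintype.card_fin,
      smul_eq_mul] at this
    exact this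
  · intro v
    set w := f v - v with hw
    have hw0 : w + f w + f (f w) + f (f (f w)) + f (f (f (f w))) = 0 := by
      simp only [hw, map_sub]
      rw [hf5]; abel
    set u : k → V := fun l => w + l ^ 4 • f w + l ^ 3 • f (f w) + l ^ 2 • f (f (f w)) + l • f (f (f (f w))) with hu
    have hul : ∀ l : k, l ^ 5 = 1 → u l ∈ f.eigenspace l := by
      intro l hl
      rw [Module.End.mem_eigenspace_iff]
      simp only [hu, map_add, map_smul, smul_add, smul_smul]
      rw [hf5]
      have e1 : l * l ^ 4 = 1 := by rw [← pow_succ']; exact hl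
      have e2 : l * l ^ 3 = l ^ 4 := by ring
      have e3 : l * l ^ 2 = l ^ 3 := by ring
      have e4 : l * l = l ^ 2 := by ring
      rw [e1, e2, e3, e4]
      module
    have hsum : (5 : k) • w = ∑ i : Fin 4, u (ζ ^ (i.val + 1)) := by
      rw [Fin.sum_univ_four]
      simp only [hu, Fin.val_zero, Fin.val_one, Fin.val_two, zero_add, pow_one]
      have e3 : ((3 : Fin 4) : ℕ) = 3 := rfl
      rw [e3]
      have key : (5 : k) • w = (5 : k) • w - (w + f w + f (f w) + f (f (f w)) + f (f (f (f w)))) := by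
        rw [hw0, sub_zero]
      rw [key]
      have q : ∀ n : ℕ, ζ ^ (n + 5) = ζ ^ n := fun n => by rw [pow_add, hζ5, mul_one]
      have s4 : ζ ^ 4 = -1 - ζ - ζ ^ 2 - ζ ^ 3 := by linear_combination hζ
      simp only [← pow_mul, Nat.reduceMul, Nat.reduceAdd]
      have r6 : ζ ^ 6 = ζ := by simpa using q 1
      have r8 : ζ ^ 8 = ζ ^ 3 := q 3
      have r9 : ζ ^ 9 = ζ ^ 4 := q 4
      have r12 : ζ ^ 12 = ζ ^ 2 := by rw [q 7, q 2]
      have r16 : ζ ^ 16 = ζ := by rw [q 11, q 6, r6]
      rw [r6, r8, r9, r12, r16, s4]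
      module
    rw [hsum]
    refine Submodule.sum_mem _ fun i _ => ?_
    refine (le_iSup (fun i : Fin 4 => f.eigenspace (ζ ^ (i.val + 1))) i) (hul _ ?_)
    rw [← pow_mul, mul_comm, pow_mul, hζ5, one_pow]

end

end H49.TF
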