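import Cfsg.Agent.Lib.H49.TF6

set_option autoImplicit false
set_option linter.unusedSectionVars false

/-! Disjoint three-cycles through the eigenspaces of a five-cycle. -/

namespace H49.TF

open Equiv Equiv.Perm Module

universe u

section

variable {k : Type u} [Field k]

/-- the normalised lift of a five-cycle -/
theorem five_setup {α : Type*} [Fintype α] [DecidableEq α] {R : Type*} [Monoid R] {T : Perm α → R}
    (hT : IsFam T) {x y z r s p q : α} (hn : [x, y, z, r, s, p, q].Nodup) :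
    ((T (cyc r s x) * T (cyc x y z)) ^ 6) ^ 5 = 1 ∧
      ∃ θ : R, IsUnit θ ∧ θ * (T (cyc r s x) * T (cyc x y z)) ^ 6 = ((T (cyc r s x) * T (cyc x y z)) ^ 6) ^ 2 * θ := by
  obtain ⟨T', hT', hTT⟩ := hT.units
  let e : Fin 7 ↪ α := ⟨fun i => [x, y, z, r, s, p, q].get i, List.nodup_iff_injective_get.mp hn⟩
  obtain ⟨h1, θ, h2⟩ := hT'.five e _ rfl
  have e1 : ((T' (cyc (e 3) (e 4) (e 0)) * T' (cyc (e 0) (e 1) (e 2)) : Rˣ) : R) = T (cyc r s x) * T (cyc x y z) := by
    rw [Units.val_mul, hTT, hTT]; rfl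
  refine ⟨?_, θ, θ.isUnit, ?_⟩
  · rw [← e1, ← Units.val_pow_eq_pow_val, ← Units.val_pow_eq_pow_val, h1]; rfl
  · rw [← e1, ← Units.val_pow_eq_pow_val, ← Units.val_pow_eq_pow_val, ← Units.val_mul, ← Units.val_mul]
    congr 1
    rw [← h2, inv_mul_cancel_right]

theorem pts_of_disjoint {α : Type*} [Fintype α] [DecidableEq α] {a b c x y z : α} (hab : a ≠ b) (hac : a ≠ c)
    (hbc : b ≠ c) (hxy : x ≠ y) (hxz : x ≠ z) (hyz : y ≠ z)
    (h : (cyc a b c).Disjoint (cyc x y z)) : [a, b, c, x, y, z].Nodup := by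
  have hm : ∀ t, t = a ∨ t = b ∨ t = c → cyc a b c t ≠ t := by
    rintro t (rfl | rfl | rfl)
    · rw [cyc_apply_1 hab hac]; exact hab.symm
    · rw [cyc_apply_2 hac hbc]; exact hbc.symm
    · rw [cyc_apply_3]; exact hac
  have hm' : ∀ t, t = x ∨ t = y ∨ t = z → cyc x y z t ≠ t := by
    rintro t (rfl | rfl | rfl)
    · rw [cyc_apply_1 hxy hxz]; exact hxy.symm
    · rw [cyc_apply_2 hxz hyz]; exact hyz.symm
    · rw [cyc_apply_3]; exact hxz
  have key : ∀ t, (t = a ∨ t = b ∨ t = c) → (t = x ∨ t = y ∨ t = z) → False := by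
    intro t h1 h2
    rcases h t with h3 | h3
    · exact hm t h1 h3
    · exact hm' t h2 h3
  simp only [List.nodup_cons, List.mem_cons, List.not_mem_nil, or_false, not_or, List.nodup_nil, and_true,
    not_false_eq_true]
  refine ⟨⟨hab, hac, ?_, ?_, ?_⟩, ⟨hbc, ?_, ?_, ?_⟩, ⟨?_, ?_, ?_⟩, ⟨hxy, hxz⟩, hyz⟩ <;> intro h4
  · exact key a (Or.inl rfl) (Or.inl h4)
  · exact key a (Or.inl rfl) (Or.inr (Or.inl h4))
  · exact key a (Or.inl rfl) (Or.inr (Or.inr h4))
  · exact key b (Or.inr (Or.inl rfl)) (Or.inl h4)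
  · exact key b (Or.inr (Or.inl rfl)) (Or.inr (Or.inl h4))
  · exact key b (Or.inr (Or.inl rfl)) (Or.inr (Or.inr h4))
  · exact key c (Or.inr (Or.inr rfl)) (Or.inl h4)
  · exact key c (Or.inr (Or.inr rfl)) (Or.inr (Or.inl h4))
  · exact key c (Or.inr (Or.inr rfl)) (Or.inr (Or.inr h4))

/-- if the five-cycle acts trivially on the commutator space of a disjoint three-cycle then
disjoint three-cycles act trivially -/
theorem star_of_five {α : Type} [Fintype α] [DecidableEq α] {V : Type u} [AddCommGroup V] [Module k V]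
    {T : Perm α → Module.End k V} (hT : IsFam T) {x y z r s : α} (hn : [r, s, x, y, z].Nodup) {d : Perm α}
    (hd : ∀ t ∈ [r, s, x, y, z], d t = t)
    (h : ∀ v : V, T d ((T (cyc r s x) * T (cyc x y z)) ^ 6 • v - v) = (T (cyc r s x) * T (cyc x y z)) ^ 6 • v - v)
    (v : V) : T (cyc x y z) (T d v - v) = T d v - v := by
  set n : Module.End k V := T d - 1 with hn1
  set U := LinearMap.range n with hU
  let e : Fin 5 ↪ α := ⟨fun i => [r, s, x, y, z].get i, List.nodup_iff_injective_get.mp hn⟩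
  have hdis : ∀ c : Perm (Fin 5), (viaEmbeddingHom e c).Disjoint d := by
    intro c t
    by_cases ht : t ∈ Set.range e
    · obtain ⟨i, rfl⟩ := ht
      right
      exact hd _ (List.get_mem _ _)
    · left
      rw [viaEmbeddingHom_apply, viaEmbedding_apply_of_notMem _ _ _ ht]
  have hcomm : ∀ (c : Perm (Fin 5)) (v : V), T (viaEmbeddingHom e c) (n v) = n (T (viaEmbeddingHom e c) v) := by
    intro c v
    have := LinearMap.congr_fun (hT.commute_of_disjoint (hdis c)) v
    rw [hn1, LinearMap.sub_apply, LinearMap.sub_apply, map_sub]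
    change T _ (T d v) - _ = _
    rw [show T (viaEmbeddingHom e c) (T d v) = T d (T (viaEmbeddingHom e c) v) from this]
    rfl
  have hUi : ∀ c : Perm (Fin 5), ∀ v ∈ U, T (viaEmbeddingHom e c) v ∈ U := by
    rintro c _ ⟨w, rfl⟩
    exact ⟨T (viaEmbeddingHom e c) w, (hcomm c w).symm⟩
  have hF := (hT.emb e).res U hUi
  have e1 : viaEmbeddingHom e (cyc 0 1 2) = cyc r s x := emb_cyc e 0 1 2
  have e2 : viaEmbeddingHom e (cyc 2 3 4) = cyc x y z := emb_cyc e 2 3 4
  set A : Module.End k V := T (cyc r s x) * T (cyc x y z) with hA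
  have hAn : ∀ v, A (n v) = n (A v) := by
    intro v
    rw [hA]
    change T _ (T _ (n v)) = n (T _ (T _ v))
    rw [← e1, ← e2, hcomm, hcomm]
  have hAn6 : ∀ v, (A ^ 6) (n v) = n ((A ^ 6) v) := by
    intro v
    have : ∀ m : ℕ, (A ^ m) (n v) = n ((A ^ m) v) := by
      intro m
      induction m with
      | zero => rfl
      | succ m ih =>
        rw [pow_succ']
        change A ((A ^ m) (n v)) = n (A ((A ^ m) v))
        rw [ih, hAn]
    exact this 6
  have h6 : ∀ v, (A ^ 6) (n v) = n v := by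
    intro v
    rw [hAn6]
    have h1 := h v
    change T d ((A ^ 6) v - v) = (A ^ 6) v - v at h1
    rw [map_sub] at h1
    rw [hn1, LinearMap.sub_apply, LinearMap.sub_apply]
    change T d ((A ^ 6) v) - (A ^ 6) v = T d v - v
    rw [sub_eq_sub_iff_add_eq_add] at h1 ⊢
    rw [h1, add_comm]
  have h66 : (TF.res U ⟨T (viaEmbeddingHom e (cyc 0 1 2)), hUi _⟩ * TF.res U ⟨T (viaEmbeddingHom e (cyc 2 3 4)), hUi _⟩) ^ 6
      = 1 := by
    apply LinearMap.ext
    rintro ⟨_, ⟨w, rfl⟩⟩
    apply Subtype.ext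
    rw [← map_mul, ← map_pow, res_apply]
    change ((T (viaEmbeddingHom e (cyc 0 1 2)) * T (viaEmbeddingHom e (cyc 2 3 4))) ^ 6) (n w) = n w
    rw [e1, e2]
    exact h6 w
  have := hF.trivial_of_six (a := 0) (b := 1) (x := 2) (y := 3) (z := 4) (by decide) h66 (cyc 2 3 4)
  have h7 := congrArg (fun f => ((f ⟨n v, ⟨v, rfl⟩⟩ : U) : V)) this
  change T (viaEmbeddingHom e (cyc 2 3 4)) (n v) = n v at h7
  rw [e2] at h7
  exact h7

/-- disjoint three-cycles, from degree `t` to degree `t + 5` -/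
theorem star5_core (h5 : (5 : k) ≠ 0) {ζ : k} (hζ : 1 + ζ + ζ ^ 2 + ζ ^ 3 + ζ ^ 4 = 0) {t N : ℕ} (hP : P k t N)
    (ht : 3 ≤ t) {α : Type} [Fintype α]
    [DecidableEq α] (hα : t + 5 ≤ Fintype.card α) {V : Type u} [AddCommGroup V] [Module k V]
    [FiniteDimensional k V] {T : Perm α → Module.End k V} (hT : IsFam T)
    (hN : ∀ x y z r s p q : α, [x, y, z, r, s, p, q].Nodup →
      finrank k (((T (cyc r s x) * T (cyc x y z)) ^ 6).eigenspace ζ) < N) {c d : Perm α}
    (hc : c.IsThreeCycle) (hd : d.IsThreeCycle) (hcd : c.Disjoint d) (v : V) : T c (T d v - v) = T d v - v := by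
  obtain ⟨x, y, z, hxy, hxz, hyz, rfl⟩ := exists_cyc hc
  obtain ⟨p, q, w, hpq, hpw, hqw, rfl⟩ := exists_cyc hd
  have hn6 := pts_of_disjoint hxy hxz hyz hpq hpw hqw hcd
  obtain ⟨l, hl1, hl2⟩ := exists_extend _ hn6 2 (by simp; omega)
  match l, hl1 with
  | [r, s], _ =>
  simp only [List.cons_append, List.nil_append, List.nodup_cons, List.mem_cons, List.not_mem_nil, or_false, not_or,
    List.nodup_nil, and_true, not_false_eq_true] at hl2
  obtain ⟨⟨-, -, a1, a2, a3, a4, a5⟩, ⟨-, b1, b2, b3, b4, b5⟩, ⟨c1, c2, c3, c4, c5⟩, ⟨-, -, d1, d2⟩, ⟨-, f1, f2⟩,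
    ⟨g1, g2⟩, i1⟩ := hl2
  have sy : ∀ {a b : α}, ¬ a = b → ¬ b = a := fun h h' => h h'.symm
  have hn7 : [x, y, z, r, s, p, q].Nodup := by
    simp only [List.nodup_cons, List.mem_cons, List.not_mem_nil, or_false, not_or, List.nodup_nil, and_true,
      not_false_eq_true]
    exact ⟨⟨hxy, hxz, a4, a5, a1, a2⟩, ⟨hyz, b4, b5, b1, b2⟩, ⟨c4, c5, c1, c2⟩, ⟨i1, sy d1, sy f1⟩,
      ⟨sy d2, sy f2⟩, hpq⟩
  obtain ⟨hA5, θ, hθ, hθA⟩ := five_setup hT hn7
  have hN7 := hN _ _ _ _ _ _ _ hn7
  refine star_of_five hT (r := r) (s := s) ?_ ?_ ?_ v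
  · simp only [List.nodup_cons, List.mem_cons, List.not_mem_nil, or_false, not_or, List.nodup_nil, and_true,
      not_false_eq_true]
    exact ⟨⟨i1, sy a4, sy b4, sy c4⟩, ⟨sy a5, sy b5, sy c5⟩, ⟨hxy, hxz⟩, hyz⟩
  · intro t ht'
    simp only [List.mem_cons, List.not_mem_nil, or_false] at ht'
    rcases ht' with rfl | rfl | rfl | rfl | rfl
    · exact cyc_apply_of (sy d1) (sy f1) (sy g1)
    · exact cyc_apply_of (sy d2) (sy f2) (sy g2)
    · exact cyc_apply_of a1 a2 a3
    · exact cyc_apply_of b1 b2 b3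
    · exact cyc_apply_of c1 c2 c3
  · set A : Module.End k V := T (cyc r s x) * T (cyc x y z) with hA
    obtain ⟨-, h2, h3, h4⟩ := five_core h5 (A ^ 6) θ hA5 hθ hθA hζ
    intro v
    -- the complement of the five points
    have hdis : ∀ c' : Perm α, c'.support ⊆ ({x, y, z, r, s} : Finset α)ᶜ → T c' * A ^ 6 = A ^ 6 * T c' := by
      intro c' hc'
      have hfix : ∀ t ∈ ({x, y, z, r, s} : Finset α), c' t = t := by
        intro t ht'
        by_contra hne
        have := hc' (mem_support.mpr hne)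
        rw [Finset.mem_compl] at this
        exact this ht'
      have e1 : T c' * T (cyc r s x) = T (cyc r s x) * T c' := hT.commute_of_disjoint (by
        intro t
        by_cases h : cyc r s x t = t
        · exact Or.inr h
        · left
          apply hfix
          rcases support_cyc t h with rfl | rfl | rfl <;> simp)
      have e2 : T c' * T (cyc x y z) = T (cyc x y z) * T c' := hT.commute_of_disjoint (by
        intro t
        by_cases h : cyc x y z t = t
        · exact Or.inr h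
        · left
          apply hfix
          rcases support_cyc t h with rfl | rfl | rfl <;> simp)
      have e3 : Commute (T c') A := Commute.mul_right e1 e2
      exact (e3.pow_right 6).eq
    have htriv : ∀ i : Fin 4, ∀ v ∈ (A ^ 6).eigenspace (ζ ^ (i.val + 1)), T (cyc p q w) v = v := by
      intro i v hv
      refine hP.apply ht hT ({x, y, z, r, s} : Finset α)ᶜ ?_ _ ?_ ?_ _ ?_ v hv
      · rw [Finset.card_compl]
        have : ({x, y, z, r, s} : Finset α).card ≤ 5 := Finset.card_le_five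
        omega
      · intro c' hc' v hv
        rw [Module.End.mem_eigenspace_iff] at hv ⊢
        have := LinearMap.congr_fun (hdis c' hc') v
        rw [Module.End.mul_apply, Module.End.mul_apply] at this
        rw [← this, hv, map_smul]
      · rw [h2]; omega
      · intro t ht'
        rw [mem_support] at ht'
        rw [Finset.mem_compl]
        rcases support_cyc t ht' with rfl | rfl | rfl
        · simp [sy a1, sy b1, sy c1, d1, d2]
        · simp [sy a2, sy b2, sy c2, f1, f2]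
        · simp [sy a3, sy b3, sy c3, g1, g2]
    have hsup : ⨆ i : Fin 4, (A ^ 6).eigenspace (ζ ^ (i.val + 1)) ≤ (T (cyc p q w)).eigenspace 1 := by
      refine iSup_le fun i u hu => ?_
      rw [Module.End.mem_eigenspace_iff, one_smul]
      exact htriv i u hu
    have h6 := hsup (h4 v)
    rw [Module.End.mem_eigenspace_iff, one_smul, map_smul] at h6
    exact smul_right_injective V h5 h6

/-- disjoint three-cycles, from degree `t` to degree `t + 5` -/
theorem star5 [IsAlgClosed k] (h5 : (5 : k) ≠ 0) {t N : ℕ} (hP : P k t N) (ht : 3 ≤ t) {α : Type} [Fintype α]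
    [DecidableEq α] (hα : t + 5 ≤ Fintype.card α) {V : Type u} [AddCommGroup V] [Module k V]
    [FiniteDimensional k V] {T : Perm α → Module.End k V} (hT : IsFam T) (hn : finrank k V < 4 * N) {c d : Perm α}
    (hc : c.IsThreeCycle) (hd : d.IsThreeCycle) (hcd : c.Disjoint d) (v : V) : T c (T d v - v) = T d v - v := by
  obtain ⟨ζ, hζ⟩ := exists_zeta (k := k)
  refine star5_core h5 hζ hP ht hα hT (fun x y z r s p q hn7 => ?_) hc hd hcd v
  obtain ⟨hA5, θ, hθ, hθA⟩ := five_setup hT hn7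
  obtain ⟨-, -, h3, -⟩ := five_core h5 _ θ hA5 hθ hθA hζ
  omega

end

end H49.TF
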