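import Cfsg.Agent.Lib.H49.TF7

set_option autoImplicit false
set_option linter.unusedSectionVars false

/-! Lower bound for the dimension when disjoint three-cycles act trivially on commutator spaces. -/

namespace H49.TF

open Equiv Equiv.Perm Module

universe u

section

variable {α : Type*} [Fintype α] [DecidableEq α] {k : Type*} [Field k] {V : Type*} [AddCommGroup V] [Module k V]
  [FiniteDimensional k V] {T : Perm α → Module.End k V}

theorem exists_cyc_at {c : Perm α} (h : c.IsThreeCycle) {x : α} (hx : c x ≠ x) :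
    ∃ y z : α, x ≠ y ∧ x ≠ z ∧ y ≠ z ∧ c = cyc x y z := by
  have hx' : x ∈ c.support := mem_support.mpr hx
  have h1 := h.nodup_iff_mem_support.mpr hx'
  have h2 := h.eq_swap_mul_swap_iff_mem_support.mpr hx'
  simp only [List.nodup_cons, List.mem_cons, List.not_mem_nil, or_false, not_or, List.nodup_nil, and_true,
    not_false_eq_true] at h1
  exact ⟨c x, c (c x), h1.1.1, h1.1.2, h1.2, h2⟩

/-- commutator space -/
def cs (T : Perm α → Module.End k V) (c : Perm α) : Submodule k V := LinearMap.range (T c - 1)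

theorem mem_cs (c : Perm α) (v : V) : T c v - v ∈ cs T c := ⟨v, rfl⟩

theorem sub_mem_of_cs {U : Submodule k V} {c : Perm α} (h : cs T c ≤ U) {v : V} (hv : v ∈ U) : T c v ∈ U := by
  have : T c v = (T c v - v) + v := by abel
  rw [this]
  exact U.add_mem (h (mem_cs c v)) hv

theorem IsFam.ap3 (hT : IsFam T) (c : Perm α) (v : V) : T c (T c (T c v)) = v :=
  LinearMap.congr_fun (hT.cube c) v

theorem IsFam.conj_ap (hT : IsFam T) {c : Perm α} (hc : c.IsThreeCycle) (d : Perm α) (v : V) :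
    T c (T d v) = T (c * d * c⁻¹) (T c v) := LinearMap.congr_fun (hT.conj c d hc) v

theorem IsFam.inv_ap (hT : IsFam T) (c : Perm α) (v : V) : T c⁻¹ v = T c (T c v) := by
  rw [hT.inv]; rfl

/-- stabilising a subspace is closed under conjugation -/
theorem IsFam.stab_conj (hT : IsFam T) {U : Submodule k V} {c d : Perm α} (hc3 : c.IsThreeCycle)
    (hc : ∀ v ∈ U, T c v ∈ U) (hd : ∀ v ∈ U, T d v ∈ U) (v : V) (hv : v ∈ U) : T (c * d * c⁻¹) v ∈ U := by
  have h1 := hT.conj_ap hc3 d (T c (T c v))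
  rw [hT.ap3] at h1
  rw [← h1]
  exact hc _ (hd _ (hc _ (hc _ hv)))

/-- a subspace stable under the three-cycles through two points is stable -/
theorem IsFam.stab_all (hT : IsFam T) {U : Submodule k V} {a b : α} (hab : a ≠ b)
    (h : ∀ x, x ≠ a → x ≠ b → ∀ v ∈ U, T (cyc a b x) v ∈ U) (c : Perm α) (v : V) (hv : v ∈ U) : T c v ∈ U := by
  by_cases hc : c.IsThreeCycle
  swap
  · rw [hT.triv c hc]; exact hv
  have hinv : ∀ c, (∀ v ∈ U, T c v ∈ U) → ∀ v ∈ U, T c⁻¹ v ∈ U := by
    intro c hc v hv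
    rw [hT.inv_ap]
    exact hc _ (hc _ hv)
  have h2 : ∀ x y, x ≠ a → x ≠ b → y ≠ a → y ≠ b → x ≠ y → ∀ v ∈ U, T (cyc b x y) v ∈ U := by
    intro x y hxa hxb hya hyb hxy v hv
    have := hT.stab_conj (cyc_three hab hxa.symm hxb.symm) (h x hxa hxb) (h y hya hyb) v hv
    rwa [conj_cyc, cyc_apply_1 hab hxa.symm, cyc_apply_2 hxa.symm hxb.symm, cyc_apply_of hya hyb hxy.symm] at this
  have h3 : ∀ x y, x ≠ a → x ≠ b → y ≠ a → y ≠ b → x ≠ y → ∀ v ∈ U, T (cyc x a y) v ∈ U := by
    intro x y hxa hxb hya hyb hxy v hv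
    have := hT.stab_conj (cyc_three hab hxa.symm hxb.symm).inv (hinv _ (h x hxa hxb)) (h y hya hyb) v hv
    rwa [conj_cyc, cyc_inv, cyc_apply_3, cyc_apply_2 hxa hab.symm, cyc_apply_of hxy.symm hyb hya] at this
  have h4 : ∀ x y z, x ≠ a → x ≠ b → y ≠ a → y ≠ b → z ≠ a → z ≠ b → x ≠ y → x ≠ z → y ≠ z →
      ∀ v ∈ U, T (cyc z x y) v ∈ U := by
    intro x y z hxa hxb hya hyb hza hzb hxy hxz hyz v hv
    have := hT.stab_conj (cyc_three hab hza.symm hzb.symm) (h z hza hzb) (h2 x y hxa hxb hya hyb hxy) v hv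
    rwa [conj_cyc, cyc_apply_2 hza.symm hzb.symm, cyc_apply_of hxa hxb hxz, cyc_apply_of hya hyb hyz] at this
  by_cases ha : c a = a
  · by_cases hb : c b = b
    · obtain ⟨x, y, z, hxy, hxz, hyz, rfl⟩ := exists_cyc hc
      have hx : cyc x y z x ≠ x := by rw [cyc_apply_1 hxy hxz]; exact hxy.symm
      have hy : cyc x y z y ≠ y := by rw [cyc_apply_2 hxz hyz]; exact hyz.symm
      have hz : cyc x y z z ≠ z := by rw [cyc_apply_3]; exact hxz
      refine h4 y z x ?_ ?_ ?_ ?_ ?_ ?_ hyz hxy.symm hxz.symm v hv <;> rintro rfl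
      · exact hy ha
      · exact hy hb
      · exact hz ha
      · exact hz hb
      · exact hx ha
      · exact hx hb
    · obtain ⟨y, z, hby, hbz, hyz, rfl⟩ := exists_cyc_at hc hb
      have hy : cyc b y z y ≠ y := by rw [cyc_apply_2 hbz hyz]; exact hyz.symm
      have hz : cyc b y z z ≠ z := by rw [cyc_apply_3]; exact hbz
      refine h2 y z ?_ hby.symm ?_ hbz.symm hyz v hv
      · rintro rfl; exact hy ha
      · rintro rfl; exact hz ha
  · obtain ⟨y, z, hay, haz, hyz, rfl⟩ := exists_cyc_at hc ha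
    by_cases hyb : y = b
    · subst hyb
      exact h z haz.symm hyz.symm v hv
    · by_cases hzb : z = b
      · subst hzb
        have : cyc a y z = (cyc a z y)⁻¹ := by
          rw [cyc_inv, cyc_rot hay haz hyz]
        rw [this]
        exact hinv _ (h y hay.symm hyz) v hv
      · rw [← cyc_rot haz.symm hyz.symm hay] 
        exact h3 z y haz.symm hzb hay.symm hyb hyz.symm v hv

/-- the dimension of the commutator space does not depend on the three-cycle -/
theorem IsFam.finrank_cs (hT : IsFam T) (h5 : 5 ≤ Fintype.card α) {c d : Perm α} (hc : c.IsThreeCycle)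
    (hd : d.IsThreeCycle) : finrank k (cs T c) = finrank k (cs T d) := by
  have key : ∀ {c d : Perm α}, c.IsThreeCycle → d.IsThreeCycle → finrank k (cs T c) ≤ finrank k (cs T d) := by
    intro c d hc hd
    obtain ⟨x, y, z, hxy, hxz, hyz, rfl⟩ := exists_cyc hc
    obtain ⟨x', y', z', hxy', hxz', hyz', rfl⟩ := exists_cyc hd
    obtain ⟨σ, hσ, hσ'⟩ := exists_alt (l := [x, y, z]) (l' := [x', y', z'])
      (by simp [hxy, hxz, hyz]) (by simp [hxy', hxz', hyz']) rfl (by simpa using h5)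
    simp only [List.map_cons, List.map_nil, List.cons.injEq, and_true] at hσ'
    obtain ⟨s1, s2, s3⟩ := hσ'
    obtain ⟨g, -, hg, hgT⟩ := hT.exists_lift_alt hσ
    refine finrank_le_of_maps (unit_injective hg) ?_
    rintro _ ⟨w, rfl⟩
    refine ⟨g w, ?_⟩
    have := LinearMap.congr_fun (hgT (cyc x y z)) w
    rw [conj_cyc, s1, s2, s3] at this
    rw [LinearMap.sub_apply, LinearMap.sub_apply, map_sub]
    change T _ (g w) - g w = g (T _ w) - g w
    rw [show g (T (cyc x y z) w) = T (cyc x' y' z') (g w) from this]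
  exact le_antisymm (key hc hd) (key hd hc)

/-- disjoint three-cycles act trivially on commutator spaces -/
def Star (T : Perm α → Module.End k V) : Prop :=
  ∀ c d : Perm α, c.IsThreeCycle → d.IsThreeCycle → c.Disjoint d → ∀ v ∈ cs T d, T c v = v

theorem disjoint_cyc {a b c x y z : α} (h1 : a ≠ x ∧ a ≠ y ∧ a ≠ z) (h2 : b ≠ x ∧ b ≠ y ∧ b ≠ z)
    (h3 : c ≠ x ∧ c ≠ y ∧ c ≠ z) : (cyc a b c).Disjoint (cyc x y z) := by
  intro t
  by_cases h : cyc x y z t = t
  · exact Or.inr h
  · left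
    rcases support_cyc t h with rfl | rfl | rfl
    · exact cyc_apply_of h1.1.symm h2.1.symm h3.1.symm
    · exact cyc_apply_of h1.2.1.symm h2.2.1.symm h3.2.1.symm
    · exact cyc_apply_of h1.2.2.symm h2.2.2.symm h3.2.2.symm

/-- the chain argument -/
theorem chain (hT : IsFam T) (hS : Star T) (hne : ∃ c, T c ≠ 1) {a b z y w : α} (hn : [a, b, z, y, w].Nodup)
    (S : Finset α) (hSn : ∀ x ∈ S, x ≠ a ∧ x ≠ b ∧ x ≠ z ∧ x ≠ y ∧ x ≠ w) :
    ¬ cs T (cyc a b z) ≤ ⨆ x ∈ S, cs T (cyc a b x) := by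
  intro hle
  obtain ⟨c0, hc0⟩ := hne
  apply hc0
  refine hT.trivial_of_commute hn ?_ c0
  simp only [List.nodup_cons, List.mem_cons, List.not_mem_nil, or_false, not_or, List.nodup_nil, and_true,
    not_false_eq_true] at hn
  obtain ⟨⟨hab, haz, hay, haw⟩, ⟨hbz, hby, hbw⟩, ⟨hzy, hzw⟩, hyw⟩ := hn
  have sy : ∀ {a b : α}, ¬ a = b → b ≠ a := fun h h' => h h'.symm
  have hc3 : (cyc a b z).IsThreeCycle := cyc_three hab haz hbz
  have hd3 : (cyc z y w).IsThreeCycle := cyc_three hzy hzw hyw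
  have h1 : ∀ v, T (cyc z y w) (T (cyc a b z) v - v) = T (cyc a b z) v - v := by
    have hsup : ⨆ x ∈ S, cs T (cyc a b x) ≤ (T (cyc z y w)).eigenspace 1 := by
      refine iSup₂_le fun x hx u hu => ?_
      obtain ⟨n1, n2, n3, n4, n5⟩ := hSn x hx
      rw [Module.End.mem_eigenspace_iff, one_smul]
      refine hS _ _ hd3 (cyc_three hab n1.symm n2.symm) ?_ u hu
      exact disjoint_cyc ⟨sy haz, sy hbz, n3.symm⟩ ⟨sy hay, sy hby, n4.symm⟩ ⟨sy haw, sy hbw, n5.symm⟩
    intro v
    have := hsup (hle (mem_cs (cyc a b z) v))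
    rwa [Module.End.mem_eigenspace_iff, one_smul] at this
  -- swap the roles
  have hσ : swap a y * swap b w ∈ alternatingGroup α := by
    rw [mem_alternatingGroup, Perm.sign_mul, Perm.sign_swap hay, Perm.sign_swap hbw]; rfl
  obtain ⟨g, -, hg, hgT⟩ := hT.exists_lift_alt hσ
  have e1 : swap a y * swap b w * cyc a b z * (swap a y * swap b w)⁻¹ = cyc z y w := by
    rw [conj_cyc]
    simp only [Perm.mul_apply]
    rw [swap_apply_of_ne_of_ne hab haw, swap_apply_left, swap_apply_left, swap_apply_of_ne_of_ne (sy haw) (sy hyw),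
      swap_apply_of_ne_of_ne (sy hbz) hzw, swap_apply_of_ne_of_ne (sy haz) hzy, ← cyc_rot hzy hzw hyw]
  have e2 : swap a y * swap b w * cyc z y w * (swap a y * swap b w)⁻¹ = cyc a b z := by
    rw [conj_cyc]
    simp only [Perm.mul_apply]
    rw [swap_apply_of_ne_of_ne (sy hbz) hzw, swap_apply_of_ne_of_ne (sy haz) hzy,
      swap_apply_of_ne_of_ne (sy hby) hyw, swap_apply_right, swap_apply_right,
      swap_apply_of_ne_of_ne (sy hab) hby, cyc_rot (sy haz) (sy hbz) hab]
  have g1 : ∀ v, g (T (cyc a b z) v) = T (cyc z y w) (g v) := fun v => by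
    have := LinearMap.congr_fun (hgT (cyc a b z)) v
    rw [e1] at this; exact this
  have g2 : ∀ v, g (T (cyc z y w) v) = T (cyc a b z) (g v) := fun v => by
    have := LinearMap.congr_fun (hgT (cyc z y w)) v
    rw [e2] at this; exact this
  have h2 : ∀ v, T (cyc a b z) (T (cyc z y w) v - v) = T (cyc z y w) v - v := by
    intro v
    obtain ⟨u, rfl⟩ : ∃ u, g u = v := by
      obtain ⟨gu, rfl⟩ := hg
      refine ⟨(gu⁻¹ : (Module.End k V)ˣ).1 v, ?_⟩
      change (gu.1 * (gu⁻¹ : (Module.End k V)ˣ).1) v = v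
      rw [Units.mul_inv]; rfl
    rw [← g1, ← map_sub, ← g2, h1, map_sub]
  ext v
  change T (cyc a b z) (T (cyc z y w) v) = T (cyc z y w) (T (cyc a b z) v)
  have h3 := h1 v
  have h4 := h2 v
  rw [map_sub] at h3 h4
  rw [sub_eq_iff_eq_add] at h3 h4
  rw [h3, h4]; abel

end

end H49.TF
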