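import Cfsg.Agent.Lib.H49.TF8

set_option autoImplicit false
set_option linter.unusedSectionVars false

/-! Dimension bounds. -/

namespace H49.TF

open Equiv Equiv.Perm Module

universe u

section

variable {α : Type*} [Fintype α] [DecidableEq α] {k : Type*} [Field k] {V : Type*} [AddCommGroup V] [Module k V]
  [FiniteDimensional k V] {T : Perm α → Module.End k V}

/-- sum of commutator spaces -/
def US (T : Perm α → Module.End k V) (a b : α) (S : Finset α) : Submodule k V := ⨆ x ∈ S, cs T (cyc a b x)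

theorem US_insert (a b z : α) (S : Finset α) : US T a b (insert z S) = cs T (cyc a b z) ⊔ US T a b S := by
  unfold US
  rw [Finset.iSup_insert]

theorem US_lt (hT : IsFam T) (hS : Star T) (hne : ∃ c, T c ≠ 1) {a b z y w : α} (hn : [a, b, z, y, w].Nodup)
    (S : Finset α) (hSn : ∀ x ∈ S, x ≠ a ∧ x ≠ b ∧ x ≠ z ∧ x ≠ y ∧ x ≠ w) :
    finrank k (US T a b S) + 1 ≤ finrank k (US T a b (insert z S)) := by
  apply Submodule.finrank_lt_finrank_of_lt
  rw [US_insert]
  refine lt_of_le_of_ne le_sup_right (fun h => chain hT hS hne hn S hSn ?_)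
  change _ ≤ US T a b S
  rw [h]
  exact le_sup_left

theorem exists_three {a b : α} (S : Finset α) (hcard : S.card + 5 ≤ Fintype.card α) (hab : a ≠ b) :
    ∃ z y w, [a, b, z, y, w].Nodup ∧ ∀ x ∈ S, x ≠ z ∧ x ≠ y ∧ x ≠ w := by
  have h1 : 3 ≤ (insert a (insert b S))ᶜ.card := by
    rw [Finset.card_compl]
    have := Finset.card_insert_le a (insert b S)
    have := Finset.card_insert_le b S
    omega
  obtain ⟨R, hR1, hR2⟩ := Finset.exists_subset_card_eq h1
  obtain ⟨z, y, w, hzy, hzw, hyw, rfl⟩ := Finset.card_eq_three.mp hR2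
  have m1 := hR1 (by simp : z ∈ ({z, y, w} : Finset α))
  have m2 := hR1 (by simp : y ∈ ({z, y, w} : Finset α))
  have m3 := hR1 (by simp : w ∈ ({z, y, w} : Finset α))
  simp only [Finset.mem_compl, Finset.mem_insert, not_or] at m1 m2 m3
  refine ⟨z, y, w, ?_, fun x hx => ⟨?_, ?_, ?_⟩⟩
  · simp only [List.nodup_cons, List.mem_cons, List.not_mem_nil, or_false, not_or, List.nodup_nil, and_true,
      not_false_eq_true]
    exact ⟨⟨hab, fun h => m1.1 h.symm, fun h => m2.1 h.symm, fun h => m3.1 h.symm⟩,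
      ⟨fun h => m1.2.1 h.symm, fun h => m2.2.1 h.symm, fun h => m3.2.1 h.symm⟩, ⟨hzy, hzw⟩, hyw⟩
  · rintro rfl; exact m1.2.2 hx
  · rintro rfl; exact m2.2.2 hx
  · rintro rfl; exact m3.2.2 hx

theorem finrank_fixed (c : Perm α) : finrank k (cs T c) + finrank k (LinearMap.ker (T c - 1)) = finrank k V :=
  LinearMap.finrank_range_add_finrank_ker _

theorem bound (hT : IsFam T) (hS : Star T) (hne : ∃ c, T c ≠ 1) {a b : α} (hab : a ≠ b) {c : Perm α}
    (hc : c.IsThreeCycle) (m : ℕ) : ∀ S : Finset α, a ∉ S → b ∉ S → S.card + m + 5 = Fintype.card α →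
      finrank k (US T a b S) + m + finrank k (cs T c) ≤ finrank k V := by
  induction m with
  | zero =>
    intro S ha hb hcard
    obtain ⟨z, y, w, hn, hSn⟩ := exists_three (a := a) (b := b) S (by omega) hab
    simp only [List.nodup_cons, List.mem_cons, List.not_mem_nil, or_false, not_or, List.nodup_nil, and_true,
      not_false_eq_true] at hn
    obtain ⟨⟨-, haz, hay, haw⟩, ⟨hbz, hby, hbw⟩, ⟨hzy, hzw⟩, hyw⟩ := hn
    have hd : (cyc z y w).IsThreeCycle := cyc_three hzy hzw hyw
    have h1 : US T a b S ≤ LinearMap.ker (T (cyc z y w) - 1) := by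
      refine iSup₂_le fun x hx u hu => ?_
      obtain ⟨n1, n2, n3⟩ := hSn x hx
      have hxa : x ≠ a := by rintro rfl; exact ha hx
      have hxb : x ≠ b := by rintro rfl; exact hb hx
      rw [LinearMap.mem_ker, LinearMap.sub_apply, sub_eq_zero]
      exact hS _ _ hd (cyc_three hab hxa.symm hxb.symm)
        (disjoint_cyc ⟨fun h => haz h.symm, fun h => hbz h.symm, n1.symm⟩
          ⟨fun h => hay h.symm, fun h => hby h.symm, n2.symm⟩
          ⟨fun h => haw h.symm, fun h => hbw h.symm, n3.symm⟩) u hu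
    have h2 := Submodule.finrank_mono h1
    have h3 := finrank_fixed (T := T) (k := k) (V := V) (cyc z y w)
    rw [hT.finrank_cs (by omega) hc hd]
    omega
  | succ m ih =>
    intro S ha hb hcard
    obtain ⟨z, y, w, hn, hSn⟩ := exists_three (a := a) (b := b) S (by omega) hab
    have h1 := US_lt hT hS hne hn S (fun x hx => ⟨by rintro rfl; exact ha hx, by rintro rfl; exact hb hx,
      (hSn x hx).1, (hSn x hx).2.1, (hSn x hx).2.2⟩)
    simp only [List.nodup_cons, List.mem_cons, List.not_mem_nil, or_false, not_or, List.nodup_nil, and_true,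
      not_false_eq_true] at hn
    obtain ⟨⟨-, haz, hay, haw⟩, ⟨hbz, hby, hbw⟩, ⟨hzy, hzw⟩, hyw⟩ := hn
    have hzS : z ∉ S := fun h => (hSn z h).1 rfl
    have h2 := ih (insert z S) (by simp [haz, ha]) (by simp [hbz, hb]) (by
      rw [Finset.card_insert_of_notMem hzS]; omega)
    omega

theorem US_singleton (a b x : α) : US T a b {x} = cs T (cyc a b x) := by
  unfold US
  rw [Finset.iSup_singleton]

/-- first bound -/
theorem bound_one (hT : IsFam T) (hS : Star T) (hne : ∃ c, T c ≠ 1) (h6 : 6 ≤ Fintype.card α) {c : Perm α}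
    (hc : c.IsThreeCycle) : 2 * finrank k (cs T c) + Fintype.card α ≤ finrank k V + 6 := by
  obtain ⟨x, y, z, hxy, hxz, hyz, rfl⟩ := exists_cyc hc
  have := bound hT hS hne hxy (cyc_three hxy hxz hyz) (Fintype.card α - 6) {z} (by simpa using hxz)
    (by simpa using hyz) (by rw [Finset.card_singleton]; omega)
  rw [US_singleton] at this
  omega

/-- relation in the alternating group of degree four -/
theorem comm_sq (hT : IsFam T) {a b x y : α} (hn : [a, b, x, y].Nodup) (e : Perm α) :
    (T (cyc a b x) * T (cyc a b y)) ^ 2 * T e = T e * (T (cyc a b x) * T (cyc a b y)) ^ 2 := by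
  let i : Fin 4 ↪ α := ⟨fun i => [a, b, x, y].get i, List.nodup_iff_injective_get.mp hn⟩
  have e1 : viaEmbeddingHom i (cyc 0 1 2) = cyc a b x := emb_cyc i 0 1 2
  have e2 : viaEmbeddingHom i (cyc 0 1 3) = cyc a b y := emb_cyc i 0 1 3
  have e3 : (cyc a b x * cyc a b y) ^ 2 = 1 := by
    rw [← e1, ← e2, ← map_mul, ← map_pow]
    have : (cyc 0 1 2 * cyc 0 1 3 : Perm (Fin 4)) ^ 2 = 1 := by decide
    rw [this, map_one]
  simp only [List.nodup_cons, List.mem_cons, List.not_mem_nil, or_false, not_or, List.nodup_nil, and_true,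
      not_false_eq_true] at hn
  obtain ⟨⟨hab, hax, hay⟩, ⟨hbx, hby⟩, hxy⟩ := hn
  have hl : ∀ e, T (cyc a b x) * T (cyc a b y) * T e =
      T ((cyc a b x * cyc a b y) * e * (cyc a b x * cyc a b y)⁻¹) * (T (cyc a b x) * T (cyc a b y)) := by
    intro e
    have h1 : cyc a b x * (cyc a b y * e * (cyc a b y)⁻¹) * (cyc a b x)⁻¹ =
      (cyc a b x * cyc a b y) * e * (cyc a b x * cyc a b y)⁻¹ := by group
    rw [mul_assoc, hT.conj _ _ (cyc_three hab hay hby), ← mul_assoc, hT.conj _ _ (cyc_three hab hax hbx), h1,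
      mul_assoc]
  rw [pow_two, mul_assoc, hl, ← mul_assoc, hl, mul_assoc]
  congr 2
  rw [pow_two] at e3
  calc cyc a b x * cyc a b y * (cyc a b x * cyc a b y * e * (cyc a b x * cyc a b y)⁻¹) * (cyc a b x * cyc a b y)⁻¹
      = (cyc a b x * cyc a b y * (cyc a b x * cyc a b y)) * e * (cyc a b x * cyc a b y * (cyc a b x * cyc a b y))⁻¹ := by
        group
    _ = e := by rw [e3]; group

theorem sq_one (hT : IsFam T) (hirr : Irr T) [Nontrivial V] {a b x y : α} (hn : [a, b, x, y].Nodup)
    (hlt : finrank k ↥(cs T (cyc a b x) ⊔ cs T (cyc a b y)) < finrank k V) :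
    (T (cyc a b x) * T (cyc a b y)) ^ 2 = 1 := by
  set z := (T (cyc a b x) * T (cyc a b y)) ^ 2 with hz
  set W := cs T (cyc a b x) ⊔ cs T (cyc a b y) with hW
  -- `z` acts trivially modulo `W`
  have h1 : ∀ v, z v - v ∈ W := by
    have s1 : ∀ u v : V, u - v ∈ W → T (cyc a b x) u - v ∈ W := by
      intro u v h
      have : T (cyc a b x) u - v = (T (cyc a b x) u - u) + (u - v) := by abel
      rw [this]
      exact W.add_mem (le_sup_left (a := cs T (cyc a b x)) (mem_cs _ _)) h
    have s2 : ∀ u v : V, u - v ∈ W → T (cyc a b y) u - v ∈ W := by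
      intro u v h
      have : T (cyc a b y) u - v = (T (cyc a b y) u - u) + (u - v) := by abel
      rw [this]
      exact W.add_mem (le_sup_right (a := cs T (cyc a b x)) (mem_cs _ _)) h
    intro v
    have : z v = T (cyc a b x) (T (cyc a b y) (T (cyc a b x) (T (cyc a b y) v))) := by
      rw [hz, pow_two]; rfl
    rw [this]
    exact s1 _ _ (s2 _ _ (s1 _ _ (s2 _ _ (by rw [sub_self]; exact W.zero_mem))))
  have h2 : ∀ c, ∀ v ∈ LinearMap.ker (z - 1), T c v ∈ LinearMap.ker (z - 1) := by
    intro c v hv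
    rw [LinearMap.mem_ker, LinearMap.sub_apply, sub_eq_zero] at hv ⊢
    have := LinearMap.congr_fun (comm_sq hT hn c) v
    change z (T c v) = T c (z v) at this
    rw [this, hv]
    rfl
  have h3 := LinearMap.finrank_range_add_finrank_ker (z - 1)
  have h4 : finrank k (LinearMap.range (z - 1)) ≤ finrank k W := by
    apply Submodule.finrank_mono
    rintro _ ⟨v, rfl⟩
    exact h1 v
  rcases hirr _ h2 with h | h
  · rw [h, finrank_bot] at h3
    omega
  · ext v
    have : v ∈ LinearMap.ker (z - 1) := by rw [h]; trivial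
    rw [LinearMap.mem_ker, LinearMap.sub_apply, sub_eq_zero] at this
    exact this

end

end H49.TF
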