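import Cfsg.Agent.Lib.H49.TF15

set_option autoImplicit false
set_option linter.unusedSectionVars false

/-! Canonical lifts of three-cycles in central extensions of alternating groups. -/

namespace H49.TF

open Equiv Equiv.Perm Module

section Abs

variable {G : Type*} [Group G]

theorem good_abs {x g z : G} (hz : g * x * g⁻¹ = z * x⁻¹) (zc : ∀ y, y * z = z * y)
    (xc : ∀ y, y * x ^ 3 = x ^ 3 * y) :
    (z * (x⁻¹ * x⁻¹)) ^ 3 = 1 ∧ g * (z * (x⁻¹ * x⁻¹)) * g⁻¹ = (z * (x⁻¹ * x⁻¹))⁻¹ := by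
  have zcomm : ∀ y, Commute z y := fun y => (zc y).symm
  have h1 : g * x ^ 3 * g⁻¹ = x ^ 3 := by rw [xc g, mul_inv_cancel_right]
  have h2 : g * x ^ 3 * g⁻¹ = z ^ 3 * (x⁻¹) ^ 3 := by
    rw [← conj_pow, hz, (zcomm x⁻¹).mul_pow]
  rw [h1, inv_pow] at h2
  have e2 : z ^ 3 = x ^ 3 * x ^ 3 := by
    calc z ^ 3 = (z ^ 3 * (x ^ 3)⁻¹) * x ^ 3 := by rw [inv_mul_cancel_right]
      _ = x ^ 3 * x ^ 3 := by rw [← h2]
  constructor
  · rw [(zcomm _).mul_pow, e2]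
    have : (x⁻¹ * x⁻¹) ^ 3 = (x ^ 3 * x ^ 3)⁻¹ := by
      rw [← pow_two, ← pow_mul, ← pow_add, inv_pow]
    rw [this, mul_inv_cancel]
  · have h3 : g * x⁻¹ * g⁻¹ = x * z⁻¹ := by
      calc g * x⁻¹ * g⁻¹ = (g * x * g⁻¹)⁻¹ := by group
        _ = x * z⁻¹ := by rw [hz, mul_inv_rev, inv_inv]
    have h4 : x * z⁻¹ = z⁻¹ * x := ((zcomm x).symm.inv_right).eq
    calc g * (z * (x⁻¹ * x⁻¹)) * g⁻¹ = (g * z) * (x⁻¹ * x⁻¹) * g⁻¹ := by group
      _ = (z * g) * (x⁻¹ * x⁻¹) * g⁻¹ := by rw [zc g]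
      _ = z * ((g * x⁻¹ * g⁻¹) * (g * x⁻¹ * g⁻¹)) := by group
      _ = z * ((z⁻¹ * x) * (x * z⁻¹)) := by rw [h3]; rw [← h4]
      _ = (z * (x⁻¹ * x⁻¹))⁻¹ := by simp [mul_assoc]

theorem comm_abs {y v h ζ z1 z2 : G} (hζc : ∀ t, t * ζ = ζ * t) (hz1c : ∀ t, t * z1 = z1 * t)
    (hz2c : ∀ t, t * z2 = z2 * t) (hv3c : ∀ t, t * v ^ 3 = v ^ 3 * t) (e0 : v * y * v⁻¹ = ζ * y)
    (e1 : h * y * h⁻¹ = z1 * y) (e2 : h * v * h⁻¹ = z2 * v⁻¹) : v * y = y * v := by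
  have e3 : v⁻¹ * y * v = ζ * y := by
    have h1 : h * (v * y * v⁻¹) * h⁻¹ = h * (ζ * y) * h⁻¹ := by rw [e0]
    have h2 : h * (v * y * v⁻¹) * h⁻¹ = (h * v * h⁻¹) * (h * y * h⁻¹) * (h * v * h⁻¹)⁻¹ := by group
    have h3 : h * (ζ * y) * h⁻¹ = ζ * (h * y * h⁻¹) := by
      calc h * (ζ * y) * h⁻¹ = (h * ζ) * (y * h⁻¹) := by group
        _ = (ζ * h) * (y * h⁻¹) := by rw [hζc h]
        _ = ζ * (h * y * h⁻¹) := by group
    rw [h2, h3, e1, e2] at h1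
    have h4 : z2 * v⁻¹ * (z1 * y) * (z2 * v⁻¹)⁻¹ = z1 * (v⁻¹ * y * v) := by
      calc z2 * v⁻¹ * (z1 * y) * (z2 * v⁻¹)⁻¹ = z2 * (v⁻¹ * z1) * (y * v * z2⁻¹) := by group
        _ = z2 * (z1 * v⁻¹) * (y * v * z2⁻¹) := by rw [hz1c v⁻¹]
        _ = (z2 * (z1 * (v⁻¹ * y * v))) * z2⁻¹ := by group
        _ = ((z1 * (v⁻¹ * y * v)) * z2) * z2⁻¹ := by rw [hz2c]
        _ = _ := by rw [mul_inv_cancel_right]
    have h5 : ζ * (z1 * y) = z1 * (ζ * y) := by rw [← mul_assoc, ← mul_assoc, hζc z1]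
    rw [h4, h5] at h1
    exact mul_left_cancel h1
  have e4 : ζ * ζ = 1 := by
    have h1 : ζ * ζ * y = y := by
      calc ζ * ζ * y = ζ * (v * y * v⁻¹) := by rw [e0, mul_assoc]
        _ = (ζ * v) * (y * v⁻¹) := by group
        _ = (v * ζ) * (y * v⁻¹) := by rw [hζc v]
        _ = v * (ζ * y) * v⁻¹ := by group
        _ = v * (v⁻¹ * y * v) * v⁻¹ := by rw [e3]
        _ = y := by group
    exact mul_eq_right.mp h1
  have e5 : v * ζ * v⁻¹ = ζ := by rw [hζc v, mul_inv_cancel_right]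
  have e6 : v * (v * y * v⁻¹) * v⁻¹ = ζ * ζ * y := by
    calc v * (v * y * v⁻¹) * v⁻¹ = v * (ζ * y) * v⁻¹ := by rw [e0]
      _ = (v * ζ * v⁻¹) * (v * y * v⁻¹) := by group
      _ = ζ * ζ * y := by rw [e5, e0, mul_assoc]
  rw [e4, one_mul] at e6
  have e7 : v ^ 3 * y * (v ^ 3)⁻¹ = ζ * y := by
    calc v ^ 3 * y * (v ^ 3)⁻¹ = v * (v * (v * y * v⁻¹) * v⁻¹) * v⁻¹ := by
          rw [pow_succ, pow_two]; group
      _ = ζ * y := by rw [e6, e0]
  rw [← hv3c y, mul_inv_cancel_right] at e7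
  have e8 : ζ = 1 := mul_eq_right.mp e7.symm
  rw [e8, one_mul] at e0
  exact mul_inv_eq_iff_eq_mul.mp e0

end Abs

section

variable {α : Type*} [Fintype α] [DecidableEq α] {G : Type*} [Group G] (π : G →* alternatingGroup α)

/-- a good lift of `c` -/
def Good (y : G) (c : Perm α) : Prop := (π y : Perm α) = c ∧ y ^ 3 = 1 ∧ ∃ h : G, h * y * h⁻¹ = y⁻¹

variable {π}

theorem exists_good (hsurj : Function.Surjective π) (hker : π.ker ≤ Subgroup.center G)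
    (h5 : 5 ≤ Fintype.card α) {c : Perm α} (hc : c.IsThreeCycle) : ∃ y, Good π y c := by
  obtain ⟨σ, hσ, hσc⟩ := exists_inverter h5 hc
  have hca : c ∈ alternatingGroup α := mem_alternatingGroup.mpr hc.sign
  obtain ⟨x, hx⟩ := hsurj ⟨c, hca⟩
  obtain ⟨g, hg⟩ := hsurj ⟨σ, hσ⟩
  have hc3 : c ^ 3 = 1 := by rw [← hc.orderOf, pow_orderOf_eq_one]
  have hx' : (π x : Perm α) = c := by rw [hx]
  have hg' : (π g : Perm α) = σ := by rw [hg]
  obtain ⟨z, hz⟩ : ∃ z, z = g * x * g⁻¹ * x := ⟨_, rfl⟩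
  have hπz : (π z : Perm α) = 1 := by
    rw [hz]
    simp only [map_mul, map_inv, Subgroup.coe_mul, Subgroup.coe_inv, hx', hg', hσc, inv_mul_cancel]
  have hzc : z ∈ Subgroup.center G := hker (by rw [MonoidHom.mem_ker]; exact Subtype.ext hπz)
  have hx3 : x ^ 3 ∈ Subgroup.center G := by
    apply hker
    rw [MonoidHom.mem_ker]
    apply Subtype.ext
    rw [map_pow, Subgroup.coe_pow, hx', hc3]; rfl
  obtain ⟨r1, r2⟩ := good_abs (x := x) (g := g) (z := z) (by rw [hz, mul_inv_cancel_right])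
    (fun y => (Subgroup.mem_center_iff.mp hzc y)) (fun y => (Subgroup.mem_center_iff.mp hx3 y))
  refine ⟨z * (x⁻¹ * x⁻¹), ?_, r1, g, r2⟩
  rw [map_mul, Subgroup.coe_mul, hπz, one_mul, map_mul, Subgroup.coe_mul, map_inv, Subgroup.coe_inv, hx']
  rw [← mul_inv_rev, inv_eq_iff_mul_eq_one, ← pow_two, ← pow_succ, hc3]

/-- lifts of disjoint three-cycles commute -/
theorem commute_lift (hsurj : Function.Surjective π) (hker : π.ker ≤ Subgroup.center G)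
    (h8 : 8 ≤ Fintype.card α) {c d : Perm α} (hc : c.IsThreeCycle) (hd : d.IsThreeCycle) (hcd : c.Disjoint d)
    {y v : G} (hy : (π y : Perm α) = c) (hv : (π v : Perm α) = d) : v * y = y * v := by
  obtain ⟨a, b, x, hab, hax, hbx, rfl⟩ := exists_cyc hc
  obtain ⟨p, q, w, hpq, hpw, hqw, rfl⟩ := exists_cyc hd
  have hn6 := pts_of_disjoint hab hax hbx hpq hpw hqw hcd
  obtain ⟨l, hl1, hl2⟩ := exists_extend _ hn6 2 (by simp; omega)
  match l, hl1 with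
  | [r, s], _ =>
  simp only [List.cons_append, List.nil_append, List.nodup_cons, List.mem_cons, List.not_mem_nil, or_false, not_or,
    List.nodup_nil, and_true, not_false_eq_true] at hl2
  obtain ⟨⟨-, -, a1, a2, a3, a4, a5⟩, ⟨-, b1, b2, b3, b4, b5⟩, ⟨c1, c2, c3, c4, c5⟩, ⟨-, -, d1, d2⟩, ⟨-, f1, f2⟩,
    ⟨g1, g2⟩, i1⟩ := hl2
  -- invert the second, fix the first
  have hσ : swap p q * swap r s ∈ alternatingGroup α := by
    rw [mem_alternatingGroup, Perm.sign_mul, Perm.sign_swap hpq, Perm.sign_swap i1]; rfl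
  obtain ⟨h, hh⟩ := hsurj ⟨_, hσ⟩
  have hh' : (π h : Perm α) = swap p q * swap r s := by rw [hh]
  have s1 : (swap p q * swap r s) * cyc a b x * (swap p q * swap r s)⁻¹ = cyc a b x := by
    rw [conj_cyc]
    simp only [Perm.mul_apply]
    rw [swap_apply_of_ne_of_ne a4 a5, swap_apply_of_ne_of_ne a1 a2, swap_apply_of_ne_of_ne b4 b5,
      swap_apply_of_ne_of_ne b1 b2, swap_apply_of_ne_of_ne c4 c5, swap_apply_of_ne_of_ne c1 c2]
  have s2 : (swap p q * swap r s) * cyc p q w * (swap p q * swap r s)⁻¹ = (cyc p q w)⁻¹ := by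
    rw [conj_cyc]
    simp only [Perm.mul_apply]
    rw [swap_apply_of_ne_of_ne d1 d2, swap_apply_left, swap_apply_of_ne_of_ne f1 f2, swap_apply_right,
      swap_apply_of_ne_of_ne g1 g2, swap_apply_of_ne_of_ne (Ne.symm hpw) (Ne.symm hqw), cyc_inv,
      cyc_rot hpq.symm hqw hpw, cyc_rot hpw hpq hqw.symm]
  have central : ∀ g : G, (π g : Perm α) = 1 → ∀ t, t * g = g * t := by
    intro g hg t
    have : g ∈ Subgroup.center G := hker (by rw [MonoidHom.mem_ker]; exact Subtype.ext hg)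
    exact Subgroup.mem_center_iff.mp this t
  -- the commutator is central
  have hv3 : (cyc p q w) ^ 3 = 1 := by rw [← hd.orderOf, pow_orderOf_eq_one]
  refine comm_abs (h := h) (ζ := v * y * v⁻¹ * y⁻¹) (z1 := h * y * h⁻¹ * y⁻¹) (z2 := h * v * h⁻¹ * v)
    (central _ ?_) (central _ ?_) (central _ ?_) (central _ ?_) (by group) (by group) (by group)
  · simp only [map_mul, map_inv, Subgroup.coe_mul, Subgroup.coe_inv, hy, hv]
    have := hcd.symm.commute.eq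
    rw [this]; group
  · simp only [map_mul, map_inv, Subgroup.coe_mul, Subgroup.coe_inv, hy, hh', s1]
    group
  · simp only [map_mul, map_inv, Subgroup.coe_mul, Subgroup.coe_inv, hv, hh', s2]
    group
  · rw [map_pow, Subgroup.coe_pow, hv, hv3]

end

end H49.TF
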