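import Cfsg.Agent.Lib.H49.TG1

set_option autoImplicit false
set_option linter.unusedSectionVars false

/-! The family of canonical lifts in a central extension. -/

namespace H49.TF

open Equiv Equiv.Perm Module

universe u v

section

variable {α : Type*} [Fintype α] [DecidableEq α]

theorem stab_mem_closure {a b x : α} (hab : a ≠ b) (hax : a ≠ x) (hbx : b ≠ x) {τ : Perm α}
    (hτ : Perm.sign τ = 1) (h1 : τ a = a) (h2 : τ b = b) (h3 : τ x = x) :
    τ ∈ Subgroup.closure {d : Perm α | d.IsThreeCycle ∧ d.Disjoint (cyc a b x)} := by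
  obtain ⟨p, hp⟩ : ∃ p : α → Prop, ∀ t, p t ↔ t ≠ a ∧ t ≠ b ∧ t ≠ x := ⟨_, fun _ => Iff.rfl⟩
  haveI : DecidablePred p := Classical.decPred p
  obtain ⟨τ', rfl⟩ := exists_ofSubtype (p := p) (c := τ) (fun t ht => by
    rw [hp]
    refine ⟨?_, ?_, ?_⟩ <;> rintro rfl
    · exact ht h1
    · exact ht h2
    · exact ht h3)
  rw [sign_ofSubtype] at hτ
  have hτ' : τ' ∈ alternatingGroup {t // p t} := mem_alternatingGroup.mpr hτ
  rw [← closure_three_cycles_eq_alternating] at hτ'
  clear h1 h2 h3 hτ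
  induction hτ' using Subgroup.closure_induction with
  | mem d hd =>
    apply Subgroup.subset_closure
    refine ⟨?_, ?_⟩
    · unfold IsThreeCycle
      rw [cycleType_ofSubtype]
      exact hd
    · intro t
      by_cases ht : p t
      · right
        rw [hp] at ht
        exact cyc_apply_of ht.1 ht.2.1 ht.2.2
      · left
        exact ofSubtype_apply_of_not_mem d ht
  | one => rw [map_one]; exact one_mem _
  | mul x y _ _ hx hy => rw [map_mul]; exact mul_mem hx hy
  | inv x _ hx => rw [map_inv]; exact inv_mem hx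

variable {G : Type*} [Group G] {π : G →* alternatingGroup α}

theorem commute_of_closure (hsurj : Function.Surjective π) (hker : π.ker ≤ Subgroup.center G)
    (h8 : 8 ≤ Fintype.card α) {c : Perm α} (hc : c.IsThreeCycle) {y : G} (hy : (π y : Perm α) = c) {τ : Perm α}
    (hτ : τ ∈ Subgroup.closure {d : Perm α | d.IsThreeCycle ∧ d.Disjoint c}) :
    τ ∈ alternatingGroup α ∧ ∀ u : G, (π u : Perm α) = τ → Commute u y := by
  induction hτ using Subgroup.closure_induction with
  | mem d hd =>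
    refine ⟨mem_alternatingGroup.mpr hd.1.sign, fun u hu => ?_⟩
    exact commute_lift hsurj hker h8 hc hd.1 hd.2.symm hy hu
  | one =>
    refine ⟨one_mem _, fun u hu => ?_⟩
    have : u ∈ Subgroup.center G := hker (by rw [MonoidHom.mem_ker]; exact Subtype.ext hu)
    exact ((Subgroup.mem_center_iff.mp this y)).symm
  | mul s t _ _ hs ht =>
    refine ⟨mul_mem hs.1 ht.1, fun u hu => ?_⟩
    obtain ⟨v, hv⟩ := hsurj ⟨s, hs.1⟩
    have hv' : (π v : Perm α) = s := by rw [hv]
    have h1 := hs.2 v hv'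
    have h2 := ht.2 (v⁻¹ * u) (by
      rw [map_mul, map_inv, Subgroup.coe_mul, Subgroup.coe_inv, hv', hu, inv_mul_cancel_left])
    have h3 : u = v * (v⁻¹ * u) := by group
    rw [h3]
    exact h1.mul_left h2
  | inv s _ hs =>
    refine ⟨inv_mem hs.1, fun u hu => ?_⟩
    have h1 := hs.2 u⁻¹ (by rw [map_inv, Subgroup.coe_inv, hu, inv_inv])
    exact Commute.inv_left_iff.mp h1

/-- good lifts are unique -/
theorem good_unique (hsurj : Function.Surjective π) (hker : π.ker ≤ Subgroup.center G)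
    (h8 : 8 ≤ Fintype.card α) {c : Perm α} (hc : c.IsThreeCycle) {y y' : G} (hy : Good π y c)
    (hy' : Good π y' c) : y = y' := by
  obtain ⟨h1, h2, h, h3⟩ := hy
  obtain ⟨h1', h2', h', h3'⟩ := hy'
  have key : ∀ u : G, Commute (π u : Perm α) c → Commute u y := by
    intro u hu
    obtain ⟨a, b, x, hab, hax, hbx, rfl⟩ := exists_cyc hc
    obtain ⟨τ, hτ⟩ : ∃ τ : Perm α, τ = (π u : Perm α) := ⟨_, rfl⟩
    rw [← hτ] at hu
    have hτs : Perm.sign τ = 1 := by rw [hτ]; exact mem_alternatingGroup.mp (π u).2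
    -- `τ a` is one of the three points
    have hc' : ∀ t, τ (cyc a b x t) = cyc a b x (τ t) := fun t => by
      have := congrArg (fun f : Perm α => f t) hu.eq
      exact this
    have main : ∀ τ' : Perm α, Perm.sign τ' = 1 → (∀ t, τ' (cyc a b x t) = cyc a b x (τ' t)) → τ' a = a →
        ∀ u', (π u' : Perm α) = τ' → Commute u' y := by
      intro τ' hs' hcomm ha u' hu'
      have hb : τ' b = b := by
        have := hcomm a
        rwa [ha, cyc_apply_1 hab hax] at this
      have hx : τ' x = x := by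
        have := hcomm b
        rwa [hb, cyc_apply_2 hax hbx] at this
      exact (commute_of_closure hsurj hker h8 hc h1 (stab_mem_closure hab hax hbx hs' ha hb hx)).2 u' hu'
    have hsupp : τ a = a ∨ τ a = b ∨ τ a = x := by
      apply support_cyc
      rw [← hc', cyc_apply_1 hab hax]
      intro h
      exact hab (τ.injective h).symm
    have hsc : Perm.sign (cyc a b x) = 1 := hc.sign
    rcases hsupp with ha | ha | ha
    · exact main τ hτs hc' ha u hτ.symm
    · have := main ((cyc a b x)⁻¹ * τ) (by rw [Perm.sign_mul, Perm.sign_inv, hsc, hτs]; rfl) (fun t => by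
        rw [Perm.mul_apply, Perm.mul_apply, hc']; simp) (by
        rw [Perm.mul_apply, ha, Perm.inv_eq_iff_eq, cyc_apply_1 hab hax]) (y⁻¹ * u) (by
        rw [map_mul, map_inv, Subgroup.coe_mul, Subgroup.coe_inv, h1, hτ])
      have e : u = y * (y⁻¹ * u) := by group
      rw [e]
      exact (Commute.refl y).mul_left this
    · have := main (cyc a b x * τ) (by rw [Perm.sign_mul, hsc, hτs]; rfl) (fun t => by
        rw [Perm.mul_apply, Perm.mul_apply, hc']) (by
        rw [Perm.mul_apply, ha, cyc_apply_3]) (y * u) (by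
        rw [map_mul, Subgroup.coe_mul, h1, hτ])
      have e : u = y⁻¹ * (y * u) := by group
      rw [e]
      exact ((Commute.refl y).inv_left).mul_left this
  -- the difference is central
  obtain ⟨z, hz⟩ : ∃ z, z = y' * y⁻¹ := ⟨_, rfl⟩
  have hzc : z ∈ Subgroup.center G := hker (by
    rw [MonoidHom.mem_ker]
    apply Subtype.ext
    rw [hz, map_mul, map_inv, Subgroup.coe_mul, Subgroup.coe_inv, h1, h1', mul_inv_cancel]; rfl)
  have zc : ∀ t, t * z = z * t := fun t => Subgroup.mem_center_iff.mp hzc t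
  have hy'z : y' = z * y := by rw [hz]; group
  have hz3 : z ^ 3 = 1 := by
    have : (z * y) ^ 3 = z ^ 3 * y ^ 3 := (show Commute z y from (zc y).symm).mul_pow 3
    rw [← hy'z, h2', h2, mul_one] at this
    exact this.symm
  -- `h' y h'⁻¹ = z y⁻¹`
  have e1 : h' * y * h'⁻¹ = z * y⁻¹ := by
    have h4 : h' * (z * y) * h'⁻¹ = (z * y)⁻¹ := by rw [← hy'z]; exact h3'
    have h5 : h' * (z * y) * h'⁻¹ = z * (h' * y * h'⁻¹) := by
      calc h' * (z * y) * h'⁻¹ = (h' * z) * (y * h'⁻¹) := by group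
        _ = (z * h') * (y * h'⁻¹) := by rw [zc h']
        _ = _ := by group
    rw [h5, mul_inv_rev] at h4
    have h6 : h' * y * h'⁻¹ = z⁻¹ * (y⁻¹ * z⁻¹) := by rw [← h4]; group
    rw [h6]
    have h7 : z⁻¹ * (y⁻¹ * z⁻¹) = (z⁻¹ * z⁻¹) * y⁻¹ := by
      have : y⁻¹ * z⁻¹ = z⁻¹ * y⁻¹ := by rw [← mul_inv_rev, ← mul_inv_rev, zc y]
      rw [this, mul_assoc]
    rw [h7]
    congr 1
    have h8 : z * (z * z) = 1 := by
      rw [← pow_two, ← pow_succ']; exact hz3
    calc z⁻¹ * z⁻¹ = z⁻¹ * z⁻¹ * (z * (z * z)) := by rw [h8, mul_one]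
      _ = z := by group
  have e2 : h⁻¹ * y⁻¹ * h = y := by rw [← h3]; group
  have e3 : (h⁻¹ * h') * y * (h⁻¹ * h')⁻¹ = z * y := by
    calc (h⁻¹ * h') * y * (h⁻¹ * h')⁻¹ = h⁻¹ * (h' * y * h'⁻¹) * h := by group
      _ = (h⁻¹ * z) * (y⁻¹ * h) := by rw [e1]; group
      _ = (z * h⁻¹) * (y⁻¹ * h) := by rw [zc h⁻¹]
      _ = z * (h⁻¹ * y⁻¹ * h) := by group
      _ = z * y := by rw [e2]
  have hcomm : Commute (π (h⁻¹ * h') : Perm α) c := by
    have h4 := congrArg (fun g => (π g : Perm α)) h3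
    have h5 := congrArg (fun g => (π g : Perm α)) h3'
    simp only [map_mul, map_inv, Subgroup.coe_mul, Subgroup.coe_inv, h1, h1'] at h4 h5
    have h6 : (π (h⁻¹ * h') : Perm α) = (π h : Perm α)⁻¹ * (π h' : Perm α) := by
      rw [map_mul, map_inv, Subgroup.coe_mul, Subgroup.coe_inv]
    rw [h6]
    have h7 : (π h : Perm α)⁻¹ * c⁻¹ * (π h : Perm α) = c := by rw [← h4]; group
    change (π h : Perm α)⁻¹ * (π h' : Perm α) * c = c * ((π h : Perm α)⁻¹ * (π h' : Perm α))
    calc (π h : Perm α)⁻¹ * (π h' : Perm α) * c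
        = (π h : Perm α)⁻¹ * ((π h' : Perm α) * c * (π h' : Perm α)⁻¹) * (π h' : Perm α) := by group
      _ = ((π h : Perm α)⁻¹ * c⁻¹ * (π h : Perm α)) * ((π h : Perm α)⁻¹ * (π h' : Perm α)) := by rw [h5]; group
      _ = _ := by rw [h7]
  have e4 := key _ hcomm
  rw [e4.eq, mul_inv_cancel_right] at e3
  have hz1 : z = 1 := mul_eq_right.mp e3.symm
  rw [hy'z, hz1, one_mul]

/-- the family of good lifts -/
theorem exists_family (hsurj : Function.Surjective π) (hker : π.ker ≤ Subgroup.center G)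
    (h8 : 8 ≤ Fintype.card α) : ∃ T : Perm α → G, IsFam T ∧ ∀ c, c.IsThreeCycle → (π (T c) : Perm α) = c := by
  classical
  have hex : ∀ c : Perm α, ∃ y, (c.IsThreeCycle → Good π y c) ∧ (¬ c.IsThreeCycle → y = 1) := by
    intro c
    by_cases hc : c.IsThreeCycle
    · obtain ⟨y, hy⟩ := exists_good hsurj hker (by omega) hc
      exact ⟨y, fun _ => hy, fun h => absurd hc h⟩
    · exact ⟨1, fun h => absurd h hc, fun _ => rfl⟩
  choose T hT1 hT2 using hex
  refine ⟨T, ⟨hT2, fun c => ?_, fun c => ?_, fun c d hc => ?_⟩, fun c hc => (hT1 c hc).1⟩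
  · by_cases hc : c.IsThreeCycle
    · exact (hT1 c hc).2.1
    · rw [hT2 c hc, one_pow]
  · by_cases hc : c.IsThreeCycle
    · obtain ⟨g1, g2, h, g3⟩ := hT1 c hc
      have : T c ^ 2 = (T c)⁻¹ := by
        rw [eq_inv_iff_mul_eq_one, ← pow_succ, g2]
      rw [this]
      refine good_unique hsurj hker h8 hc.inv (hT1 _ hc.inv) ⟨?_, ?_, h, ?_⟩
      · rw [map_inv, Subgroup.coe_inv, g1]
      · rw [inv_pow, g2, inv_one]
      · rw [inv_inv]
        have : h * (T c)⁻¹ * h⁻¹ = (h * T c * h⁻¹)⁻¹ := by group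
        rw [this, g3, inv_inv]
    · rw [hT2 c hc, hT2 _ (fun h => hc (IsThreeCycle.inv_iff.mp h)), one_pow]
  · by_cases hd : d.IsThreeCycle
    · obtain ⟨g1, g2, h, g3⟩ := hT1 d hd
      have hcd : (c * d * c⁻¹).IsThreeCycle := by
        unfold IsThreeCycle
        rw [cycleType_conj]
        exact hd
      have : T c * T d * (T c)⁻¹ = T (c * d * c⁻¹) := by
        refine good_unique hsurj hker h8 hcd ⟨?_, ?_, T c * h * (T c)⁻¹, ?_⟩ (hT1 _ hcd)
        · simp only [map_mul, map_inv, Subgroup.coe_mul, Subgroup.coe_inv, g1, (hT1 c hc).1]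
        · rw [conj_pow, g2, mul_one, mul_inv_cancel]
        · calc T c * h * (T c)⁻¹ * (T c * T d * (T c)⁻¹) * (T c * h * (T c)⁻¹)⁻¹
              = T c * (h * T d * h⁻¹) * (T c)⁻¹ := by group
            _ = (T c * T d * (T c)⁻¹)⁻¹ := by rw [g3]; group
      rw [← this, inv_mul_cancel_right]
    · have hcd : ¬ (c * d * c⁻¹).IsThreeCycle := by
        intro h
        apply hd
        unfold IsThreeCycle at h ⊢
        rwa [cycleType_conj] at h
      rw [hT2 d hd, hT2 _ hcd, mul_one, one_mul]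

end

/-- the bound for central extensions -/
theorem central_bound {k : Type u} [Field k] [IsAlgClosed k] (p : ℕ) [Fact p.Prime] [CharP k p] {r : ℕ}
    (hr : 9 ≤ r) {G : Type v} [Group G] {π : G →* alternatingGroup (Fin r)} (hsurj : Function.Surjective π)
    (hker : π.ker ≤ Subgroup.center G) {V : Type u} [AddCommGroup V] [Module k V] [FiniteDimensional k V]
    (ρ : G →* Module.End k V) (hρ : Function.Injective ρ) : r - 1 - (if p ∣ r then 1 else 0) ≤ finrank k V := by
  by_contra hcon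
  push Not at hcon
  obtain ⟨T, hT, hπT⟩ := exists_family hsurj hker (by simp; omega)
  have h1 := main_P (k := k) p r hr (Fin r) (Fintype.card_fin r) V _ (hT.map ρ) hcon
  obtain ⟨a, b, x, y, z, hn⟩ := exists_five (α := Fin r) (by simp; omega)
  simp only [List.nodup_cons, List.mem_cons, List.not_mem_nil, or_false, not_or, List.nodup_nil, and_true,
      not_false_eq_true] at hn
  obtain ⟨⟨hab, hax, -⟩, ⟨hbx, -⟩, -⟩ := hn
  have hc : (cyc a b x).IsThreeCycle := cyc_three hab hax hbx
  have h2 := h1 (cyc a b x)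
  have h3 : T (cyc a b x) = 1 := hρ (by rw [map_one]; exact h2)
  have h4 := hπT _ hc
  rw [h3, map_one] at h4
  exact hc.ne_one h4.symm

end H49.TF
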