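import Cfsg.Agent.Lib.H49.TG2

set_option autoImplicit false
set_option linter.unusedSectionVars false

/-! Joint eigenvectors and abelian normal subgroups. -/

namespace H49.TF

open Equiv Equiv.Perm Module

universe u v

section Joint

/-- joint eigenvectors with distinct characters are independent -/
theorem joint_li {k V M ι : Type*} [Field k] [AddCommGroup V] [Module k V] [Monoid M]
    (L : M → Module.End k V) (χ : ι → (M →* k)) (hχ : Function.Injective χ) (v : ι → V)
    (hv : ∀ i, v i ≠ 0) (h : ∀ i m, L m (v i) = χ i m • v i) : LinearIndependent k v := by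
  rw [linearIndependent_iff']
  intro s c hc i hi
  obtain ⟨φ, hφ⟩ : ∃ φ : V →ₗ[k] k, φ (v i) ≠ 0 := by
    by_contra hcon
    push Not at hcon
    exact hv i ((Module.forall_dual_apply_eq_zero_iff k (v i)).mp hcon)
  have h1 : ∀ m, ∑ j ∈ s, (c j * φ (v j)) * χ j m = 0 := by
    intro m
    have h2 := congrArg (fun w => φ (L m w)) hc
    simp only [map_sum, map_smul, h, map_zero, smul_eq_mul] at h2
    rw [← h2]
    refine Finset.sum_congr rfl fun j _ => ?_
    ring
  have h3 := (linearIndependent_monoidHom M k).comp χ hχ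
  rw [linearIndependent_iff'] at h3
  have h4 := h3 s (fun j => c j * φ (v j)) (by
    funext m
    rw [Finset.sum_apply]
    simpa using h1 m) i hi
  exact (mul_eq_zero.mp h4).resolve_right hφ

/-- the character of a joint eigenvector -/
theorem exists_char {k V M : Type*} [Field k] [AddCommGroup V] [Module k V] [Monoid M]
    (L : M →* Module.End k V) {v : V} (hv : v ≠ 0) (h : ∀ m, ∃ c : k, L m v = c • v) :
    ∃ χ : M →* k, ∀ m, L m v = χ m • v := by
  choose c hc using h
  refine ⟨⟨⟨c, ?_⟩, ?_⟩, hc⟩
  · have h1 := hc 1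
    rw [map_one, Module.End.one_apply] at h1
    have h2 : (c 1 - 1) • v = 0 := by rw [sub_smul, one_smul, ← h1, sub_self]
    exact sub_eq_zero.mp ((smul_eq_zero.mp h2).resolve_right hv)
  · intro a b
    change c (a * b) = c a * c b
    have h1 := hc (a * b)
    rw [map_mul, Module.End.mul_apply, hc b, map_smul, hc a, smul_smul] at h1
    have h2 : (c (a * b) - c a * c b) • v = 0 := by rw [sub_smul, ← h1, mul_comm, sub_self]
    exact sub_eq_zero.mp ((smul_eq_zero.mp h2).resolve_right hv)

/-- commuting families have a joint eigenvector -/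
theorem exists_joint {k : Type*} [Field k] [IsAlgClosed k] {ι : Type*} : ∀ (n : ℕ) {V : Type u} [AddCommGroup V]
    [Module k V] [FiniteDimensional k V] [Nontrivial V] (f : ι → Module.End k V)
    (_ : ∀ i j, f i * f j = f j * f i) (_ : finrank k V ≤ n), ∃ v : V, v ≠ 0 ∧ ∀ i, ∃ c : k, f i v = c • v := by
  intro n
  induction n with
  | zero =>
    intro V _ _ _ _ f hf hn
    have := Module.finrank_pos (R := k) (M := V)
    omega
  | succ n ih =>
    intro V _ _ _ _ f hf hn
    by_cases h : ∀ i, ∃ c : k, ∀ v, f i v = c • v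
    · obtain ⟨v, hv⟩ := exists_ne (0 : V)
      exact ⟨v, hv, fun i => (h i).imp fun c hc => hc v⟩
    · push Not at h
      obtain ⟨i, hi⟩ := h
      obtain ⟨c, hc⟩ := Module.End.exists_eigenvalue (f i)
      obtain ⟨U, hU⟩ : ∃ U, U = Module.End.eigenspace (f i) c := ⟨_, rfl⟩
      have hU0 : U ≠ ⊥ := by rw [hU]; exact hc
      have hU1 : U < ⊤ := by
        rw [lt_top_iff_ne_top]
        rintro rfl
        obtain ⟨v, hv⟩ := hi c
        exact hv (Module.End.mem_eigenspace_iff.mp (hU ▸ Submodule.mem_top))
      have hinv : ∀ j, ∀ v ∈ U, f j v ∈ U := by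
        intro j v hv
        rw [hU, Module.End.mem_eigenspace_iff] at hv ⊢
        have := congrArg (fun g => g v) (hf i j)
        simp only [Module.End.mul_apply] at this
        rw [this, hv, map_smul]
      have hlt := Submodule.finrank_lt (lt_top_iff_ne_top.mp hU1)
      haveI : Nontrivial U := Submodule.nontrivial_iff_ne_bot.mpr hU0
      obtain ⟨v, hv, hv2⟩ := ih (fun j => (f j).restrict (hinv j)) (fun j l => by
        ext w
        have := congrArg (fun g => g (w : V)) (hf j l)
        exact this) (by omega)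
      refine ⟨v, fun h => hv (Subtype.ext h), fun j => ?_⟩
      obtain ⟨c, hc⟩ := hv2 j
      exact ⟨c, congrArg Subtype.val hc⟩

end Joint

section Grp

variable {k V H : Type*} [Field k] [AddCommGroup V] [Module k V] [Group H]

/-- irreducibility of a representation -/
def IrrG (ρ : H →* Module.End k V) : Prop :=
  ∀ U : Submodule k V, (∀ h, ∀ v ∈ U, ρ h v ∈ U) → U = ⊥ ∨ U = ⊤

/-- Schur for central elements -/
theorem IrrG.scalar [IsAlgClosed k] [FiniteDimensional k V] [Nontrivial V] {ρ : H →* Module.End k V}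
    (hirr : IrrG ρ) {z : H} (hz : ∀ h, h * z = z * h) : ∃ c : k, ∀ v, ρ z v = c • v := by
  obtain ⟨c, hc⟩ := Module.End.exists_eigenvalue (ρ z)
  refine ⟨c, ?_⟩
  rcases hirr (Module.End.eigenspace (ρ z) c) (fun h v hv => by
    rw [Module.End.mem_eigenspace_iff] at hv ⊢
    rw [← Module.End.mul_apply, ← map_mul, ← hz, map_mul, Module.End.mul_apply, hv, map_smul]) with h | h
  · exact absurd h hc
  · intro v
    exact Module.End.mem_eigenspace_iff.mp (h ▸ Submodule.mem_top)

/-- the stabiliser of a character of a normal subgroup -/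
def stabChar (A : Subgroup H) [A.Normal] (χ : A →* k) : Subgroup H where
  carrier := {h | ∀ a : A, χ ⟨h * a * h⁻¹, ‹A.Normal›.conj_mem _ a.2 _⟩ = χ a}
  one_mem' := fun a => congrArg χ (Subtype.ext (by simp))
  mul_mem' := fun {g h} hg hh a => by
    have h1 := hg ⟨h * a * h⁻¹, ‹A.Normal›.conj_mem _ a.2 _⟩
    rw [hh a] at h1
    rw [← h1]
    exact congrArg χ (Subtype.ext (by simp [mul_assoc]))
  inv_mem' := fun {g} hg a => by
    have h1 := hg ⟨g⁻¹ * a * g⁻¹⁻¹, ‹A.Normal›.conj_mem _ a.2 _⟩
    rw [← h1]
    exact congrArg χ (Subtype.ext (by simp [mul_assoc]))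

/-- the stabiliser of the character of a joint eigenvector has small index -/
theorem stabChar_index [FiniteDimensional k V] (ρ : H →* Module.End k V) (A : Subgroup H) [A.Normal] (χ : A →* k)
    {v : V} (hv : v ≠ 0) (h : ∀ a : A, ρ a v = χ a • v) : (stabChar A χ).index ≤ finrank k V := by
  have hinj : ∀ g, Function.Injective (ρ g) := by
    intro g x y hxy
    have := congrArg (ρ g⁻¹) hxy
    simpa [← Module.End.mul_apply, ← map_mul] using this
  have hli := joint_li (V := V) (M := A) (ι := H ⧸ stabChar A χ) (fun a => ρ a)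
    (fun q => χ.comp (MulAut.conjNormal (q.out)⁻¹).toMonoidHom) (by
      intro q q' hqq
      rw [← q.out_eq', ← q'.out_eq']
      rw [QuotientGroup.eq]
      intro a
      have := DFunLike.congr_fun hqq ⟨q'.out * a * q'.out⁻¹, ‹A.Normal›.conj_mem _ a.2 _⟩
      simp only [MonoidHom.comp_apply, MulEquiv.coe_toMonoidHom] at this
      have e1 : (MulAut.conjNormal (q'.out)⁻¹) (⟨q'.out * a * q'.out⁻¹, ‹A.Normal›.conj_mem _ a.2 _⟩ : A) = a := by
        apply Subtype.ext
        rw [MulAut.conjNormal_apply]
        group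
      rw [e1] at this
      rw [← this]
      apply congrArg χ
      apply Subtype.ext
      rw [MulAut.conjNormal_apply]
      group)
    (fun q => ρ q.out v) (fun q h0 => hv (hinj _ (by rw [h0, map_zero]))) (by
      intro q a
      simp only [MonoidHom.comp_apply, MulEquiv.coe_toMonoidHom]
      rw [← map_smul, ← h, ← Module.End.mul_apply, ← Module.End.mul_apply, ← map_mul, ← map_mul, MulAut.conjNormal_apply]
      congr 2
      group)
  haveI : Finite (H ⧸ stabChar A χ) := hli.finite
  haveI := Fintype.ofFinite (H ⧸ stabChar A χ)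
  rw [Subgroup.index, Nat.card_eq_fintype_card]
  exact hli.fintype_card_le_finrank

/-- abelian normal subgroups are central -/
theorem abelian_central [IsAlgClosed k] [FiniteDimensional k V] [Nontrivial V] {ρ : H →* Module.End k V}
    (hirr : IrrG ρ) (hρ : Function.Injective ρ) (hidx : ∀ L : Subgroup H, L.index ≤ finrank k V → L = ⊤)
    (A : Subgroup H) [A.Normal] (hA : ∀ a ∈ A, ∀ b ∈ A, a * b = b * a) : A ≤ Subgroup.center H := by
  obtain ⟨v, hv, hv2⟩ := exists_joint (k := k) (ι := A) (finrank k V) (fun a => ρ a) (fun a b => by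
    rw [← map_mul, ← map_mul, hA a a.2 b b.2]) le_rfl
  obtain ⟨χ, hχ⟩ := exists_char (ρ.comp A.subtype) hv hv2
  have hχ' : ∀ a : A, ρ a v = χ a • v := hχ
  have htop := hidx _ (stabChar_index ρ A χ hv hχ')
  let U : Submodule k V := ⨅ a : A, Module.End.eigenspace (ρ a) (χ a)
  have hU : U = ⊤ := by
    rcases hirr U (fun g w hw => by
      simp only [U, Submodule.mem_iInf, Module.End.mem_eigenspace_iff] at hw ⊢
      intro a
      have h1 : g⁻¹ ∈ stabChar A χ := htop ▸ Subgroup.mem_top _
      have h2 := h1 a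
      have h3 := hw ⟨g⁻¹ * a * g⁻¹⁻¹, ‹A.Normal›.conj_mem _ a.2 _⟩
      rw [h2] at h3
      rw [← map_smul, ← h3, ← Module.End.mul_apply, ← Module.End.mul_apply, ← map_mul, ← map_mul]
      congr 2
      group) with h | h
    · exfalso
      apply hv
      have : v ∈ U := by
        simp only [U, Submodule.mem_iInf, Module.End.mem_eigenspace_iff]
        exact hχ'
      rw [h] at this
      exact (Submodule.mem_bot k).mp this
    · exact h
  intro a ha
  rw [Subgroup.mem_center_iff]
  intro g
  apply hρ
  rw [map_mul, map_mul]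
  ext w
  rw [Module.End.mul_apply, Module.End.mul_apply]
  have h1 : ∀ x, ρ a x = χ ⟨a, ha⟩ • x := by
    intro x
    have : x ∈ U := hU ▸ Submodule.mem_top
    simp only [U, Submodule.mem_iInf, Module.End.mem_eigenspace_iff] at this
    exact this ⟨a, ha⟩
  rw [h1, h1, map_smul]

end Grp

end H49.TF
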