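import Cfsg.Agent.Lib.H49.TG3

set_option autoImplicit false
set_option linter.unusedSectionVars false

/-! Nilpotent normal subgroups: central under a counting hypothesis. -/

namespace H49.TF

open Equiv Equiv.Perm Module

universe u v

section Grp

variable {k V H : Type*} [Field k] [AddCommGroup V] [Module k V] [Group H]

/-- conjugation on the endomorphism algebra -/
def conjEnd (ρ : H →* Module.End k V) : H →* Module.End k (Module.End k V) where
  toFun y :=
    { toFun := fun T => ρ y * T * ρ y⁻¹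
      map_add' := fun S T => by rw [mul_add, add_mul]
      map_smul' := fun c T => by rw [mul_smul_comm, smul_mul_assoc, RingHom.id_apply] }
  map_one' := by
    ext T
    simp
  map_mul' x y := by
    ext T
    simp [mul_assoc]

theorem conjEnd_apply (ρ : H →* Module.End k V) (y x : H) : conjEnd ρ y (ρ x) = ρ (y * x * y⁻¹) := by
  change ρ y * ρ x * ρ y⁻¹ = _
  rw [map_mul, map_mul]

/-- elementary abelian sections above the centre are small -/
theorem card_section_le [IsAlgClosed k] [FiniteDimensional k V] [Nontrivial V] [Finite H] {ρ : H →* Module.End k V}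
    (hirr : IrrG ρ) (hρ : Function.Injective ρ) (hidx : ∀ L : Subgroup H, L.index ≤ finrank k V → L = ⊤)
    (N : Subgroup (H ⧸ Subgroup.center H)) [N.Normal] (hN : ∀ a ∈ N, ∀ b ∈ N, a * b = b * a) :
    Nat.card N ≤ finrank k V * finrank k V := by
  obtain ⟨M, hM⟩ : ∃ M, M = N.comap (QuotientGroup.mk' (Subgroup.center H)) := ⟨_, rfl⟩
  haveI : M.Normal := by rw [hM]; infer_instance
  have hmem : ∀ y, y ∈ M ↔ (y : H ⧸ Subgroup.center H) ∈ N := fun y => by rw [hM]; rfl
  have hscal : ∀ z ∈ Subgroup.center H, ∃ c : k, ∀ v, ρ z v = c • v := fun z hz =>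
    hirr.scalar (Subgroup.mem_center_iff.mp hz)
  have hscal' : ∀ z ∈ Subgroup.center H, ∃ c : k, ρ z = c • (1 : Module.End k V) := fun z hz => by
    obtain ⟨c, hc⟩ := hscal z hz
    exact ⟨c, LinearMap.ext hc⟩
  have hout : ∀ x : N, ((x : H ⧸ Subgroup.center H).out : H ⧸ Subgroup.center H) = x := fun x => QuotientGroup.out_eq' _
  have hne : ∀ g, ρ g ≠ 0 := by
    intro g h0
    have : ρ g * ρ g⁻¹ = 1 := by rw [← map_mul, mul_inv_cancel, map_one]
    rw [h0, zero_mul] at this
    exact zero_ne_one this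
  have hcomm : ∀ (x : N) (y : M), ((y : H) * (x : H ⧸ Subgroup.center H).out * (y : H)⁻¹) *
      ((x : H ⧸ Subgroup.center H).out)⁻¹ ∈ Subgroup.center H := by
    intro x y
    rw [← QuotientGroup.eq_one_iff]
    simp only [QuotientGroup.mk_mul, QuotientGroup.mk_inv, hout]
    rw [hN _ ((hmem _).mp y.2) _ x.2]
    group
  have hex : ∀ x : N, ∃ χ : M →* k, ∀ y : M, (conjEnd ρ) y (ρ (x : H ⧸ Subgroup.center H).out) =
      χ y • ρ (x : H ⧸ Subgroup.center H).out := by
    intro x
    refine exists_char ((conjEnd ρ).comp M.subtype) (hne _) fun y => ?_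
    obtain ⟨c, hc⟩ := hscal' _ (hcomm x y)
    refine ⟨c, ?_⟩
    rw [MonoidHom.comp_apply, Subgroup.subtype_apply, conjEnd_apply]
    have : (y : H) * (x : H ⧸ Subgroup.center H).out * (y : H)⁻¹ =
      ((y : H) * (x : H ⧸ Subgroup.center H).out * (y : H)⁻¹ * ((x : H ⧸ Subgroup.center H).out)⁻¹) *
        (x : H ⧸ Subgroup.center H).out := by group
    rw [this, map_mul, hc, smul_mul_assoc, one_mul]
  choose χ hχ using hex
  have hinj : Function.Injective χ := by
    intro x x' hxx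
    obtain ⟨a, ha⟩ : ∃ a, a = (x : H ⧸ Subgroup.center H).out := ⟨_, rfl⟩
    obtain ⟨b, hb⟩ : ∃ b, b = (x' : H ⧸ Subgroup.center H).out := ⟨_, rfl⟩
    have haM : a ∈ M := by rw [hmem, ha, hout]; exact x.2
    have hbM : b ∈ M := by rw [hmem, hb, hout]; exact x'.2
    have key : ∀ y ∈ M, y * (a⁻¹ * b) * y⁻¹ = a⁻¹ * b := by
      intro y hy
      have h1 := hχ x ⟨y, hy⟩
      have h2 := hχ x' ⟨y, hy⟩
      rw [hxx] at h1
      rw [← ha] at h1
      rw [← hb] at h2
      change conjEnd ρ y (ρ a) = _ at h1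
      change conjEnd ρ y (ρ b) = _ at h2
      rw [conjEnd_apply] at h1 h2
      apply hρ
      have e : y * (a⁻¹ * b) * y⁻¹ = (y * a * y⁻¹)⁻¹ * (y * b * y⁻¹) := by group
      rw [e, map_mul, h2]
      -- ρ(g)⁻¹ where ρ g = c ρ a
      have h3 : ρ (y * a * y⁻¹)⁻¹ * ρ (y * a * y⁻¹) = 1 := by rw [← map_mul, inv_mul_cancel, map_one]
      rw [h1, mul_smul_comm] at h3
      have h4 : ρ (y * a * y⁻¹)⁻¹ * (χ x' ⟨y, hy⟩ • ρ b) = (χ x' ⟨y, hy⟩ • (ρ (y * a * y⁻¹)⁻¹ * ρ a)) * ρ (a⁻¹ * b) := by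
        rw [mul_smul_comm, smul_mul_assoc, mul_assoc (ρ (y * a * y⁻¹)⁻¹) (ρ a), ← map_mul ρ a, mul_inv_cancel_left]
      rw [h4, h3, one_mul]
    have hcen : M ⊓ Subgroup.centralizer (M : Set H) ≤ Subgroup.center H := by
      refine abelian_central hirr hρ hidx _ ?_
      intro u hu w hw
      exact (Subgroup.mem_centralizer_iff.mp (Subgroup.mem_inf.mp hw).2 u (Subgroup.mem_inf.mp hu).1)
    have h5 : a⁻¹ * b ∈ Subgroup.center H := by
      apply hcen
      refine Subgroup.mem_inf.mpr ⟨mul_mem (inv_mem haM) hbM, Subgroup.mem_centralizer_iff.mpr fun y hy => ?_⟩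
      have := key y hy
      exact mul_inv_eq_iff_eq_mul.mp this
    apply Subtype.ext
    rw [← hout x, ← hout x', QuotientGroup.eq, ← ha, ← hb]
    exact h5
  have hli := joint_li (V := Module.End k V) (M := M) (ι := N) (fun y => conjEnd ρ y) χ hinj
    (fun x => ρ (x : H ⧸ Subgroup.center H).out) (fun x => hne _) (fun x y => hχ x y)
  haveI := Fintype.ofFinite N
  rw [Nat.card_eq_fintype_card]
  refine hli.fintype_card_le_finrank.trans ?_
  rw [Module.finrank_linearMap]

/-- nilpotent normal subgroups are central if small sections are -/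
theorem nilpotent_central [IsAlgClosed k] [FiniteDimensional k V] [Nontrivial V] [Finite H] {ρ : H →* Module.End k V}
    (hirr : IrrG ρ) (hρ : Function.Injective ρ) (hidx : ∀ L : Subgroup H, L.index ≤ finrank k V → L = ⊤)
    (hperf : ⁅(⊤ : Subgroup H), (⊤ : Subgroup H)⁆ = ⊤) (K : Subgroup H) [K.Normal] (hK : Group.IsNilpotent K)
    (hsm : ∀ (s : ℕ) (_ : s.Prime) (N : Subgroup (H ⧸ Subgroup.center H)) (_ : N.Normal)
      (_ : ∀ a ∈ N, ∀ b ∈ N, a * b = b * a) (_ : ∀ a ∈ N, a ^ s = 1)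
      (_ : ∀ a ∈ N, ∀ b ∈ K, a * b = b * a) (_ : Nat.card N ≤ finrank k V * finrank k V),
      ∀ a ∈ N, ∀ b : H, a * b = b * a) : K ≤ Subgroup.center H := by
  by_contra hcon
  obtain ⟨q, hq⟩ : ∃ q, q = QuotientGroup.mk' (Subgroup.center H) := ⟨_, rfl⟩
  obtain ⟨Kb, hKb⟩ : ∃ Kb, Kb = K.map q := ⟨_, rfl⟩
  have hqs : Function.Surjective q := by rw [hq]; exact QuotientGroup.mk'_surjective _
  haveI : Kb.Normal := by rw [hKb]; exact Subgroup.Normal.map inferInstance q hqs
  have hne : Kb ≠ ⊥ := by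
    intro h
    apply hcon
    rw [hKb, Subgroup.map_eq_bot_iff, hq, QuotientGroup.ker_mk'] at h
    exact h
  haveI hnil : Group.IsNilpotent Kb := by
    rw [hKb]
    exact Group.nilpotent_of_surjective (q.subgroupMap K) (q.subgroupMap_surjective K)
  haveI : Nontrivial Kb := (Subgroup.nontrivial_iff_ne_bot _).mpr hne
  have hZ : Subgroup.center Kb ≠ ⊥ := Group.IsNilpotent.center_ne_bot _
  haveI : Nontrivial (Subgroup.center Kb) := (Subgroup.nontrivial_iff_ne_bot _).mpr hZ
  obtain ⟨s, hs, hdvd⟩ := Nat.exists_prime_and_dvd (n := Nat.card (Subgroup.center Kb)) (by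
    intro h
    exact (Nat.card_eq_one_iff_unique.mp h).1.elim |> fun h => by
      obtain ⟨x, y, hxy⟩ := exists_pair_ne (Subgroup.center Kb)
      exact hxy (h x y))
  haveI : Fact s.Prime := ⟨hs⟩
  obtain ⟨x, hx⟩ := exists_prime_orderOf_dvd_card' s hdvd
  let N : Subgroup (H ⧸ Subgroup.center H) :=
    { carrier := {a | a ∈ Kb ∧ (∀ b ∈ Kb, a * b = b * a) ∧ a ^ s = 1}
      one_mem' := ⟨one_mem _, fun b _ => by simp, one_pow _⟩
      mul_mem' := fun {a a'} h h' => ⟨mul_mem h.1 h'.1, fun b hb => by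
        rw [mul_assoc, h'.2.1 b hb, ← mul_assoc, h.2.1 b hb, mul_assoc], by
        rw [(show Commute a a' from h.2.1 a' h'.1).mul_pow, h.2.2, h'.2.2, one_mul]⟩
      inv_mem' := fun {a} h => ⟨inv_mem h.1, fun b hb => by
        have := h.2.1 b hb
        exact ((show Commute a b from this).inv_left).eq, by rw [inv_pow, h.2.2, inv_one]⟩ }
  have hNn : N.Normal := by
    constructor
    rintro a ⟨h1, h2, h3⟩ g
    refine ⟨‹Kb.Normal›.conj_mem _ h1 g, fun b hb => ?_, by rw [conj_pow, h3, mul_one, mul_inv_cancel]⟩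
    have h4 := h2 (g⁻¹ * b * g⁻¹⁻¹) (‹Kb.Normal›.conj_mem _ hb g⁻¹)
    calc g * a * g⁻¹ * b = g * (a * (g⁻¹ * b * g⁻¹⁻¹)) * g⁻¹ := by group
      _ = b * (g * a * g⁻¹) := by rw [h4]; group
  have hNc : ∀ a ∈ N, ∀ b ∈ N, a * b = b * a := fun a ha b hb => ha.2.1 b hb.1
  have hcard := card_section_le hirr hρ hidx N hNc
  have hcent := hsm s hs N hNn hNc (fun a ha => ha.2.2) (fun a ha b hb => ha.2.1 _ (by
    rw [hKb, hq]; exact ⟨b, hb, rfl⟩)) hcard
  have hle : N.comap q ≤ Subgroup.center H := by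
    have h1 : ⁅N.comap q, (⊤ : Subgroup H)⁆ ≤ Subgroup.center H := by
      rw [Subgroup.commutator_le]
      intro a ha b _
      rw [← QuotientGroup.eq_one_iff, commutatorElement_def]
      simp only [QuotientGroup.mk_mul, QuotientGroup.mk_inv]
      have := hcent (a : H ⧸ Subgroup.center H) (by rw [hq] at ha; exact ha) b
      rw [this]
      group
    have h2 : ⁅⁅N.comap q, (⊤ : Subgroup H)⁆, (⊤ : Subgroup H)⁆ = ⊥ := by
      rw [Subgroup.commutator_eq_bot_iff_le_centralizer, Subgroup.coe_top]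
      rwa [Subgroup.centralizer_univ]
    have h3 : ⁅⁅(⊤ : Subgroup H), N.comap q⁆, (⊤ : Subgroup H)⁆ = ⊥ := by
      rw [Subgroup.commutator_comm (⊤ : Subgroup H)]
      exact h2
    have h4 := Subgroup.commutator_commutator_eq_bot_of_rotate h3 h2
    rw [hperf, Subgroup.commutator_comm, Subgroup.commutator_eq_bot_iff_le_centralizer, Subgroup.coe_top,
      Subgroup.centralizer_univ] at h4
    exact h4
  have hxN : ((x : Kb) : H ⧸ Subgroup.center H) ∈ N := by
    refine ⟨(x : Kb).2, fun b hb => ?_, ?_⟩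
    · have := Subgroup.mem_center_iff.mp x.2 ⟨b, hb⟩
      exact (congrArg Subtype.val this).symm
    · have := pow_orderOf_eq_one x
      rw [hx] at this
      exact congrArg (fun t : Subgroup.center Kb => ((t : Kb) : H ⧸ Subgroup.center H)) this
  obtain ⟨y, hy⟩ := hqs ((x : Kb) : H ⧸ Subgroup.center H)
  have hy2 : y ∈ Subgroup.center H := hle (by
    rw [Subgroup.mem_comap, hy]; exact hxN)
  have hy3 : q y = 1 := by
    rw [hq, QuotientGroup.mk'_apply, QuotientGroup.eq_one_iff]; exact hy2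
  rw [hy3] at hy
  have hx1 : x = 1 := by
    apply Subtype.ext
    apply Subtype.ext
    exact hy.symm
  rw [hx1, orderOf_one] at hx
  exact hs.one_lt.ne hx
end Grp

end H49.TF
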