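import Cfsg.Agent.Lib.H49.TG4

set_option autoImplicit false
set_option linter.unusedSectionVars false

/-! Alternating sections of linear groups: the reduction. -/

namespace H49.TF

open Equiv Equiv.Perm Module

universe u v

section Alt

theorem alt_simple {r : ℕ} (hr : 9 ≤ r) : IsSimpleGroup (alternatingGroup (Fin r)) :=
  alternatingGroup.isSimpleGroup (by rw [Nat.card_fin]; omega)

theorem alt_card {r : ℕ} (hr : 9 ≤ r) : 2 * Nat.card (alternatingGroup (Fin r)) = r.factorial := by
  haveI : Nontrivial (Fin r) := ⟨⟨0, by omega⟩, ⟨1, by omega⟩, by simp⟩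
  rw [Nat.card_eq_fintype_card, two_mul_card_alternatingGroup, Fintype.card_perm, Fintype.card_fin]

theorem alt_noncomm {r : ℕ} (hr : 9 ≤ r) : ∃ a b : alternatingGroup (Fin r), a * b ≠ b * a := by
  obtain ⟨a, b, x, y, z, hn⟩ := exists_five (α := Fin r) (by simp; omega)
  simp only [List.nodup_cons, List.mem_cons, List.not_mem_nil, or_false, not_or, List.nodup_nil, and_true,
      not_false_eq_true] at hn
  obtain ⟨⟨hab, hax, hay, haz⟩, ⟨hbx, hby, hbz⟩, ⟨hxy, hxz⟩, hyz⟩ := hn
  refine ⟨⟨cyc a b x, (cyc_three hab hax hbx).mem_alternatingGroup⟩,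
    ⟨cyc a b y, (cyc_three hab hay hby).mem_alternatingGroup⟩, ?_⟩
  intro h
  have h1 := congrArg (fun s : alternatingGroup (Fin r) => (s : Perm (Fin r)) a) h
  simp only [Subgroup.coe_mul, Perm.mul_apply] at h1
  rw [cyc_apply_1 hab hay, cyc_apply_1 hab hax, cyc_apply_2 hax hbx, cyc_apply_2 hay hby] at h1
  exact hxy h1

/-- subgroups of alternating groups of small index -/
theorem alt_index {r : ℕ} (hr : 9 ≤ r) (J : Subgroup (alternatingGroup (Fin r))) (hJ : J.index ≤ r - 2) : J = ⊤ := by
  by_contra hne
  haveI := alt_simple hr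
  have hcore : J.normalCore = ⊥ := by
    rcases Subgroup.Normal.eq_bot_or_eq_top (J.normalCore_normal) with h | h
    · exact h
    · exact absurd (top_le_iff.mp (h ▸ J.normalCore_le)) hne
  have hker : (MulAction.toPermHom (alternatingGroup (Fin r)) (alternatingGroup (Fin r) ⧸ J)).ker = ⊥ := by
    rw [← Subgroup.normalCore_eq_ker, hcore]
  have hinj := (MonoidHom.ker_eq_bot_iff _).mp hker
  have h1 := Nat.card_le_card_of_injective _ hinj
  rw [Nat.card_perm] at h1
  change _ ≤ J.index.factorial at h1
  have h2 := alt_card hr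
  have h3 : J.index.factorial ≤ (r - 2).factorial := Nat.factorial_le hJ
  obtain ⟨t, rfl⟩ : ∃ t, r = t + 2 := ⟨r - 2, by omega⟩
  rw [Nat.add_sub_cancel] at h3
  have h4 : (t + 2).factorial = (t + 2) * ((t + 1) * t.factorial) := by
    rw [Nat.factorial_succ, Nat.factorial_succ]
  have h5 := Nat.factorial_pos t
  have h6 : (t + 2) * ((t + 1) * t.factorial) ≤ 2 * t.factorial := by omega
  have h7 : (t + 2) * (t + 1) * t.factorial ≤ 2 * t.factorial := by rw [mul_assoc]; exact h6
  have h8 := Nat.le_of_mul_le_mul_right h7 h5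
  nlinarith

/-- small modules over prime fields are trivial -/
theorem alt_trivial (s : ℕ) [Fact s.Prime] {r : ℕ} (hr : 9 ≤ r) {E : Type*} [AddCommGroup E] [Module (ZMod s) E]
    [FiniteDimensional (ZMod s) E] (h : finrank (ZMod s) E < r - 2)
    (g : alternatingGroup (Fin r) →* Module.End (ZMod s) E) (a : alternatingGroup (Fin r)) : g a = 1 := by
  classical
  let k' := AlgebraicClosure (ZMod s)
  haveI : CharP k' s := charP_of_injective_algebraMap (algebraMap (ZMod s) k').injective s
  let b : Basis (Fin (finrank (ZMod s) E)) (ZMod s) E := finBasis (ZMod s) E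
  let F1 : Module.End (ZMod s) E →* Matrix (Fin (finrank (ZMod s) E)) (Fin (finrank (ZMod s) E)) (ZMod s) :=
    (LinearMap.toMatrixAlgEquiv b : _ →* _)
  let F2 : Matrix (Fin (finrank (ZMod s) E)) (Fin (finrank (ZMod s) E)) (ZMod s) →*
      Matrix (Fin (finrank (ZMod s) E)) (Fin (finrank (ZMod s) E)) k' := RingHom.toMonoidHom ((algebraMap (ZMod s) k').mapMatrix)
  let F3 : Matrix (Fin (finrank (ZMod s) E)) (Fin (finrank (ZMod s) E)) k' →*
      Module.End k' (Fin (finrank (ZMod s) E) → k') :=
    RingHom.toMonoidHom (AlgHom.toRingHom (AlgEquiv.toAlgHom (Matrix.toLinAlgEquiv')))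
  have hF1 : Function.Injective F1 := (LinearMap.toMatrixAlgEquiv b).injective
  have hF2 : Function.Injective F2 := fun x y hxy => by
    ext i j
    exact (algebraMap (ZMod s) k').injective (congrFun (congrFun hxy i) j)
  have hF3 : Function.Injective F3 := (Matrix.toLinAlgEquiv' : _ ≃ₐ[k'] _).injective
  obtain ⟨F, hF⟩ : ∃ F : alternatingGroup (Fin r) →* Module.End k' (Fin (finrank (ZMod s) E) → k'),
    F = F3.comp (F2.comp (F1.comp g)) := ⟨_, rfl⟩
  have hFg : ∀ a, F a = 1 → g a = 1 := by
    intro a ha
    apply hF1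
    apply hF2
    apply hF3
    rw [hF] at ha
    rw [map_one, map_one, map_one]
    exact ha
  apply hFg
  let T : Perm (Fin r) → Module.End k' (Fin (finrank (ZMod s) E) → k') := fun c =>
    if hc : c.IsThreeCycle then F ⟨c, hc.mem_alternatingGroup⟩ else 1
  have hT : IsFam T := by
    refine ⟨fun c hc => dif_neg hc, fun c => ?_, fun c => ?_, fun c d hc => ?_⟩
    · by_cases hc : c.IsThreeCycle
      · simp only [T, dif_pos hc]
        rw [← map_pow, ← map_one F]
        congr 1
        apply Subtype.ext
        have := pow_orderOf_eq_one c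
        rw [hc.orderOf] at this
        exact this
      · simp only [T, dif_neg hc, one_pow]
    · by_cases hc : c.IsThreeCycle
      · simp only [T, dif_pos hc, dif_pos hc.inv]
        rw [← map_pow]
        congr 1
        apply Subtype.ext
        have := pow_orderOf_eq_one c
        rw [hc.orderOf] at this
        change c⁻¹ = c ^ 2
        rw [inv_eq_iff_mul_eq_one, ← pow_succ']
        exact this
      · have hc' : ¬ (c⁻¹).IsThreeCycle := fun h => hc (IsThreeCycle.inv_iff.mp h)
        simp only [T, dif_neg hc, dif_neg hc', one_pow]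
    · by_cases hd : d.IsThreeCycle
      · have hcd : (c * d * c⁻¹).IsThreeCycle := by
          unfold IsThreeCycle
          rw [cycleType_conj]
          exact hd
        simp only [T, dif_pos hc, dif_pos hd, dif_pos hcd]
        rw [← map_mul, ← map_mul]
        congr 1
        apply Subtype.ext
        simp
      · have hcd : ¬ (c * d * c⁻¹).IsThreeCycle := by
          intro h
          apply hd
          unfold IsThreeCycle at h ⊢
          rwa [cycleType_conj] at h
        simp only [T, dif_neg hd, dif_neg hcd, mul_one, one_mul]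
  have h1 := main_P (k := k') s r hr (Fin r) (Fintype.card_fin r) _ _ hT (by
    rw [Module.finrank_fin_fun]
    refine lt_of_lt_of_le h ?_
    split_ifs <;> omega)
  haveI := alt_simple hr
  have hker : (F.toHomUnits).ker ≠ ⊥ := by
    intro hb
    obtain ⟨a, b, x, y, z, hn⟩ := exists_five (α := Fin r) (by simp; omega)
    simp only [List.nodup_cons, List.mem_cons, List.not_mem_nil, or_false, not_or, List.nodup_nil, and_true,
        not_false_eq_true] at hn
    obtain ⟨⟨hab, hax, -⟩, ⟨hbx, -⟩, -⟩ := hn
    have hc : (cyc a b x).IsThreeCycle := cyc_three hab hax hbx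
    have h2 := h1 (cyc a b x)
    simp only [T, dif_pos hc] at h2
    have h3 : (⟨cyc a b x, hc.mem_alternatingGroup⟩ : alternatingGroup (Fin r)) ∈ (F.toHomUnits).ker := by
      rw [MonoidHom.mem_ker]
      exact Units.ext h2
    rw [hb, Subgroup.mem_bot] at h3
    exact hc.ne_one (congrArg Subtype.val h3)
  have htop := (Subgroup.Normal.eq_bot_or_eq_top (inferInstanceAs (F.toHomUnits).ker.Normal)).resolve_left hker
  have h4 : a ∈ (F.toHomUnits).ker := htop ▸ Subgroup.mem_top a
  rw [MonoidHom.mem_ker] at h4
  exact congrArg Units.val h4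

end Alt

end H49.TF
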