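import Cfsg.Agent.Lib.H49.TG5

set_option autoImplicit false
set_option linter.unusedSectionVars false

/-! Alternating sections of linear groups: the main theorem. -/

namespace H49.TF

open Equiv Equiv.Perm Module

universe u v

section

variable {k V H : Type*} [Field k] [AddCommGroup V] [Module k V] [Group H] {r : ℕ}

theorem map_top {π : H →* alternatingGroup (Fin r)} (hr : 9 ≤ r) (hπ : Function.Surjective π) (N : Subgroup H)
    [N.Normal] {h : H} (hh : h ∈ N) (h1 : π h ≠ 1) : N.map π = ⊤ := by
  haveI := alt_simple hr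
  haveI : (N.map π).Normal := Subgroup.Normal.map inferInstance π hπ
  rcases Subgroup.Normal.eq_bot_or_eq_top ‹(N.map π).Normal› with h2 | h2
  · exfalso
    apply h1
    rw [← Subgroup.mem_bot, ← h2]
    exact ⟨h, hh, rfl⟩
  · exact h2

/-- a normal subgroup with commutative image -/
theorem image_comm {π : H →* alternatingGroup (Fin r)} (hr : 9 ≤ r) (hπ : Function.Surjective π) (N : Subgroup H)
    [N.Normal] (hc : ∀ x ∈ N, ∀ y ∈ N, π (x * y) = π (y * x)) {h : H} (hh : h ∈ N) : π h = 1 := by
  by_contra h1
  have h2 := map_top hr hπ N hh h1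
  obtain ⟨a, b, hab⟩ := alt_noncomm hr
  have ha : a ∈ N.map π := h2 ▸ Subgroup.mem_top a
  have hb : b ∈ N.map π := h2 ▸ Subgroup.mem_top b
  obtain ⟨x, hx, rfl⟩ := ha
  obtain ⟨y, hy, rfl⟩ := hb
  apply hab
  rw [← map_mul, ← map_mul]
  exact hc x hx y hy

/-- reducible representations -/
theorem reducible_step {π : H →* alternatingGroup (Fin r)} (hr : 9 ≤ r) (hπ : Function.Surjective π)
    (ρ : H →* Module.End k V) (hker : ∀ h, ρ h = 1 → π h = 1) (U : Submodule k V)
    (hU : ∀ h, ∀ v ∈ U, ρ h v ∈ U) :
    (∀ h, (TF.res U).comp (ρ.codRestrict (Stab U) hU) h = 1 → π h = 1) ∨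
    (∀ h, (TF.quo U).comp (ρ.codRestrict (Stab U) hU) h = 1 → π h = 1) := by
  by_contra hcon
  push Not at hcon
  obtain ⟨⟨x, hx, hx1⟩, ⟨y, hy, hy1⟩⟩ := hcon
  obtain ⟨K1, hK1⟩ : ∃ K1, K1 = ((TF.res U).comp (ρ.codRestrict (Stab U) hU)).toHomUnits.ker := ⟨_, rfl⟩
  obtain ⟨K2, hK2⟩ : ∃ K2, K2 = ((TF.quo U).comp (ρ.codRestrict (Stab U) hU)).toHomUnits.ker := ⟨_, rfl⟩
  haveI n1 : K1.Normal := by rw [hK1]; infer_instance
  haveI n2 : K2.Normal := by rw [hK2]; infer_instance
  have m1 : ∀ g ∈ K1, ∀ v ∈ U, ρ g v = v := by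
    intro g hg v hv
    rw [hK1, MonoidHom.mem_ker] at hg
    have := congrArg (fun t : (Module.End k U)ˣ => ((t : Module.End k U) ⟨v, hv⟩ : U)) hg
    exact congrArg Subtype.val this
  have m2 : ∀ g ∈ K2, ∀ v, ρ g v - v ∈ U := by
    intro g hg v
    rw [hK2, MonoidHom.mem_ker] at hg
    have := congrArg (fun t : (Module.End k (V ⧸ U))ˣ => ((t : Module.End k (V ⧸ U)) (Submodule.Quotient.mk v) : V ⧸ U)) hg
    exact (Submodule.Quotient.eq U).mp this
  have hxK : x ∈ K1 := by rw [hK1, MonoidHom.mem_ker]; exact Units.ext hx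
  have hyK : y ∈ K2 := by rw [hK2, MonoidHom.mem_ker]; exact Units.ext hy
  have hc : ∀ a ∈ K1 ⊓ K2, ∀ b ∈ K1 ⊓ K2, π (a * b) = π (b * a) := by
    intro a ha b hb
    rw [Subgroup.mem_inf] at ha hb
    have e : ρ (a * b) = ρ (b * a) := by
      ext v
      have h1 : ∀ a b : H, a ∈ K1 → b ∈ K2 → ρ (a * b) v = ρ a v + (ρ b v - v) := by
        intro a b ha hb
        have : ρ b v = v + (ρ b v - v) := by abel
        rw [map_mul, Module.End.mul_apply]
        conv_lhs => rw [this]
        rw [map_add, m1 a ha _ (m2 b hb v)]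
      rw [h1 a b ha.1 hb.2, h1 b a hb.1 ha.2]
      abel
    have h2 : ρ (a * b * (b * a)⁻¹) = 1 := by
      rw [map_mul, e, ← map_mul, mul_inv_cancel, map_one]
    have h3 := hker _ h2
    rw [map_mul, map_inv, mul_inv_eq_one] at h3
    exact h3
  obtain ⟨a, b, hab⟩ := alt_noncomm hr
  have ha : a ∈ K1.map π := map_top hr hπ K1 hxK hx1 ▸ Subgroup.mem_top a
  have hb : b ∈ K2.map π := map_top hr hπ K2 hyK hy1 ▸ Subgroup.mem_top b
  obtain ⟨s, hs, rfl⟩ := ha
  obtain ⟨t, ht, rfl⟩ := hb
  apply hab
  have hst : s * t * s⁻¹ * t⁻¹ ∈ K1 ⊓ K2 := by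
    refine Subgroup.mem_inf.mpr ⟨?_, ?_⟩
    · have e : s * t * s⁻¹ * t⁻¹ = s * (t * s⁻¹ * t⁻¹) := by group
      rw [e]
      exact mul_mem hs (n1.conj_mem _ (inv_mem hs) t)
    · exact mul_mem (n2.conj_mem _ ht s) (inv_mem ht)
  have h4 := image_comm hr hπ (K1 ⊓ K2) hc hst
  rw [map_mul, map_mul, map_mul, map_inv, map_inv, mul_inv_eq_one, mul_inv_eq_iff_eq_mul] at h4
  exact h4

end

/-- automorphisms of an elementary abelian group are linear -/
def autEnd (s : ℕ) (N : Type*) [CommGroup N] [Module (ZMod s) (Additive N)] :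
    MulAut N →* Module.End (ZMod s) (Additive N) where
  toFun α := AddMonoidHom.toZModLinearMap s (MonoidHom.toAdditive α.toMonoidHom)
  map_one' := LinearMap.ext fun _ => rfl
  map_mul' _ _ := LinearMap.ext fun _ => rfl

theorem sq_lt_two_pow : ∀ t : ℕ, t * t < 2 ^ (t + 5) := by
  intro t
  induction t with
  | zero => norm_num
  | succ t ih =>
    have h1 : 2 ^ (t + 1 + 5) = 2 * 2 ^ (t + 5) := by rw [show t + 1 + 5 = (t + 5) + 1 by ring, pow_succ, mul_comm]
    have h2 : t < 2 ^ t := Nat.lt_two_pow_self
    have h3 : 2 ^ (t + 5) = 32 * 2 ^ t := by rw [pow_add]; ring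
    nlinarith

theorem sq_lt_two_pow' {t : ℕ} (ht : 5 ≤ t) : t * t < 2 ^ t := by
  obtain ⟨m, rfl⟩ : ∃ m, t = m + 5 := ⟨t - 5, by omega⟩
  clear ht
  induction m with
  | zero => norm_num
  | succ m ih =>
    have h1 : 2 ^ (m + 1 + 5) = 2 * 2 ^ (m + 5) := by rw [show m + 1 + 5 = (m + 5) + 1 by ring, pow_succ, mul_comm]
    rw [h1]
    nlinarith

/-- alternating groups act trivially on small elementary abelian groups -/
theorem section_trivial_aux (s : ℕ) [hs : Fact s.Prime] {r : ℕ} (hr : 9 ≤ r) {n : ℕ} (hn : n ≤ r - 2) {N : Type*}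
    [CommGroup N] [Finite N] [Module (ZMod s) (Additive N)] (hcard : Nat.card N ≤ n * n)
    (g : alternatingGroup (Fin r) →* MulAut N) (a : alternatingGroup (Fin r)) (x : N) : g a x = x := by
  haveI : Finite (Additive N) := inferInstanceAs (Finite N)
  have hdim : finrank (ZMod s) (Additive N) < r - 2 := by
    by_contra hd
    push Not at hd
    have h1 : Nat.card (Additive N) = s ^ finrank (ZMod s) (Additive N) := by
      rw [Module.natCard_eq_pow_finrank (K := ZMod s) (V := Additive N), Nat.card_zmod]
    have h2 : Nat.card (Additive N) = Nat.card N := rfl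
    have h3 : 2 ^ (r - 2) ≤ s ^ finrank (ZMod s) (Additive N) :=
      (Nat.pow_le_pow_left hs.out.two_le _).trans (Nat.pow_le_pow_right hs.out.pos hd)
    have h4 := sq_lt_two_pow' (t := r - 2) (by omega)
    have h5 : n * n ≤ (r - 2) * (r - 2) := Nat.mul_le_mul hn hn
    omega
  have h6 := alt_trivial s hr hdim ((autEnd s N).comp g) a
  exact congrArg (fun f : Module.End (ZMod s) (Additive N) => (f (Additive.ofMul x)).toMul) h6

/-- alternating groups act trivially on small elementary abelian groups -/
theorem section_trivial (s : ℕ) (hs : s.Prime) {r : ℕ} (hr : 9 ≤ r) {n : ℕ} (hn : n ≤ r - 2) {N : Type*}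
    [Group N] [Finite N] (hc : ∀ a b : N, a * b = b * a) (hNs : ∀ a : N, a ^ s = 1) (hcard : Nat.card N ≤ n * n)
    (g : alternatingGroup (Fin r) →* MulAut N) (a : alternatingGroup (Fin r)) (x : N) : g a x = x := by
  haveI : Fact s.Prime := ⟨hs⟩
  letI cg : CommGroup N := { (inferInstance : Group N) with mul_comm := hc }
  exact @section_trivial_aux s _ r hr n hn N cg _ (AddCommGroup.zmodModule (n := s) (fun x => by
    change Additive.ofMul (x.toMul ^ s) = 0
    rw [hNs]
    rfl)) hcard g a x

/-- the reduction of arbitrary sections -/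
theorem reduction {k : Type u} [Field k] [IsAlgClosed k] (p : ℕ) [Fact p.Prime] [CharP k p] {r : ℕ} (hr : 9 ≤ r) :
    ∀ (m : ℕ) (H : Type v) [Group H] [Finite H] (π : H →* alternatingGroup (Fin r)) (_ : Function.Surjective π)
      (V : Type u) [AddCommGroup V] [Module k V] [FiniteDimensional k V] (ρ : H →* Module.End k V)
      (_ : ∀ h, ρ h = 1 → π h = 1) (_ : finrank k V + Nat.card H ≤ m),
      r - 1 - (if p ∣ r then 1 else 0) ≤ finrank k V := by
  intro m
  induction m with
  | zero =>
    intro H _ _ π hπ V _ _ _ ρ hker hm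
    have := Nat.card_pos (α := H)
    omega
  | succ m ih =>
    intro H _ _ π hπ V _ _ _ ρ hker hm
    by_contra hcon
    push Not at hcon
    haveI := alt_simple hr
    have hn : finrank k V ≤ r - 2 := by split_ifs at hcon <;> omega
    -- irreducibility
    have hirr : IrrG ρ := by
      intro U hU
      by_contra hc
      push Not at hc
      obtain ⟨hU0, hU1⟩ := hc
      have hlt := Submodule.finrank_lt hU1
      have hpos : 0 < finrank k U := by
        haveI := Submodule.nontrivial_iff_ne_bot.mpr hU0
        exact Module.finrank_pos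
      have hsum := Submodule.finrank_quotient_add_finrank U
      rcases reducible_step hr hπ ρ hker U hU with h | h
      · have := ih H π hπ U _ h (by omega)
        omega
      · have := ih H π hπ (V ⧸ U) _ h (by omega)
        omega
    -- injectivity
    have hinj : Function.Injective ρ := by
      obtain ⟨L, hL⟩ : ∃ L, L = ρ.toHomUnits.ker := ⟨_, rfl⟩
      haveI hLn : L.Normal := by rw [hL]; infer_instance
      have hLmem : ∀ h, h ∈ L ↔ ρ h = 1 := by
        intro h
        rw [hL, MonoidHom.mem_ker]
        constructor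
        · intro h; exact congrArg Units.val h
        · intro h; exact Units.ext h
      by_cases hb : L = ⊥
      · intro x y hxy
        have : x * y⁻¹ ∈ L := by
          rw [hLmem, map_mul, hxy, ← map_mul, mul_inv_cancel, map_one]
        rw [hb, Subgroup.mem_bot, mul_inv_eq_one] at this
        exact this
      · exfalso
        have hle : L ≤ π.ker := fun h hh => hker h ((hLmem h).mp hh)
        have hcard := Subgroup.card_eq_card_quotient_mul_card_subgroup L
        have h2 : 2 ≤ Nat.card L := by
          haveI := (Subgroup.nontrivial_iff_ne_bot L).mpr hb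
          exact Finite.one_lt_card
        have h3 : 0 < Nat.card (H ⧸ L) := Nat.card_pos
        have h4 := ih (H ⧸ L) (QuotientGroup.lift L π hle) (fun a => by
          obtain ⟨h, rfl⟩ := hπ a
          exact ⟨h, rfl⟩) V (QuotientGroup.lift L ρ (fun h hh => (hLmem h).mp hh)) (fun x hx => by
            induction x using QuotientGroup.induction_on with
            | H h =>
              exact hker h hx) (by nlinarith)
        omega
    -- minimality
    have hmin : ∀ L : Subgroup H, L.map π = ⊤ → L = ⊤ := by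
      intro L hL
      by_contra hne
      have hlt : Nat.card L < Nat.card H := by
        have h1 := Subgroup.card_le_card_group L
        rcases h1.lt_or_eq with h | h
        · exact h
        · exact absurd ((Subgroup.card_eq_iff_eq_top L).mp h) hne
      have h4 := ih L (π.comp L.subtype) (fun a => by
        have : a ∈ L.map π := hL ▸ Subgroup.mem_top a
        obtain ⟨x, hx, rfl⟩ := this
        exact ⟨⟨x, hx⟩, rfl⟩) V (ρ.comp L.subtype) (fun x hx => hker x hx) (by omega)
      omega
    have hidx : ∀ L : Subgroup H, L.index ≤ finrank k V → L = ⊤ := by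
      intro L hL
      apply hmin
      apply alt_index hr
      have h1 := Subgroup.index_map_dvd L hπ
      have h2 : L.index ≠ 0 := Subgroup.index_ne_zero_of_finite
      have := Nat.le_of_dvd (Nat.pos_of_ne_zero h2) h1
      omega
    haveI hV : Nontrivial V := by
      by_contra hV
      rw [not_nontrivial_iff_subsingleton] at hV
      obtain ⟨a, b, hab⟩ := alt_noncomm hr
      obtain ⟨x, rfl⟩ := hπ a
      obtain ⟨y, rfl⟩ := hπ b
      apply hab
      have : x = y := hinj (by ext v; exact Subsingleton.elim _ _)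
      rw [this]
    -- the kernel is nilpotent
    have hfrat : π.ker ≤ frattini H := by
      intro x hx
      rw [frattini, Order.radical]
      simp only [Subgroup.mem_iInf]
      intro M hM
      by_contra hxM
      have hM' : M ⊔ π.ker = ⊤ := by
        apply hM.2
        refine lt_of_le_of_ne le_sup_left ?_
        intro h
        apply hxM
        rw [h]
        exact Subgroup.mem_sup_right hx
      apply hM.1
      apply hmin
      have h1 : (M ⊔ π.ker).map π = ⊤ := by
        rw [hM', ← MonoidHom.range_eq_map]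
        exact MonoidHom.range_eq_top.mpr hπ
      rw [Subgroup.map_sup] at h1
      rw [← h1]
      symm
      apply sup_eq_left.mpr
      rintro _ ⟨z, hz, rfl⟩
      rw [show π z = 1 from hz]
      exact one_mem _
    haveI hnil0 := frattini_nilpotent (G := H)
    have hnil : Group.IsNilpotent π.ker := by
      have h1 : Group.IsNilpotent ((π.ker).subgroupOf (frattini H)) := inferInstance
      exact Group.nilpotent_of_mulEquiv (Subgroup.subgroupOfEquivOfLe hfrat)
    have hperf : ⁅(⊤ : Subgroup H), (⊤ : Subgroup H)⁆ = ⊤ := by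
      apply hmin
      rw [Subgroup.map_commutator, ← MonoidHom.range_eq_map, MonoidHom.range_eq_top.mpr hπ]
      haveI hno : (⁅(⊤ : Subgroup (alternatingGroup (Fin r))), (⊤ : Subgroup (alternatingGroup (Fin r)))⁆).Normal :=
        inferInstance
      rcases Subgroup.Normal.eq_bot_or_eq_top hno with h | h
      · exfalso
        obtain ⟨a, b, hab⟩ := alt_noncomm hr
        rw [Subgroup.commutator_eq_bot_iff_le_centralizer] at h
        exact hab (Subgroup.mem_centralizer_iff.mp (h (Subgroup.mem_top b)) a (Subgroup.mem_top a))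
      · exact h
    -- the kernel is central
    have hcent : π.ker ≤ Subgroup.center H := by
      refine nilpotent_central hirr hinj hidx hperf π.ker hnil ?_
      intro s hs N hN hNc hNs hNK hNcard a ha b
      haveI : Fact s.Prime := ⟨hs⟩
      let φ : H →* MulAut N := (MulAut.conjNormal (H := N)).comp (QuotientGroup.mk' (Subgroup.center H))
      have hφ : π.ker ≤ φ.ker := by
        intro x hx
        rw [MonoidHom.mem_ker]
        ext n
        change (((x : H ⧸ Subgroup.center H) * n * (x : H ⧸ Subgroup.center H)⁻¹ : H ⧸ Subgroup.center H)) = n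
        rw [← hNK n n.2 x hx, mul_inv_cancel_right]
      let φ' : alternatingGroup (Fin r) →* MulAut N := π.liftOfSurjective hπ ⟨φ, hφ⟩
      have hφ' : ∀ x, φ' (π x) = φ x := fun x => MonoidHom.liftOfRightInverse_comp_apply π _ _ ⟨φ, hφ⟩ x
      have h6 := section_trivial s hs hr hn (N := N) (fun a b => Subtype.ext (hNc a a.2 b b.2))
        (fun a => Subtype.ext (hNs _ a.2)) hNcard φ' (π b) ⟨a, ha⟩
      rw [hφ'] at h6
      have h7 : (b : H ⧸ Subgroup.center H) * a * (b : H ⧸ Subgroup.center H)⁻¹ = a := congrArg Subtype.val h6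
      exact (mul_inv_eq_iff_eq_mul.mp h7).symm
    have := central_bound p hr hπ hcent ρ hinj
    omega

end H49.TF
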