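import Cfsg.Agent.Lib.H49.XE14
import Cfsg.Agent.Lib.H77.Canon
import Cfsg.Agent.S0888
import Cfsg.Prelude.Def_Transfer

/-!
# Final assembly
-/

set_option autoImplicit false
set_option linter.unusedSectionVars false
set_option linter.style.haveILetI false
set_option linter.unusedVariables false
set_option maxHeartbeats 400000

namespace H49.XE

open Cfsg Representation H18.CharBasic H18.CharOrtho
open scoped ComplexConjugate commutatorElement

universe u

variable {G : Type u} [Group G] {E R K : Subgroup G} {z : G}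

/-- the structure of an extraspecial 2-group -/
theorem sp_of_extraspecial [Finite G] (hE : IsExtraspecial 2 ↥E) : ∃ z, Sp E z ∧
    ∀ x : E, x ∈ Subgroup.center E ↔ (x : G) = 1 ∨ (x : G) = z := by
  obtain ⟨⟨hp, hfr, hcomm⟩, hcard⟩ := hE
  haveI : Fact (Nat.Prime 2) := ⟨Nat.prime_two⟩
  obtain ⟨c, hc⟩ := (isCyclic_of_prime_card hcard).exists_generator
  have hord : orderOf c = 2 := by
    rw [orderOf_eq_card_of_forall_mem_zpowers hc, hcard]
  have hcc : c * c = 1 := by rw [← pow_two, ← hord, pow_orderOf_eq_one]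
  have hc1 : c ≠ 1 := by
    intro h; rw [h, orderOf_one] at hord; omega
  have hmem : ∀ x : Subgroup.center E, x = 1 ∨ x = c := by
    intro x
    obtain ⟨n, hn⟩ := hc x
    have hn' : c ^ n = x := hn
    rcases Int.even_or_odd' n with ⟨k, rfl | rfl⟩
    · left
      rw [← hn', zpow_mul, zpow_two, hcc, one_zpow]
    · right
      rw [← hn', zpow_add, zpow_mul, zpow_two, hcc, one_zpow, one_mul, zpow_one]
  have hcen : ∀ x : E, x ∈ Subgroup.center E ↔ (x : G) = 1 ∨ (x : G) = ((c : E) : G) := by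
    intro x
    constructor
    · intro hx
      rcases hmem ⟨x, hx⟩ with h1 | h1
      · left; exact congrArg (fun y : Subgroup.center E => ((y : E) : G)) h1
      · right; exact congrArg (fun y : Subgroup.center E => ((y : E) : G)) h1
    · rintro (h1 | h1)
      · have : x = 1 := Subtype.ext h1
        rw [this]; exact Subgroup.one_mem _
      · have : x = (c : E) := Subtype.ext h1
        rw [this]; exact c.2
  refine ⟨((c : E) : G), ⟨(c : E).2, ?_, ?_, ?_, ?_, ?_⟩, hcen⟩
  · intro h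
    exact hc1 (Subtype.ext (Subtype.ext h))
  · exact congrArg (fun y : Subgroup.center E => ((y : E) : G)) hcc
  · intro x hx
    have h1 := Subgroup.mem_center_iff.1 c.2 ⟨x, hx⟩
    exact (congrArg Subtype.val h1).symm
  · intro x hx y hy
    have h1 : ⁅(⟨x, hx⟩ : E), (⟨y, hy⟩ : E)⁆ ∈ commutator E :=
      Subgroup.commutator_mem_commutator (Subgroup.mem_top _) (Subgroup.mem_top _)
    rw [hcomm, hcen] at h1
    have h2 : ((⁅(⟨x, hx⟩ : E), (⟨y, hy⟩ : E)⁆ : E) : G) = x * y * x⁻¹ * y⁻¹ := rfl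
    rw [h2] at h1
    rcases h1 with h3 | h3
    · left
      have h4 : x * y = (x * y * x⁻¹ * y⁻¹) * (y * x) := by group
      rw [h4, h3, one_mul]
    · right
      have h4 : x * y = (x * y * x⁻¹ * y⁻¹) * (y * x) := by group
      rw [h4, h3]
      
  · intro x hx h
    apply (hcen ⟨x, hx⟩).1
    rw [Subgroup.mem_center_iff]
    intro g
    exact Subtype.ext (h g g.2).symm

theorem z_central [hN : E.Normal] (h : Sp E z)
    (hcen : ∀ x : E, x ∈ Subgroup.center E ↔ (x : G) = 1 ∨ (x : G) = z) (g : G) : g * z = z * g := by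
  have h1 : (⟨g * z * g⁻¹, hN.conj_mem z h.zm g⟩ : E) ∈ Subgroup.center E := by
    rw [Subgroup.mem_center_iff]
    rintro ⟨y, hy⟩
    apply Subtype.ext
    show y * (g * z * g⁻¹) = (g * z * g⁻¹) * y
    have h2 : g⁻¹ * y * g ∈ E := by
      have := hN.conj_mem y hy g⁻¹
      rwa [inv_inv] at this
    have h3 := h.zc _ h2
    calc y * (g * z * g⁻¹) = g * ((g⁻¹ * y * g) * z) * g⁻¹ := by group
      _ = _ := by rw [← h3]; group
  rcases (hcen _).1 h1 with h2 | h2
  · exfalso
    have h3 : g * z * g⁻¹ = 1 := h2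
    exact h.z1 (by
      have h4 : z = g⁻¹ * (g * z * g⁻¹) * g := by group
      rw [h4, h3]; group)
  · exact mul_inv_eq_iff_eq_mul.1 h2

/-- the fixed points of `K` with `[E, K] = E` -/
theorem fx_of_commutator [hN : E.Normal] (h : Sp E z) (hEK : ⁅E, K⁆ = E) :
    ∀ e ∈ E, (∀ k ∈ K, k * e = e * k) → e = 1 ∨ e = z := by
  intro e he hk
  refine h.nd e he fun y hy => ?_
  have h1 : ⁅E, K⁆ ≤ Subgroup.centralizer ({e} : Set G) := by
    rw [Subgroup.commutator_le]
    intro x hx k hkK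
    rw [Subgroup.mem_centralizer_singleton_iff, commutatorElement_def]
    have h2 : k⁻¹ * e = e * k⁻¹ := hk _ (K.inv_mem hkK)
    have h3 : k * e = e * k := hk _ hkK
    rcases h.cm x hx e he with h4 | h4
    · have h5 : x⁻¹ * e = e * x⁻¹ := by
        calc x⁻¹ * e = x⁻¹ * (e * x) * x⁻¹ := by group
          _ = x⁻¹ * (x * e) * x⁻¹ := by rw [h4]
          _ = _ := by group
      calc x * k * x⁻¹ * k⁻¹ * e = x * k * x⁻¹ * (k⁻¹ * e) := by group
        _ = x * k * (x⁻¹ * e) * k⁻¹ := by rw [h2]; group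
        _ = x * (k * e) * x⁻¹ * k⁻¹ := by rw [h5]; group
        _ = (x * e) * k * x⁻¹ * k⁻¹ := by rw [h3]; group
        _ = _ := by rw [h4]; group
    · have hzx := h.zc x hx
      have h5 : x⁻¹ * e = z * (e * x⁻¹) := by
        have h6 : e * x = z * (x * e) := by rw [h4, ← mul_assoc, h.zz, one_mul]
        calc x⁻¹ * e = x⁻¹ * (e * x) * x⁻¹ := by group
          _ = (x⁻¹ * z) * x * e * x⁻¹ := by rw [h6]; group
          _ = _ := by rw [← h.zc x⁻¹ (E.inv_mem hx)]; group
      have hkz : ∀ g ∈ K, g * z = z * g → True := fun _ _ _ => trivial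
      have hzk : k * z * k⁻¹ = z ∨ True := Or.inr trivial
      -- `z` commutes with everything
      have hzc : ∀ g : G, g * z = z * g := by
        intro g
        have h7 : (⟨g * z * g⁻¹, hN.conj_mem z h.zm g⟩ : E).1 = 1 ∨
            (⟨g * z * g⁻¹, hN.conj_mem z h.zm g⟩ : E).1 = z := by
          refine h.nd _ (hN.conj_mem z h.zm g) fun y hy => ?_
          have h2 : g⁻¹ * y * g ∈ E := by
            have := hN.conj_mem y hy g⁻¹
            rwa [inv_inv] at this
          have h3 := h.zc _ h2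
          calc (g * z * g⁻¹) * y = g * (z * (g⁻¹ * y * g)) * g⁻¹ := by group
            _ = _ := by rw [h3]; group
        rcases h7 with h8 | h8
        · exfalso
          have h9 : g * z * g⁻¹ = 1 := h8
          exact h.z1 (by
            have h4 : z = g⁻¹ * (g * z * g⁻¹) * g := by group
            rw [h4, h9]; group)
        · exact mul_inv_eq_iff_eq_mul.1 h8
      calc x * k * x⁻¹ * k⁻¹ * e = x * k * x⁻¹ * (k⁻¹ * e) := by group
        _ = x * k * (x⁻¹ * e) * k⁻¹ := by rw [h2]; group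
        _ = x * (k * z) * e * x⁻¹ * k⁻¹ := by rw [h5]; group
        _ = (x * z) * (k * e) * x⁻¹ * k⁻¹ := by rw [hzc k]; group
        _ = z * (x * e) * k * x⁻¹ * k⁻¹ := by rw [h3, hzc x]; group
        _ = (z * z) * (e * (x * k * x⁻¹ * k⁻¹)) := by rw [h4]; group
        _ = _ := by rw [h.zz, one_mul]
  rw [hEK] at h1
  exact (Subgroup.mem_centralizer_singleton_iff.1 (h1 hy)).symm

/-- from a pair of representations to a character of `E R` -/
theorem char_of_pr [Finite G] [hN : E.Normal] (h : Sp E z) (hER : E ⊓ R = ⊥) (p : Pr E R z)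
    {θ : E → ℂ} {σ : ℕ} (hθ1 : θ 1 = σ) (hσ : 2 * σ ^ 2 = Nat.card E)
    (hθz : θ ⟨z, h.zm⟩ = -σ) (hθ0 : ∀ e : E, (e : G) ≠ 1 → (e : G) ≠ z → θ e = 0) :
    ∃ η : ↥(E ⊔ R) → ℂ, IsIrrCharacter ↥(E ⊔ R) η ∧
      ∀ e : E, η ⟨e, (le_sup_left : E ≤ E ⊔ R) e.2⟩ = θ e := by
  classical
  obtain ⟨V, _, _, _, ρ, T, m, l⟩ := p
  have hex : ∀ g ∈ E ⊔ R, ∃ e ∈ E, ∃ c ∈ R, g = e * c := by
    intro g hg
    have h1 : (g : G) ∈ ((E ⊔ R : Subgroup G) : Set G) := hg
    rw [Subgroup.normal_mul] at h1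
    obtain ⟨e, he, c, hc, rfl⟩ := Set.mem_mul.1 h1
    exact ⟨e, he, c, hc, rfl⟩
  let τ : G → Module.End ℂ V := fun g =>
    if hh : ∃ p : G × G, p.1 ∈ E ∧ p.2 ∈ R ∧ g = p.1 * p.2 then ρ hh.choose.1 * T hh.choose.2 else 1
  have hτ : ∀ e ∈ E, ∀ c ∈ R, τ (e * c) = ρ e * T c := by
    intro e he c hc
    have hh : ∃ p : G × G, p.1 ∈ E ∧ p.2 ∈ R ∧ e * c = p.1 * p.2 := ⟨(e, c), he, hc, rfl⟩
    show (if hh : ∃ p : G × G, p.1 ∈ E ∧ p.2 ∈ R ∧ e * c = p.1 * p.2 then
      ρ hh.choose.1 * T hh.choose.2 else 1) = _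
    rw [dif_pos hh]
    obtain ⟨h1, h2, h3⟩ := hh.choose_spec
    revert h1 h2 h3
    generalize hh.choose = q
    intro h1 h2 h3
    have h4 : q.1⁻¹ * e ∈ E ⊓ R := by
      refine ⟨E.mul_mem (E.inv_mem h1) he, ?_⟩
      have h5 : q.1⁻¹ * e = q.2 * c⁻¹ := by
        calc q.1⁻¹ * e = q.1⁻¹ * (e * c) * c⁻¹ := by group
          _ = _ := by rw [h3]; group
      rw [h5]
      exact R.mul_mem h2 (R.inv_mem hc)
    rw [hER, Subgroup.mem_bot, inv_mul_eq_one] at h4
    have h5 : q.2 = c := by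
      rw [h4] at h3
      exact (mul_left_cancel h3).symm
    rw [h4, h5]
  have hτE : ∀ e ∈ E, τ e = ρ e := by
    intro e he
    have := hτ e he 1 R.one_mem
    rwa [mul_one, l.one, mul_one] at this
  let τP : Representation ℂ ↥(E ⊔ R) V :=
    { toFun := fun g => τ g
      map_one' := by
        show τ ((1 : ↥(E ⊔ R)) : G) = 1
        rw [Subgroup.coe_one, hτE 1 E.one_mem, m.one]
      map_mul' := by
        rintro ⟨g, hg⟩ ⟨g', hg'⟩
        show τ (g * g') = τ g * τ g'
        obtain ⟨e, he, c, hc, rfl⟩ := hex g hg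
        obtain ⟨e', he', c', hc', rfl⟩ := hex g' hg'
        have h1 : e * c * (e' * c') = (e * (c * e' * c⁻¹)) * (c * c') := by group
        have h2 := hN.conj_mem e' he' c
        rw [h1, hτ _ (E.mul_mem he h2) _ (R.mul_mem hc hc'), hτ e he c hc, hτ e' he' c' hc',
          m.mul e he _ h2, l.mul c hc c' hc']
        calc ρ e * ρ (c * e' * c⁻¹) * (T c * T c') = ρ e * (ρ (c * e' * c⁻¹) * T c) * T c' := by
              simp only [mul_assoc]
          _ = _ := by rw [← l.cj c hc e' he']; simp only [mul_assoc] }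
  have hirr : τP.IsIrreducible := by
    let e : ↥(E.subgroupOf (E ⊔ R)) ≃* E := Subgroup.subgroupOfEquivOfLe le_sup_left
    apply H19.ProjExt2.isIrreducible_of_restrict (N := E.subgroupOf (E ⊔ R))
    have h1 := H19.ProjExt.isIrreducible_comp_equiv (N := E) e (m.irr h)
    convert h1 using 1
    ext1 x
    exact hτE _ (e x).2
  refine ⟨τP.character, isIrrCharacter_of_rep τP hirr, ?_⟩
  intro e
  show LinearMap.trace ℂ V (τ e) = θ e
  rw [hτE e e.2]
  have hfr : Module.finrank ℂ V = σ := by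
    have h1 := m.card
    rw [← hσ] at h1
    have h2 : Module.finrank ℂ V ^ 2 = σ ^ 2 := by omega
    exact Nat.pow_left_injective (by norm_num : (2 : ℕ) ≠ 0) h2
  by_cases h1 : (e : G) = 1
  · have : e = 1 := Subtype.ext h1
    rw [h1, m.trace_one, hfr, this, hθ1]
  by_cases h2 : (e : G) = z
  · have : e = ⟨z, h.zm⟩ := Subtype.ext h2
    rw [h2, m.trace_z, hfr, this, hθz]
  · rw [m.trace_zero h e.2 h1 h2, hθ0 e h1 h2]

end H49.XE
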