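import Cfsg.Agent.Lib.H49.XE15

/-!
# Extension of the faithful character of an extraspecial 2-group
-/

set_option autoImplicit false
set_option linter.unusedSectionVars false
set_option linter.style.haveILetI false
set_option linter.unusedVariables false
set_option maxHeartbeats 400000

namespace H49.XE

open Cfsg Representation H18.CharBasic H18.CharOrtho
open scoped ComplexConjugate commutatorElement

universe u

theorem extend_main {G : Type u} [Group G] [Finite G] (E H : Subgroup G) [hN : E.Normal]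
    (hE : Cfsg.IsExtraspecial 2 ↥E) (hEH : E ⊓ H = ⊥) (hEHtop : E ⊔ H = ⊤) (K : Subgroup G)
    (hKn : ∀ h ∈ H, ∀ k ∈ K, h * k * h⁻¹ ∈ K)
    (hKodd : Odd (Nat.card ↥K)) (hEK : ⁅E, K⁆ = E) (θ : Cfsg.IrrCharacter ↥E)
    (hθ : ∀ e : ↥E, (θ : ↥E → ℂ) e = (θ : ↥E → ℂ) 1 → e = 1) (hsolv : Group.IsSolvable K) :
    ∃ χ : Cfsg.IrrCharacter G, ∀ e : ↥E, (χ : G → ℂ) e = (θ : ↥E → ℂ) e := by
  classical
  obtain ⟨z, h, hcen⟩ := sp_of_extraspecial hE
  have hzc := z_central h hcen
  obtain ⟨θ, hθirr⟩ := θ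
  have hθirr' := hθirr
  obtain ⟨n, σ, hσ, rfl⟩ := hθirr
  have hθ' : ∀ e : ↥E, σ.character e = σ.character 1 → e = 1 := hθ
  have hne : σ.character ⟨z, h.zm⟩ ≠ σ.character 1 := by
    intro h1
    exact h.z1 (congrArg Subtype.val (hθ' _ h1))
  have m := h.md_of_rep σ hσ hne
  have hval : ∀ e : E, σ.character e = LinearMap.trace ℂ (Fin n → ℂ) (tot E σ e) := by
    intro e
    rw [tot_apply σ e.2]
    rfl
  set d := Module.finrank ℂ (Fin n → ℂ) with hd
  have hv1 : σ.character 1 = d := by
    rw [hval, Subgroup.coe_one]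
    exact m.trace_one
  have hvz : σ.character ⟨z, h.zm⟩ = -d := by
    rw [hval]
    exact m.trace_z
  have hv0 : ∀ e : E, (e : G) ≠ 1 → (e : G) ≠ z → σ.character e = 0 := by
    intro e h1 h2
    rw [hval]
    exact m.trace_zero h e.2 h1 h2
  have hinv : ∀ (g : G) (x : E), σ.character ⟨g * x * g⁻¹, hN.conj_mem (x : G) x.2 g⟩ =
      σ.character x := by
    intro g x
    by_cases h1 : (x : G) = 1
    · have h2 : (⟨g * x * g⁻¹, hN.conj_mem (x : G) x.2 g⟩ : E) = x := Subtype.ext (by
        show g * x * g⁻¹ = x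
        rw [h1]; simp)
      rw [h2]
    by_cases h3 : (x : G) = z
    · have h2 : (⟨g * x * g⁻¹, hN.conj_mem (x : G) x.2 g⟩ : E) = x := Subtype.ext (by
        show g * x * g⁻¹ = x
        rw [h3, hzc g, mul_inv_cancel_right])
      rw [h2]
    rw [hv0 x h1 h3, hv0]
    · intro h4
      apply h1
      have h4' : g * x * g⁻¹ = 1 := h4
      have h5 : (x : G) = g⁻¹ * (g * x * g⁻¹) * g := by group
      rw [h5, h4']; group
    · intro h4
      apply h3
      have h4' : g * x * g⁻¹ = z := h4
      have h5 : (x : G) = g⁻¹ * (g * x * g⁻¹) * g := by group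
      rw [h5, h4', mul_assoc, ← hzc g]; group
  obtain ⟨χ, hχ, hχ'⟩ := Cfsg.Agent.S0888.result E σ.character hθirr' hinv (by
    intro p hp
    haveI : Fact p.Prime := ⟨hp⟩
    obtain ⟨S⟩ : Nonempty (Sylow p H) := inferInstance
    set R : Subgroup G := (S : Subgroup H).map H.subtype with hR
    have hRH : R ≤ H := by
      rintro _ ⟨y, hy, rfl⟩
      exact y.2
    have hRp : IsPGroup p R := S.isPGroup'.map H.subtype
    have hER : E ⊓ R = ⊥ := by
      rw [eq_bot_iff, ← hEH]
      exact inf_le_inf_left _ hRH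
    have hcR : Nat.card R = Nat.card (S : Subgroup H) :=
      (Nat.card_congr ((S : Subgroup H).equivMapOfInjective _ H.subtype_injective).toEquiv).symm
    have hle : E ≤ E ⊔ R := le_sup_left
    have hnorm : ∀ A : Subgroup G, A ≤ Subgroup.normalizer (E : Set G) := fun A =>
      le_trans le_top (by rw [Subgroup.normalizer_eq_top])
    have hc1 : Nat.card (E ⊔ R : Subgroup G) = Nat.card E * Nat.card R := by
      have h1 := H3.CardSup.card_sup_mul_card_inf R E (hnorm R)
      rw [sup_comm, inf_comm, hER, Subgroup.card_bot, mul_one] at h1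
      rw [h1, mul_comm]
    have hc2 : Nat.card G = Nat.card E * Nat.card H := by
      have h1 := H3.CardSup.card_sup_mul_card_inf H E (hnorm H)
      rw [sup_comm, inf_comm, hEH, Subgroup.card_bot, mul_one, hEHtop, Subgroup.card_top] at h1
      rw [h1, mul_comm]
    have hEpos : 0 < Nat.card E := Nat.card_pos
    have hRpos : 0 < Nat.card R := Nat.card_pos
    have hidx : (E ⊔ R).index = (S : Subgroup H).index := by
      have h1 := (E ⊔ R).card_mul_index
      have h2 := (S : Subgroup H).card_mul_index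
      rw [hc1, hc2, ← h2, ← hcR, mul_assoc] at h1
      have h3 := Nat.eq_of_mul_eq_mul_left hEpos h1
      exact Nat.eq_of_mul_eq_mul_left hRpos h3
    have hrel : E.relIndex (E ⊔ R) = Nat.card R := by
      have h1 := (E.subgroupOf (E ⊔ R)).card_mul_index
      have h2 : Nat.card (E.subgroupOf (E ⊔ R)) = Nat.card E :=
        Nat.card_congr (Subgroup.subgroupOfEquivOfLe hle).toEquiv
      rw [h2, hc1] at h1
      exact Nat.eq_of_mul_eq_mul_left hEpos h1
    obtain ⟨k, hk⟩ := IsPGroup.iff_card.1 hRp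
    have hcop : Nat.Coprime (E ⊔ R).index p := by
      rw [hidx, Nat.coprime_comm, hp.coprime_iff_not_dvd]
      exact S.not_dvd_index
    by_cases hp2 : p = 2
    · subst hp2
      have hPr : Pr E R z := h9 hsolv hKodd _ E rfl h (fun k _ e he => hN.conj_mem e he k)
        (fun k _ => hzc k) (fx_of_commutator h hEK)
        ⟨hRp, fun c _ e he => hN.conj_mem e he c, fun c _ => hzc c,
          fun c hc k hk => hKn c (hRH hc) k hk⟩
      obtain ⟨η, hη, hη'⟩ := char_of_pr h hER hPr (θ := σ.character) (σ := d) hv1 m.card hvz hv0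
      exact ⟨E ⊔ R, hle, η, hcop, ⟨k, by rw [hrel, hk]⟩, hη, hη'⟩
    · let e : ↥(E.subgroupOf (E ⊔ R)) ≃* E := Subgroup.subgroupOfEquivOfLe hle
      have hθP : IsIrrCharacter ↥(E.subgroupOf (E ⊔ R)) (fun x => σ.character (e x)) :=
        isIrrCharacter_comp e.toMonoidHom e.surjective hθirr'
      have hcardE : (Nat.card (E.subgroupOf (E ⊔ R))).Coprime (E.subgroupOf (E ⊔ R)).index := by
        have h2 : Nat.card (E.subgroupOf (E ⊔ R)) = Nat.card E :=
          Nat.card_congr (Subgroup.subgroupOfEquivOfLe hle).toEquiv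
        have h3 : (E.subgroupOf (E ⊔ R)).index = Nat.card R := hrel
        rw [h2, h3, hk]
        apply Nat.Coprime.pow_right
        rw [Nat.coprime_comm, hp.coprime_iff_not_dvd]
        exact h.card_coprime hp hp2
      obtain ⟨χ, h1, -⟩ := H77.Canon.canon_exists (E.subgroupOf (E ⊔ R)) hcardE ⟨_, hθP⟩
        (fun x y => hinv (x : G) (e y))
      refine ⟨E ⊔ R, hle, χ, hcop, ⟨k, by rw [hrel, hk]⟩, χ.2, fun y => ?_⟩
      have h2 := h1 (e.symm y)
      have h3 : ((e.symm y : ↥(E.subgroupOf (E ⊔ R))) : ↥(E ⊔ R)) = ⟨y, hle y.2⟩ := rfl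
      rw [h3] at h2
      rw [h2]
      show σ.character (e (e.symm y)) = σ.character y
      rw [e.apply_symm_apply])
  exact ⟨⟨χ, hχ⟩, hχ'⟩

end H49.XE
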